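import Cfsg.Agent.H7.IBr
import Cfsg.Agent.H7.Second
import Cfsg.Agent.H5.Kernel
import Cfsg.Agent.H5.Column

/-! The Brauer–Nesbitt argument on the Cartan number `c₁₁`: `C11.exists_triv` (the trivial Brauer
character), `C11.exists_mult` (multiplicities in `1_H^G` dominate the column of `Φ₁`),
`C11.cart_le` (`c₁₁ ≤ |G : QR|` for `p'`-subgroups of coprime orders), `C11.normal` (if the number
of `p`-regular elements is `|Q||R|` then they form a normal subgroup). -/

open H5 H7 Cfsg
open scoped ComplexConjugate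

namespace H13
namespace C11

variable {G : Type*} [Group G] [Fintype G] {p : ℕ} [hp : Fact p.Prime] {M : Ideal AlgInt}
  [PM p M]

omit hp in
theorem exists_triv : ∃ i : IBr M G, dec (fun _ : G => (1 : ℂ)) i = 1 ∧
    ∀ j, j ≠ i → dec (fun _ : G => (1 : ℂ)) j = 0 := by
  classical
  obtain ⟨i, hi⟩ := exists_dec_ne_zero (M := M) (isIrrCharacter_one (G := G))
  have h := apply_one_eq_sum (M := M) (isCharacter_one (G := G))
  have h' : 1 = ∑ j : IBr M G, dec (fun _ : G => (1 : ℂ)) j * bdeg j := by exact_mod_cast h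
  rw [← Finset.add_sum_erase _ _ (Finset.mem_univ i)] at h'
  have h1 : 0 < dec (fun _ : G => (1 : ℂ)) i * bdeg i :=
    Nat.mul_pos (Nat.pos_of_ne_zero hi) (bdeg_pos i)
  have h2 : dec (fun _ : G => (1 : ℂ)) i * bdeg i = 1 := by omega
  have h3 : ∑ j ∈ Finset.univ.erase i, dec (fun _ : G => (1 : ℂ)) j * bdeg j = 0 := by omega
  refine ⟨i, Nat.eq_one_of_mul_eq_one_right h2, fun j hj => ?_⟩
  rw [Finset.sum_eq_zero_iff] at h3
  have := h3 j (Finset.mem_erase.2 ⟨hj, Finset.mem_univ _⟩)
  have hb := bdeg_pos j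
  rcases Nat.mul_eq_zero.1 this with h | h
  · exact h
  · omega

theorem exists_mult {i : IBr M G} (hi : dec (fun _ : G => (1 : ℂ)) i = 1)
    (hi' : ∀ j, j ≠ i → dec (fun _ : G => (1 : ℂ)) j = 0) (H : Subgroup G) [Fintype H]
    (hH : ¬ p ∣ Nat.card H) :
    ∃ m : IrrCharacter G → ℕ, ∀ χ : IrrCharacter G, dec (χ : G → ℂ) i ≤ m χ ∧
      ∑ x : H, (χ : G → ℂ) x = Nat.card H * m χ := by
  classical
  have hn : ∀ j : IBr M G, ∃ n : ℕ, ∑ x : H, bch p j x = Nat.card H * n := fun j => by
    obtain ⟨n, hn⟩ := (isCharacter_bch_comp (p := p) hH H.subtype j).exists_classInner_nat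
      isCharacter_one
    refine ⟨n, ?_⟩
    rw [← hn, card_mul_classInner]
    simp
  choose n hn using hn
  have hreg : ∀ x : H, ¬ p ∣ orderOf (x : G) := fun x h => by
    rw [Subgroup.orderOf_coe] at h
    exact hH (h.trans (orderOf_dvd_natCard x))
  have key : ∀ χ : G → ℂ, IsCharacter G χ →
      ∑ x : H, χ x = Nat.card H * ((∑ j : IBr M G, dec χ j * n j : ℕ) : ℂ) := fun χ hχ => by
    rw [Finset.sum_congr rfl fun x _ => apply_eq_sum_bch (M := M) (p := p) hχ (hreg x),
      Finset.sum_comm]
    push_cast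
    rw [Finset.mul_sum]
    refine Finset.sum_congr rfl fun j _ => ?_
    rw [← Finset.mul_sum, hn]
    ring
  have h1 : n i = 1 := by
    have h := key _ isCharacter_one
    rw [Finset.sum_eq_single i (fun j _ hj => by rw [hi' j hj, zero_mul]) (by simp), hi,
      one_mul] at h
    simp only [Finset.sum_const, Finset.card_univ, nsmul_eq_mul, mul_one] at h
    rw [← Nat.card_eq_fintype_card] at h
    have h0 : (Nat.card H : ℂ) ≠ 0 := card_ne_zero_complex
    have : (n i : ℂ) = 1 := by
      apply mul_left_cancel₀ h0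
      rw [← h, mul_one]
    exact_mod_cast this
  refine ⟨fun χ => ∑ j : IBr M G, dec (χ : G → ℂ) j * n j, fun χ => ⟨?_, key _ χ.2.isCharacter⟩⟩
  calc dec (χ : G → ℂ) i = dec (χ : G → ℂ) i * n i := by rw [h1, mul_one]
    _ ≤ _ := Finset.single_le_sum (f := fun j => dec (χ : G → ℂ) j * n j)
        (fun _ _ => Nat.zero_le _) (Finset.mem_univ i)

theorem cart_le {i : IBr M G} (hi : dec (fun _ : G => (1 : ℂ)) i = 1)
    (hi' : ∀ j, j ≠ i → dec (fun _ : G => (1 : ℂ)) j = 0) (Q R : Subgroup G)
    (hQ : ¬ p ∣ Nat.card Q) (hR : ¬ p ∣ Nat.card R) (hc : (Nat.card Q).Coprime (Nat.card R)) :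
    cart i i * (Nat.card Q * Nat.card R) ≤ Nat.card G := by
  classical
  have := Fintype.ofFinite Q
  have := Fintype.ofFinite R
  obtain ⟨m, hm⟩ := exists_mult hi hi' Q hQ
  obtain ⟨n, hn⟩ := exists_mult hi hi' R hR
  have h1 : ∑ χ : IrrCharacter G, (∑ x : Q, (χ : G → ℂ) x) * conj (∑ y : R, (χ : G → ℂ) y)
      = Nat.card G := by
    simp only [map_sum, Finset.sum_mul, Finset.mul_sum]
    rw [Finset.sum_comm, Finset.sum_eq_single (1 : R), Finset.sum_comm,
      Finset.sum_eq_single (1 : Q)]
    · rw [sum_irr_mul_conj_of_isConj (by simp)]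
      simp only [OneMemClass.coe_one]
      rw [Subgroup.centralizer_eq_top_iff_subset.2 (by simp), Subgroup.card_top]
    · intro x _ hx
      refine sum_irr_mul_conj_of_not_isConj fun h => hx ?_
      simpa using h
    · simp
    · intro y _ hy
      rw [Finset.sum_comm]
      refine Finset.sum_eq_zero fun x _ => sum_irr_mul_conj_of_not_isConj fun h => hy ?_
      have h2 : orderOf (x : G) = orderOf (y : G) := by
        obtain ⟨c, hc⟩ := isConj_iff.1 h
        rw [← hc]
        exact ((MulAut.conj c).orderOf_eq (x : G)).symm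
      rw [Subgroup.orderOf_coe, Subgroup.orderOf_coe] at h2
      have h3 : orderOf y ∣ 1 := by
        rw [← hc]
        exact Nat.dvd_gcd (h2 ▸ orderOf_dvd_natCard x) (orderOf_dvd_natCard y)
      exact orderOf_eq_one_iff.1 (Nat.dvd_one.1 h3)
    · simp
  have h2 : (∑ χ : IrrCharacter G, m χ * n χ) * (Nat.card Q * Nat.card R) = Nat.card G := by
    have : (((∑ χ : IrrCharacter G, m χ * n χ) * (Nat.card Q * Nat.card R) : ℕ) : ℂ)
        = Nat.card G := by
      rw [← h1]
      push_cast
      rw [Finset.sum_mul]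
      refine Finset.sum_congr rfl fun χ _ => ?_
      rw [(hm χ).2, (hn χ).2]
      simp only [map_mul, map_natCast]
      ring
    exact_mod_cast this
  rw [← h2]
  refine Nat.mul_le_mul_right _ (Finset.sum_le_sum fun χ _ => ?_)
  exact Nat.mul_le_mul (hm χ).1 (hn χ).1

omit [Fintype G] in
theorem normal [Finite G] (Q R : Subgroup G) (hQ : ¬ p ∣ Nat.card Q) (hR : ¬ p ∣ Nat.card R)
    (hc : (Nat.card Q).Coprime (Nat.card R)) {k : ℕ}
    (hG : Nat.card G = k * (Nat.card Q * Nat.card R))
    (hcount : Nat.card {g : G // ¬ p ∣ orderOf g} = Nat.card Q * Nat.card R) :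
    ∃ N : Subgroup G, N.Normal ∧ ∀ g, g ∈ N ↔ ¬ p ∣ orderOf g := by
  classical
  have := Fintype.ofFinite G
  obtain ⟨M, hM⟩ := exists_isPModular p
  have : PM p M := ⟨hM⟩
  obtain ⟨i, hi, hi'⟩ := exists_triv (G := G) (M := M)
  have hle := cart_le (p := p) hi hi' Q R hQ hR hc
  set n := Nat.card Q * Nat.card R with hn
  have hn0 : 0 < n := Nat.mul_pos Nat.card_pos Nat.card_pos
  have hk0 : 0 < k := by
    rcases Nat.eq_zero_or_pos k with h | h
    · have := Nat.card_pos (α := G)
      rw [hG, h] at this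
      omega
    · exact h
  have hck : cart i i ≤ k := by
    rw [hG] at hle
    exact Nat.le_of_mul_le_mul_right hle hn0
  let θ : G → ℂ := fun g => if p ∣ orderOf g then 0 else k
  have hcard : (Finset.univ.filter fun g : G => ¬ p ∣ orderOf g).card = n := by
    rw [← hcount, Nat.card_eq_fintype_card, Fintype.card_subtype]
  have hG0 : (Nat.card G : ℂ) ≠ 0 := card_ne_zero_complex
  have e1 : classInner (pim i) θ = k := by
    have h1 : classInner (pim i) (fun _ : G => (1 : ℂ)) = 1 := by
      have := inner_pim_irr i (irrOne G)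
      rw [coe_irrOne, hi] at this
      simpa using this
    apply mul_left_cancel₀ hG0
    rw [card_mul_classInner]
    have h2 := card_mul_classInner (pim i) (fun _ : G => (1 : ℂ))
    rw [h1] at h2
    rw [← mul_one (Nat.card G : ℂ), h2, Finset.sum_mul]
    refine Finset.sum_congr rfl fun g _ => ?_
    by_cases hg : p ∣ orderOf g
    · simp [pim_of_dvd (p := p) i hg]
    · simp [θ, hg]
  have e2 : classInner θ (pim i) = k := by
    rw [← classInner_conj_symm, e1]; simp
  have e3 : classInner θ θ = k := by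
    apply mul_left_cancel₀ hG0
    rw [card_mul_classInner]
    have : ∀ g : G, θ g * conj (θ g) = if ¬ p ∣ orderOf g then (k : ℂ) * k else 0 := fun g => by
      by_cases hg : p ∣ orderOf g <;> simp [θ, hg]
    rw [Finset.sum_congr rfl fun g _ => this g, ← Finset.sum_filter, Finset.sum_const, hcard, hG]
    simp only [nsmul_eq_mul]
    push_cast
    ring
  have e4 : classInner (pim i - θ) (pim i - θ) = ((cart i i : ℝ) - k : ℝ) := by
    rw [classInner_sub_left, classInner_sub_right, classInner_sub_right, inner_pim_pim, e1, e2, e3]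
    push_cast
    ring
  have e5 : pim i - θ = 0 := by
    rw [← classInner_self_eq_zero, e4]
    rw [classInner_self] at e4
    have h1 := Complex.ofReal_injective e4
    have h2 : (0 : ℝ) ≤ (cart i i : ℝ) - k := by
      rw [← h1]
      positivity
    have h3 : (cart i i : ℝ) ≤ k := by exact_mod_cast hck
    have : (cart i i : ℝ) - k = 0 := by linarith
    rw [this]; simp
  have e6 : pim i = θ := sub_eq_zero.1 e5
  refine ⟨charKer (pim i), (isCharacter_pim i).normal_charKer, fun g => ?_⟩
  rw [(isCharacter_pim i).mem_charKer, e6]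
  have hk : (k : ℂ) ≠ 0 := by exact_mod_cast hk0.ne'
  have h1 : ¬ p ∣ orderOf (1 : G) := by
    rw [orderOf_one, Nat.dvd_one]; exact hp.out.ne_one
  by_cases hg : p ∣ orderOf g
  · simp only [θ, if_pos hg, if_neg h1]
    simpa [hg] using hk.symm
  · simp only [θ, if_neg hg, if_neg h1]
    simpa using hg

end C11
end H13
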