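import Cfsg.Agent.H13.RI7
/-! Odd transpositions, elementwise geometry: central elements of planes (`OT.zl`, `OT.z2`), members of
`⟨E_x, s⟩` commuting with `x` (`OT.fc`), the clique lemma `OT.cl`, `OT.tau`, `OT.theta`. -/
set_option autoImplicit false
set_option linter.unusedSectionVars false
open Cfsg H18 Subgroup H9 Relation
open H5 (eq_one_of_odd)

namespace H13
variable {G : Type*} [Group G] {D : Set G} {a b c d e f g m n s t u v w w' x y z β : G} {M : Subgroup G}

theorem cent_closure {S : Set G} (k : ∀ s ∈ S, s * z = z * s) (hy : y ∈ closure S) : y * z = z * y :=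
  mem_C1.1 ((closure_le (C1(z) : Subgroup G)).2 (fun s hs => mem_C1.2 (k s hs)) hy)
theorem Ec_inter (ht : t ∈ Ec D d) (tM : t ∈ M) : t ∈ Ec (D ∩ (M : Set G)) d := ⟨⟨ht.1, tM⟩, fun c hc => ht.2 c hc.1⟩

namespace OT
variable (h : OT D)
include h
theorem inter (M : Subgroup G) : OT (D ∩ (M : Set G)) :=
  ⟨h.toRI.inter M, fun a ha b hb k => h.nF a ha.1 b hb.1 k.1⟩
theorem odc (ha : a ∈ D) (hb : b ∈ D) (o : Od a b) : Od a (b * a * b) :=
  h.od ha (h.cnj b hb a ha) fun c => h.od_nc ha hb o (h.comm_of_od ha o rfl c)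
theorem cj_comm_iff (ha : a ∈ D) (hb : b ∈ D) (c : a * (b * a * b) = b * a * b * a) : a * b = b * a :=
  h.cm ha hb fun o => h.od_nc ha (h.cnj b hb a ha) (h.odc ha hb o) c
theorem uniq (hd : d ∈ D) (hw : w ∈ D) (hw' : w' ∈ D) (o : Od d w) (e : w' * d * w' = w * d * w) : w' = w :=
  h.mid_uniq hd hw hw' (h.odc hd hw o) e
theorem cen (ha : a ∈ D) (hb : b ∈ D) (n : a ≠ b) (hy : y ∈ D) (k : y * (a * b) = a * b * y) : y * a = a * y := by
  have a2 := h.sq a ha; have b2 := h.sq b hb; have y2 := h.sq y hy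
  by_cases c : a * b = b * a
  · exact h.comm_mul ha hb c (fun e => n wd[e & b2]) hy k
  refine h.cm hy ha fun o => c ?_
  have i : a * b * (y * a) = y * a * (b * a) := by rw [← mul_assoc, ← k]; simp [mul_assoc]
  have j : b * a * (y * a) = y * a * (a * b) := by
    rw [show b * a = (a * b)⁻¹ by simp [h.inv ha, h.inv hb], ← mul_assoc, (show Commute y (a * b) from k).inv_right.eq.symm]
    simp [h.inv ha, h.inv hb, mul_assoc, a2, tt' a2]
  have := comm_of_sq (z := a * b) o.2 (by rw [← mul_assoc, i, mul_assoc _ (b * a), j, ← mul_assoc])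
  exact mul_left_cancel (this.symm.trans i)
theorem zl (hb : b ∈ D) (hx : x ∈ D) (hs : s ∈ D) (c : b * x = x * b) (ob : Od s b) (he : e ∈ Ec D b)
    (eb : e * b ∈ Ec D b) : ∃ β ∈ Ec D b, Od s (x * β * s * (x * β)) := by
  by_contra! k
  have x2 := h.sq x hx; have b2 := h.sq b hb
  have i : ∀ β ∈ Ec D b, x * s * x * (β * s * β) = β * s * β * (x * s * x) := fun β hβ => by
    have c' := (hβ.2 x hx).1 c.symm; have := h.sq β hβ.1
    have j := h.cm hs (show x * β * s * (x * β) ∈ D by
      rw [show x * β * s * (x * β) = x * (β * s * β) * x from tr[[x, β, s]; c']]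
      exact h.cnj x hx _ (h.cnj β hβ.1 s hs)) (k β hβ)
    rw [show x * β * s * (x * β) = x * (β * s * β) * x from tr[[x, β, s]; c']] at j
    exact cj_comm x2 j
  have c1 := Ec_comm he (Ec_self hb); have c2 := (eb.2 x hx).1 c.symm
  have o : Od (b * s * b) (e * b) := by
    simpa only [show b * (e * b) * b = e * b from tr[[e, b]; c1 & b2]] using (h.Ec_od hb eb hs ob.symm).symm.cj b2
  have := h.comm_of_od (h.cnj b hb s hs) o (i b (Ec_self hb)) (by
    rw [show e * b * (b * s * b) * (e * b) = e * s * e from tr[[e, b, s]; c1 & b2]]; exact i e he)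
  refine h.od_nc eb.1 hs (h.Ec_od hb eb hs ob.symm) ?_
  generalize e * b = r at *
  simpa only [show x * r * x = r from tr[[x, r]; c2 & x2]] using cj_comm x2 this.symm
/-- the third member `m` and the central element `m x β` -/
theorem zm (hx : x ∈ D) (hβ : β ∈ D) (hs : s ∈ D) (c : x * β = β * x) (n : x ≠ β) (o : Od s (x * β * s * (x * β))) :
    ∃ m ∈ D, m * x = x * m ∧ m * β = β * m ∧ m * s * m = x * β * s * (x * β) ∧ s * (m * x * β) = m * x * β * s ∧
      m ∈ closure {s, x * β * s * (x * β)} := by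
  have x2 := h.sq x hx; have b2 := h.sq β hβ
  obtain ⟨m, hm, e, k, l⟩ := h.mid_comm (h.mem_nD (mul_mem (subset_closure hx) (subset_closure hβ)))
    tr[[x, β]; c & x2 & b2] hs o
  have m2 := h.sq m hm
  have k1 := h.cen hx hβ n hm k
  have k2 : m * β = β * m := wd[k & k1 & x2 & c]
  refine ⟨m, hm, k1, k2, e, ?_, l⟩
  calc s * (m * x * β) = m * (m * s * m) * x * β := tr[[m, x, β, s]; m2]
    _ = _ := by rw [e]; exact tr[[m, x, β, s]; c & x2 & b2]
theorem zc (hx : x ∈ D) (hβ : β ∈ D) (hm : m ∈ D) (n1 : m ≠ x) (n2 : m ≠ β) (c : x * β = β * x) (hy : y ∈ D)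
    (k : y * (m * x * β) = m * x * β * y) : y * β = β * y ↔ y * x = x * y := by
  have m2 := h.sq m hm
  refine ⟨fun i => ?_, fun i => ?_⟩
  · have j : y * (m * x) = m * x * y := mul_right_cancel (b := β) (by rw [mul_assoc, k, mul_assoc, ← i, mul_assoc _ y])
    have := h.cen hm hx n1 hy j
    exact wd[j & this & m2]
  · have j : y * (m * β) = m * β * y := mul_right_cancel (b := x) (by
      rw [mul_assoc, mul_assoc m, ← c, ← mul_assoc m, k, mul_assoc _ y, i]; exact tr[[m, x, β, y]; c])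
    have := h.cen hm hβ n2 hy j
    exact wd[j & this & m2]
theorem z2 (hb : b ∈ D) (hx : x ∈ D) (hs : s ∈ D) (c : b * x = x * b) (ob : Od s b) (ox : Od s x) (he : e ∈ Ec D b)
    (eb : e * b ∈ Ec D b) (hy : y ∈ D) (yW : y ∈ closure (Ec D b ∪ Ec D x ∪ {s})) : y * b = b * y ↔ y * x = x * y := by
  by_cases n : x ∈ Ec D b
  · exact n.2 y hy
  obtain ⟨β, hβ, o⟩ := h.zl hb hx hs c ob he eb
  have c' := (hβ.2 x hx).1 c.symm
  obtain ⟨m, hm, k1, k2, e, k, -⟩ := h.zm hx hβ.1 hs c' (fun e => n (e ▸ hβ)) o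
  have x2 := h.sq x hx; have b2 := h.sq β hβ.1
  rw [hβ.2 y hy]
  refine h.zc hx hβ.1 hm ?_ ?_ c' hy (cent_closure ?_ yW)
  · rintro rfl
    exact h.od_nc hs hβ.1 (h.Ec_od hb hβ hs ob.symm).symm wd[e & c' & x2 & b2]
  · rintro rfl
    exact h.od_nc hs hx ox wd[e & c' & x2 & b2]
  · rintro t ((ht | ht) | rfl)
    · exact (Commute.mul_right (Commute.mul_right ((ht.2 m hm).1 ((hβ.2 m hm).2 k2)).symm ((ht.2 x hx).1 c.symm).symm)
        (Ec_comm ht hβ)).eq
    · exact (Commute.mul_right (Commute.mul_right ((ht.2 m hm).1 k1).symm (Ec_comm ht (Ec_self hx)))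
        ((ht.2 β hβ.1).1 c'.symm).symm).eq
    · exact k
theorem fc (hx : x ∈ D) (hs : s ∈ D) (o : Od s x) (he : e ∈ Ec D x) (ex : e * x ∈ Ec D x) (hy : y ∈ D)
    (yW : y ∈ closure (Ec D x ∪ {s})) (k : y * x = x * y) (hc : c ∈ D) (cx : c * x = x * c) : c * y = y * c := by
  by_cases i : s * c = c * s
  · refine (cent_closure ?_ yW).symm
    rintro t (ht | rfl)
    exacts [((ht.2 c hc).1 cx).symm, i]
  · exact ((h.z2 hx hc hs cx.symm o (h.od hs hc i) he ex hy
      (Subgroup.closure_mono (Set.union_subset_union_left _ Set.subset_union_left) yW)).1 k).symm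
/-- the clique lemma -/
theorem cl (ha : a ∈ D) (hu : u ∈ D) (hv : v ∈ D) (hw : w ∈ D) (uv : u * v = v * u) (uw : u * w = w * u)
    (vw : v * w = w * v) (k1 : u * a * u * (v * a * v) = v * a * v * (u * a * u))
    (k2 : u * a * u * (w * a * w) = w * a * w * (u * a * u)) : v * a * v * (w * a * w) = w * a * w * (v * a * v) := by
  refine h.cm (h.cnj v hv a ha) (h.cnj w hw a ha) fun o => ?_
  have u2 := h.sq u hu; have v2 := h.sq v hv; have w2 := h.sq w hw
  have e0 : w * v * (v * a * v) * (w * v) = w * a * w := tr[[v, w, a]; vw & v2]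
  obtain ⟨m, hm, mw, mv, e, -, l⟩ := h.zm hw hv (h.cnj v hv a ha) vw.symm (fun e => o.1 (by rw [e])) (e0 ▸ o)
  rw [e0] at e l
  have m2 := h.sq m hm
  have i : m * (u * a * u) = u * a * u * m := cent_closure (by rintro _ (rfl | rfl); exacts [k1.symm, k2.symm]) l
  have na : a * m ≠ m * a := fun c => o.1 (by rw [← e]; exact tr[[v, m, a]; mv & c & m2])
  have e1 : m * a * m = v * w * a * (v * w) := by
    calc m * a * m = v * (m * (v * a * v) * m) * v := tr[[v, m, a]; mv & v2]
      _ = _ := by rw [e]; exact tr[[v, w, a]; vw]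
  have j := h.comm_of_od ha (h.od ha hm na) (z := u * m * u) (cj_comm u2 i) (by
    rw [e1]
    calc _ = v * w * (u * m * u * a) * (v * w) := tr[[v, w, a, u, m]; vw & uv & uw & mv & mw & v2 & w2]
      _ = _ := by rw [cj_comm u2 i]; exact tr[[v, w, a, u, m]; vw & uv & uw & mv & mw & v2 & w2])
  have um := h.cj_comm_iff hm hu j.symm
  exact na (by simpa only [show u * m * u = m from tr[[u, m]; um & u2]] using (cj_comm u2 i).symm)
theorem tau (hw : w ∈ D) (hw' : w' ∈ D) (c : w * w' = w' * w) (ne : w ≠ w') (ha : a ∈ D) (hb : b = w * w' * a * (w * w'))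
    (k : a * b = b * a) (hy : y ∈ D) (y1 : y * w = w * y) (y2 : y * w' = w' * y) :
    a * b * y * (a * b) * w = w * (a * b * y * (a * b)) := by
  have w2 := h.sq w hw; have w2' := h.sq w' hw'
  have hn : w * w' * (w * w') = 1 := tr[[w, w']; c & w2 & w2']
  have bD : b ∈ D := by rw [hb, show w * w' * a * (w * w') = w * (w' * a * w') * w from tr[[w, w', a]; c]]; exact h.cnj w hw _ (h.cnj w' hw' a ha)
  have yn : y * (w * w') = w * w' * y := (Commute.mul_right y1 y2).eq
  have i : a * b * (w * w') = w * w' * (a * b) := by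
    generalize w * w' = n at *
    subst hb; exact wd[k & hn]
  refine h.cen hw hw' ne (by
    rw [show a * b * y * (a * b) = a * (b * y * b) * a from tr[[a, b, y]; k]]; exact h.cnj a ha _ (h.cnj b bD y hy)) ?_
  exact (Commute.mul_left (Commute.mul_left i yn) i).eq
/-- `a ≈ a^(w w')` as seen from `a` -/
theorem tau' (ha : a ∈ D) (hw : w ∈ D) (hs : s ∈ D) (c : s * a = a * s)
    (k : a * s * w * (a * s) * w = w * (a * s * w * (a * s))) (hv : v = a * s * w * (a * s)) :
    w * a * w * (v * a * v) = v * a * v * (w * a * w) := by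
  have a2 := h.sq a ha; have s2 := h.sq s hs
  have vD : v ∈ D := by rw [hv, show a * s * w * (a * s) = a * (s * w * s) * a from tr[[w, s, a]; c]]; exact h.cnj a ha _ (h.cnj s hs w hw)
  refine h.cm (h.cnj w hw a ha) (h.cnj v vD a ha) fun o => ?_
  rw [← hv] at k
  have w2 := h.sq w hw
  have e0 : v * w * (w * a * w) * (v * w) = v * a * v := tr[[v, w, a]; k & w2]
  have e1 : a * s * (w * a * w) * (a * s) = v * a * v := by rw [hv]; exact tr[[s, w, a]; c & a2 & s2]
  obtain ⟨m, hm, -, mw, e, -⟩ := h.zm vD hw (h.cnj w hw a ha) k (fun e => o.1 (by rw [e])) (e0 ▸ o)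
  obtain ⟨m', hm', ma, -, e', -⟩ := h.zm ha hs (h.cnj w hw a ha) c.symm (by
    rintro rfl; exact o.1 (by rw [← e1, a2, one_mul, mul_one])) (e1 ▸ o)
  obtain rfl := h.mid_uniq (h.cnj w hw a ha) hm hm' (by rwa [e, e0]) (by rw [e, e', e0, e1])
  have := h.sq _ hm
  exact o.1 (by rw [← e0, ← e]; exact tr[[m', w, a]; mw & ma & this])
theorem theta [Finite G] (ha : a ∈ D) (hw : w ∈ D) (hm : m ∈ D) (c : w * m = m * w) (o : Od a w)
    (hb : b = w * m * a * (w * m)) (k : a * b = b * a) : ∃ s ∈ D, s * a = a * s ∧ a * s * w * (a * s) = m ∧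
      ∀ y ∈ D, y * a = a * y → y * b = b * y → y * s = s * y := by
  have a2 := h.sq a ha; have w2 := h.sq w hw
  by_cases n : w = m
  · exact ⟨a, ha, rfl, by rw [a2, one_mul, mul_one, n], fun _ _ k _ => k⟩
  let T : Set G := {s | s ∈ D ∧ s * a = a * s ∧ a * s * w * (a * s) * w = w * (a * s * w * (a * s)) ∧
    ∀ y ∈ D, y * a = a * y → y * b = b * y → y * s = s * y}
  let ν : G → G := fun s => a * s * w * (a * s)
  have νD : ∀ s ∈ T, ν s ∈ D := fun s hs => by
    have c := hs.2.1
    rw [show ν s = a * (s * w * s) * a from tr[[w, s, a]; c]]; exact h.cnj a ha _ (h.cnj s hs.1 w hw)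
  have u : ∀ s ∈ T, ∀ v ∈ D, w * v = v * w → w * v * a * (w * v) = w * ν s * a * (w * ν s) → v = ν s := fun s hs v hv c e => by
    have c' : ν s * w = w * ν s := hs.2.2.1
    have c1 := hs.2.1; have s2 := h.sq s hs.1
    refine h.uniq (h.cnj w hw a ha) (νD s hs) hv ?_ (by generalize ν s = r at *; exact wd[e & c & c' & w2])
    have := (o.cj (g := a * s) tr[[s, a]; c1 & s2 & a2]).cj w2
    rwa [show a * s * a * (a * s) = a from tr[[s, a]; c1 & s2 & a2], show w * (a * s * w * (a * s)) * w = ν s from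
      (show w * ν s * w = ν s from tr[[ν s, w]; c' & w2])] at this
  have mt : Set.MapsTo (fun s => w * ν s * a * (w * ν s)) T T := fun s hs => by
    have c' : ν s * w = w * ν s := hs.2.2.1
    have c1 := hs.2.1; have s2 := h.sq s hs.1; have v2 := h.sq _ (νD s hs)
    have hD : w * ν s * a * (w * ν s) ∈ D := by
      rw [show w * ν s * a * (w * ν s) = w * (ν s * a * ν s) * w from tr[[ν s, w, a]; c']]
      exact h.cnj w hw _ (h.cnj _ (νD s hs) a ha)
    have i : a * (w * ν s * a * (w * ν s)) = w * ν s * a * (w * ν s) * a := by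
      have := cj_comm (x := w * a * w) (y := w * ν s * a * (w * ν s)) w2 (by
        rw [show w * (w * ν s * a * (w * ν s)) * w = ν s * a * ν s from tr[[ν s, w, a]; c' & w2]]
        exact h.tau' (v := ν s) ha hw hs.1 c1 c' rfl)
      rwa [show w * (w * a * w) * w = a from tr[[a, w]; w2]] at this
    show w * ν s * a * (w * ν s) ∈ T
    by_cases n : w = ν s
    · have : w * ν s * a * (w * ν s) = a := by rw [← n, w2, one_mul, mul_one]
      rw [this]; exact ⟨ha, rfl, by rw [a2]; simp, fun _ _ k _ => k⟩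
    refine ⟨hD, i.symm, h.tau hw (νD s hs) c'.symm n ha rfl i hw rfl c'.symm, fun y hy k1 k2 => ?_⟩
    have k3 := hs.2.2.2 y hy k1 k2
    have ne : a ≠ s := by rintro rfl; exact n (by simp [ν, a2])
    have := h.cen ha hs.1 ne (h.cnj w hw _ (h.cnj _ (νD s hs) y hy)) (by
      have e : a * s * (w * ν s) = w * ν s * (a * s) := by
        have t2 : a * s * (a * s) = 1 := tr[[s, a]; c1 & s2 & a2]
        simp only [ν] at c' ⊢
        generalize a * s = t at *
        exact wd[c' & t2]
      have e' : a * s * (ν s * w) = ν s * w * (a * s) := c' ▸ e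
      have := (Commute.mul_right (Commute.mul_right e (Commute.mul_right k1 k3).symm) e').eq
      simpa only [mul_assoc] using this.symm)
    generalize ν s = r at *
    calc y * (w * r * a * (w * r)) = w * r * (w * (r * y * r) * w * a) * (w * r) := tr[[w, r, y, a]; c' & v2 & w2]
      _ = _ := by rw [this]; exact tr[[w, r, y, a]; c' & v2 & w2]
  have inj : Set.InjOn (fun s => w * ν s * a * (w * ν s)) T := fun s hs s' hs' e => by
    have e1 := u s' hs' _ (νD s hs) hs.2.2.1.symm e
    have c1 := hs.2.1; have c2 := hs'.2.1; have s2 := h.sq s hs.1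
    refine (h.uniq (h.cnj a ha w hw) hs.1 hs'.1 (h.od (h.cnj a ha w hw) hs.1 fun c => ?_) ?_).symm
    · have c3 := hs.2.2.1
      rw [show a * s * w * (a * s) = a * w * a from wd[c & c1 & s2 & a2]] at c3
      exact h.od_nc hw ha o.symm (h.cj_comm_iff hw ha c3.symm)
    · rw [show s' * (a * w * a) * s' = ν s' from tr[[s', a, w]; c2], ← e1]; exact tr[[s, a, w]; c1]
  obtain ⟨s, hs, e⟩ := ((Set.toFinite T).injOn_iff_bijOn_of_mapsTo mt).1 inj |>.surjOn (show b ∈ T from
    ⟨by rw [hb, show w * m * a * (w * m) = w * (m * a * m) * w from tr[[w, m, a]; c]]; exact h.cnj w hw _ (h.cnj m hm a ha),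
      k.symm, h.tau hw hm c n ha hb k hw rfl c, fun _ _ _ k => k⟩)
  exact ⟨s, hs.1, hs.2.1, (u s hs m hm c (hb.symm.trans e.symm)).symm, hs.2.2.2⟩
end OT
end H13
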