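import Cfsg.Agent.H13.RI7
import Cfsg.Agent.H1.Cores
/-! Odd transpositions: the class of `x` in the image of `⟨T, x⟩`, `T ⊆ E_d`, modulo a normal 2-subgroup (`OT.s51`). -/
set_option autoImplicit false
set_option linter.unusedSectionVars false
open Cfsg H18 Subgroup H9 H19 H21 MulAction Relation
open H5 (eq_one_of_odd piNat_two_compl)

namespace H13
variable {G X Q : Type*} [Group G] [Group X] [Group Q] [Finite G] [Finite X] [Finite Q] {D : Set G} {T : Set X} {d x : X}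

theorem OT.s51 (h : OT D) (ι : X →* G) (hι : Function.Injective ι) (φ : X →* Q) (su : Function.Surjective φ)
    (hk : PiGrp {2} φ.ker) (hO : pCore 2 Q = ⊥) (nD : ∀ g : X, ι g ∈ normalizer D) (hd : ι d ∈ D) (hx : ι x ∈ D)
    (o : Od (ι d) (ι x)) (hT : ∀ t ∈ T, ι t ∈ Ec D (ι d)) (gen : closure (T ∪ {x}) = ⊤) :
    S51 {y | IsConj (φ x) y} (φ d) (φ x) ∧ ∀ t, ι t ∈ Ec D (ι d) → φ t ∈ Ec {y | IsConj (φ x) y} (φ d) := by
  let E : Set X := {y | IsConj x y}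
  have sub : ∀ y ∈ E, ι y ∈ D := fun y hy => by
    obtain ⟨g, rfl⟩ := isConj_iff.1 hy; simpa using nDc (nD g) hx
  have sq : ∀ y, ι y ∈ D → y * y = 1 := fun y hy => hι (by simpa using h.sq _ hy)
  have od : ∀ a b : X, Od (ι a) (ι b) → Od a b := fun a b o =>
    ⟨fun e => o.1 (congrArg _ e), by rw [← orderOf_injective ι hι, map_mul]; exact o.2⟩
  have pr : ∀ a b : X, ι a ∈ D → ι b ∈ D → a * b = b * a ∨ Od a b := fun a b ha hb =>
    (em _).imp (fun c : ι a * ι b = ι b * ι a => hι (by simpa using c)) fun c => od a b (h.od ha hb c)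
  have rE : RI E := ⟨fun y hy => sq y (sub y hy), fun y hy e => h.ne _ (sub y hy) (by simp [e]), fun a ha b hb =>
    hb.trans (isConj_iff.2 ⟨a, by rw [inv_eq_of_mul_self (sq a (sub a ha))]⟩), fun a ha b hb =>
    (pr a b (sub a ha) (sub b hb)).imp_right fun o => .inl o.2⟩
  have mE : ∀ t, ι t ∈ Ec D (ι d) → t ∈ E := fun t ht =>
    isConj_of_odd (sq x hx) (sq t ht.1) (od _ _ (h.Ec_od hd ht hx o).symm).2
  have dE := mE d (Ec_self hd)
  have im : {y | IsConj (φ x) y} = φ '' E := Set.ext fun y => ⟨fun k => by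
    obtain ⟨g, rfl⟩ := isConj_iff.1 k
    obtain ⟨g, rfl⟩ := su g
    exact ⟨_, isConj_iff.2 ⟨g, rfl⟩, by simp⟩, by rintro ⟨y, hy, rfl⟩; exact φ.map_isConj hy⟩
  have n1 : ∀ y ∈ E, φ y ≠ 1 := fun y hy e => by
    have k : ∀ z ∈ E, z ∈ φ.ker := fun z hz => by
      have := φ.map_isConj (hy.symm.trans hz); rwa [e, isConj_one_right] at this
    exact RI.nod_of_two hk (sq d hd) (k d dE) (k x (IsConj.refl x)) (od _ _ o)
  have r := rE.map φ n1
  have od' : ∀ a b : X, Od a b → Odd (orderOf (φ a * φ b)) := fun a b o =>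
    map_mul φ a b ▸ o.2.of_dvd_nat (orderOf_map_dvd φ _)
  have o' : Od (φ d) (φ x) := ⟨fun e => by
    have d2 := sq d hd
    have := (hk.elt (show d * x ∈ φ.ker by rw [MonoidHom.mem_ker, map_mul, ← e, ← map_mul, d2, map_one])).eq_one'
      (piNat_two_compl.2 (od _ _ o).2)
    have x2 := sq x hx
    exact (od _ _ o).1 wd[this & x2], od' _ _ (od _ _ o)⟩
  have nD' : ∀ g : Q, g ∈ normalizer {y | IsConj (φ x) y} := fun g => nD_class _ g
  have k : ∀ s s', ι s ∈ Ec D (ι d) → ι s' ∈ Ec D (ι d) → ∀ c ∈ E, φ c * φ s = φ s * φ c → φ c * φ s' = φ s' * φ c :=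
    fun s s' hs hs' c hc e => by
      have i : ∀ c, ι c * ι s' = ι s' * ι c → φ c * φ s' = φ s' * φ c := fun c e => by
        rw [← map_mul, ← map_mul, hι (show ι (c * s') = ι (s' * c) by simpa using e)]
      rcases pr c s (sub c hc) hs.1 with j | j
      · exact i c ((hs'.2 _ (sub c hc)).1 ((hs.2 _ (sub c hc)).2 (by simpa using congrArg ι j)))
      · have c2 := r.sq _ ⟨c, hc, rfl⟩; have s2 := r.sq _ ⟨s, mE s hs, rfl⟩
        have := eq_one_of_odd (od' _ _ j) wd[e & c2 & s2]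
        rw [show φ c = φ s from wd[this & s2]]; exact i s (Ec_comm hs hs')
  have ec : ∀ t, ι t ∈ Ec D (ι d) → φ t ∈ Ec {y | IsConj (φ x) y} (φ d) := fun t ht => by
    rw [im]
    refine ⟨⟨t, mE t ht, rfl⟩, ?_⟩
    rintro _ ⟨c, hc, rfl⟩
    exact ⟨k d t (Ec_self hd) ht c hc, k t d ht (Ec_self hd) c hc⟩
  have hd' : φ d ∈ {y | IsConj (φ x) y} := φ.map_isConj dE
  refine ⟨⟨⟨im ▸ r, ?_⟩, ⟨im ▸ r, fun a ha b hb => let ⟨g, e⟩ := isConj_iff.1 (ha.symm.trans hb); ⟨g, nD' g, e⟩,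
    fun a ha => let ⟨g, e⟩ := isConj_iff.1 ha; ⟨_, nDc (nD' g) hd', e ▸ o'.symm.conj g⟩⟩, nD', hO, hd', IsConj.refl _, o',
    top_le_iff.1 ?_⟩, ec⟩
  · rw [im]
    rintro _ ⟨a, ha, rfl⟩ _ ⟨b, hb, rfl⟩ f
    rcases pr a b (sub a ha) (sub b hb) with c | c
    · exact r.fo_nc ⟨a, ha, rfl⟩ ⟨b, hb, rfl⟩ f (by rw [← map_mul, c, map_mul])
    · exact r.fo_nod ⟨a, ha, rfl⟩ ⟨b, hb, rfl⟩ f ⟨fun e => r.fo_nc ⟨a, ha, rfl⟩ ⟨b, hb, rfl⟩ f (by rw [e]), od' _ _ c⟩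
  · rw [← map_top_of_surjective φ su, ← gen, MonoidHom.map_closure]
    refine Subgroup.closure_mono ?_
    rintro _ ⟨y, hy | rfl, rfl⟩
    exacts [.inl (ec y (hT y hy)), .inr rfl]
end H13
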