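import Cfsg.Agent.H13.OT1
import Cfsg.Agent.H13.RI8
/-! Odd transpositions: the Suzuki structure of `⟨E_d, x⟩ / O₂` (`S51.suz`, `Pk`), the structure equation `OC.se`,
and `OC.q1` (commuting members look alike from a common odd partner). -/
set_option autoImplicit false
set_option linter.unusedSectionVars false
open Cfsg H18 Subgroup H9 H19 H21 MulAction Relation
open H5 (eq_one_of_odd A1 Suz prank_of_pair even_of_inv piNat_two_compl)

namespace H13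
universe u
variable {G : Type u} [Group G] [Finite G] {D T : Set G} {a b c d e f g m n r r' s s' t u v w x y z β : G} {X : Subgroup G}

def L2c (G : Type*) [Group G] (U : Subgroup G) : Prop := Odd U.index ∧ ∃ (F : Type) (_ : Field F) (_ : Fintype F),
  Fintype.card F = Nat.card U ∧ Nonempty (G ≃* Matrix.ProjectiveSpecialLinearGroup (Fin 2) F)

namespace S51
variable (h : S51 D d x) (ht : t ∈ Ec D d) (ne : t ≠ d)
include h ht ne
theorem suz : ∃ H Q D₁ K V W s, Suz ⊤ H Q D₁ K V W (closure (Ec D d)) x s ∧ (∀ g, g ∈ H ↔ g * d * g⁻¹ ∈ Ec D d) ∧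
    PiGrp {2} Q ∧ (L2c G (closure (Ec D d)) ∨ orderOf (s * x) = 5 ∧ ∀ r ∈ Q, r * r ∈ closure (Ec D d)) := by
  obtain ⟨r, m⟩ := h.rt_comp h.nD h.hd
  set a := QuotientGroup.mk (s := normalizer (elemComponentOf (CommAdj D) D d)) 1
  have fx : ∀ y ∈ D, y • a = a ↔ y ∈ Ec D d := fun y hy => by
    rw [coset_fix, inv_one, one_mul, mul_one, m y hy]
    refine ⟨fun k => ?_, fun k => RI.ccon_comm h.hd hy (Ec_comm (Ec_self h.hd) k)⟩
    clear hy
    induction k with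
    | refl => exact Ec_self h.hd
    | tail _ j i => exact h.cent ht ne j.2.1 ((i.2 _ j.2.1).2 j.2.2.2.symm)
  have xa : x • a ≠ a := fun e => h.od_nc h.hd h.hx h.o (Ec_comm (Ec_self h.hd) ((fx x h.hx).1 e))
  have da := (fx d h.hd).2 (Ec_self h.hd)
  have inv := fun y => master noU ⟨h.sq, h.ne, h.cnj, r.fix, r.uniq, fun _ ha _ hb => h.mulD ht ne ha hb⟩ ⟨h.hd, da⟩ h.hx xa y
    (h.genD.ge (mem_top y))
  have sa : SA G (G ⧸ normalizer (elemComponentOf (CommAdj D) D d)) := ⟨fun u u2 u1 => r.fix u (inv u u2 u1),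
    fun u u2 u1 => r.uniq u (inv u u2 u1), fun b => by
      induction b using QuotientGroup.induction_on with | _ g =>
      exact ⟨_, conj_sq (h.sq d h.hd) g, conj_ne (h.ne d h.hd) g, by simpa [a] using conj_smul_fix da g⟩⟩
  have d2 := h.sq d h.hd
  have td := Ec_comm ht (Ec_self h.hd)
  have rk := prank_of_pair (mem_top t) (mem_top d) (h.ne t ht.1) (h.ne d h.hd) ne (h.sq t ht.1) d2 td
  have := nml_top_iff.1 (pcore_nml (π := {2}ᶜ) (H := (⊤ : Subgroup G)))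
  obtain ⟨Q, τ, A, -⟩ := sa.A1_of_cent (M := ⊤) ⟨d2, h.ne d h.hd, da⟩ (mem_top d) rk (fun l => xa (l (mem_top x))) (by
    refine fun n hn => mem_C1.2 ?_
    have nO : ∀ y ∈ D, y ∉ O[{2}ᶜ]((⊤ : Subgroup G)) := fun y hy k =>
      h.ne y hy (eq_one_of_odd (H5.odd_order_of_mem odd_O k) (h.sq y hy))
    have := h.nml_two h.nD nO h.hd ht.1 (h.mulD ht ne ht.1 h.hd td ne) hn
    rw [h.hO, mem_bot] at this
    exact mul_inv_eq_iff_eq_mul.1 (by rw [← tt' d2 (n * d * n⁻¹), this, mul_one]))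
  obtain ⟨k, hk, ex⟩ := A.inv_form (mem_top x) (h.sq x h.hx) fun l => xa l.2
  have A := A.conj k⁻¹
  rw [inv_inv, ← ex, cj_top, cj_eq_self_of_mem (inv_mem hk)] at A
  generalize cj k⁻¹ Q = Q at A
  obtain ⟨K, V, W, Q₀, s, S⟩ := A.exists_suz
  have EQ : ∀ y ∈ Ec D d, y ∈ Q₀ := fun y hy => S.mem₀ ⟨mem_top _, (fx y hy.1).2 hy⟩ (h.sq y hy.1)
  obtain rfl : Q₀ = closure (Ec D d) := le_antisymm (fun y hy => by
    by_cases e : y = 1
    · exact e ▸ one_mem _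
    · exact subset_closure ((fx y (inv y (S.sq₀ hy) e)).1 (S.leQ₀H hy).2)) ((closure_le _).2 EQ)
  have gen : closure (Ec D d) ⊔ zpowers x = ⊤ := top_le_iff.1 (h.gen.ge.trans ((closure_le _).2 (by
    rintro y (hy | rfl)
    exacts [mem_sup_left (EQ y hy), mem_sup_right (mem_zpowers _)])))
  have gen' : Q ⊔ zpowers x = ⊤ := top_le_iff.1 (gen.ge.trans (sup_le_sup_right S.leQ₀ _))
  have h2 := S.rank_iff.1 rk
  refine ⟨_, _, _, _, _, _, _, S, fun g => ?_, (concl S h2).1, ?_⟩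
  · rw [← fx _ (nDc (h.nD g) h.hd)]
    exact ⟨fun k => k.2 ▸ conj_smul_fix da g, fun k => ⟨mem_top g, r.uniq _ (nDc (h.nD g) h.hd) _ _ (conj_smul_fix da g) k⟩⟩
  obtain ⟨c, ⟨i, j⟩ | ⟨i, j, l⟩ | ⟨-, -, -, ω, -, ζ, hζ, n, -⟩⟩ := concl S h2
  · obtain ⟨F, _, _, e, ⟨f⟩⟩ := isoPSL_of S i j
    obtain rfl := eq_of_card_eq S.leQ₀ i.symm
    exact .inl ⟨relIndex_top_right (closure (Ec D d)) ▸ S.odd_relIndex_Q, F, _, _, e,
      ⟨((MulEquiv.subgroupCongr gen').trans topEquiv).symm.trans f⟩⟩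
  · exact .inr ⟨l, sq_mem S h2 c j⟩
  · exact absurd (mem_C1.1 ((gen.ge.trans (sup_le (le_C1_iff.2 (S.W_cent₀ hζ)) (zpowers_le.2
      (mem_C1_comm.1 (S.V_le_C1t (S.leW hζ)))))) (mem_top ω))).symm n
theorem mem_cl (hu : u ∈ closure (Ec D d)) : u = 1 ∨ u ∈ Ec D d := by
  have i : ∀ x ∈ Ec D d, x⁻¹ = x := fun x hx => h.inv hx.1
  induction hu using closure_induction'' with
  | mem x hx => exact .inr hx
  | inv_mem x hx => exact .inr ((i x hx).symm ▸ hx)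
  | one => exact .inl rfl
  | mul x y _ _ hx hy =>
    rcases hx with rfl | hx
    · rwa [one_mul]
    rcases hy with rfl | hy
    · exact .inr (by rwa [mul_one])
    exact (em _).imp_right (h.mul hx hy)
theorem se : ∃ s ∈ Ec D d, ∃ r, x * s * x = r⁻¹ * x * r ∧ PiElt {2} r ∧ (∀ y ∈ Ec D d, r * y = y * r) ∧
    (L2c G (closure (Ec D d)) ∨ r * r ∈ Ec D d) := by
  obtain ⟨H, Q, D₁, K, V, W, s, S, -, c, k⟩ := h.suz ht ne
  obtain ⟨r, hr, e⟩ := S.struct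
  refine ⟨s, (h.mem_cl ht ne S.sQ₀).resolve_left S.s_ne, r, e, c.elt hr,
    fun y hy => mem_C.1 (S.Q₀_cent (subset_closure hy)) r hr, k.imp_right fun k => ?_⟩
  refine (h.mem_cl ht ne (k.2 r hr)).resolve_left fun r2 => ?_
  have ri := inv_eq_of_mul_eq_one_right r2
  rw [ri] at e
  have e1 : x * r * x = s * x * r := by
    rw [show s * x * r = x * (x * s * x) * r by simp [mul_assoc, S.tt'], e]; simp [mul_assoc, r2]
  have e2 : s * x * r = r * x * s := by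
    rw [← e1, ← inv_inv (x * r * x), show (x * r * x)⁻¹ = x * r * x by simp [mul_assoc, S.ti, ri], e1]
    simp [mul_assoc, S.ti, ri, S.si]
  rw [← (S.uniq S.sH hr (S.leQ hr) S.sQ e2).1] at e
  have := three_of_tst S e
  omega
theorem two (g2 : PiElt {2} g) (k1 : g * d * g⁻¹ * d = d * (g * d * g⁻¹))
    (k2 : g * (x * d * x) * g⁻¹ * (x * d * x) = x * d * x * (g * (x * d * x) * g⁻¹)) : g = 1 := by
  obtain ⟨H, Q, D₁, K, V, W, s, S, m, -⟩ := h.suz ht ne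
  have x2 := h.sq x h.hx
  refine g2.eq_one' (piNat_two_compl.2 (S.oddD (S.mem_D.2 ⟨(m g).2 (h.cent ht ne (nDc (h.nD g) h.hd) k1),
    (m _).2 (h.cent ht ne (nDc (h.nD _) h.hd) ?_)⟩)))
  simp only [mul_inv_rev, h.inv h.hx]
  generalize g⁻¹ = g' at *
  calc _ = x * (g * (x * d * x) * g' * (x * d * x)) * x := tr[[x, d, g, g']; x2]
    _ = _ := by rw [k2]; exact tr[[x, d, g, g']; x2]
theorem se_uniq (hs : s ∈ Ec D d) (hs' : s' ∈ Ec D d) (e : x * s * x = r⁻¹ * x * r) (e' : x * s' * x = r'⁻¹ * x * r')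
    (r2 : PiElt {2} r) (r2' : PiElt {2} r') (k : r * s = s * r) (k' : r' * s' = s' * r') : s = s' := by
  obtain ⟨H, Q, D₁, K, V, W, s₀, S, m, -⟩ := h.suz ht ne
  have i : ∀ s r, s ∈ Ec D d → PiElt {2} r → r * s = s * r → r ∈ Q := fun s r hs r2 k =>
    S.two_le_Q (zpowers_le.2 (S.mem_H_of_comm (mem_top r) (S.leQ₀ (subset_closure hs)) (h.ne s hs.1) k)) r2.zpowers
      (mem_zpowers r)
  exact (S.struct_unique (S.leQ₀H (subset_closure hs)) (h.sq s hs.1) (h.ne s hs.1) (i s r hs r2 k) e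
    (S.leQ₀H (subset_closure hs')) (h.sq _ hs'.1) (h.ne _ hs'.1) (i s' r' hs' r2' k') e').1
end S51

/-- the image of `X = ⟨T, x⟩` modulo `O₂(X)` -/
structure Pk (D : Set G) (X : Subgroup G) (d x : G) : Prop extends OT D where
  hd : d ∈ D
  hx : x ∈ D
  dX : d ∈ X
  xX : x ∈ X
  o : Od d x
  s : S51 {y | IsConj (mfun (QuotientGroup.mk' (pCore 2 X)) x) y} (mfun (QuotientGroup.mk' (pCore 2 X)) d)
    (mfun (QuotientGroup.mk' (pCore 2 X)) x)
  ec : ∀ t ∈ X, t ∈ Ec D d → mfun (QuotientGroup.mk' (pCore 2 X)) t ∈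
    Ec {y | IsConj (mfun (QuotientGroup.mk' (pCore 2 X)) x) y} (mfun (QuotientGroup.mk' (pCore 2 X)) d)
  nD : X ≤ normalizer D

theorem OT.pk (h : OT D) (hd : d ∈ D) (hx : x ∈ D) (o : Od d x) (hT : T ⊆ Ec D d) (dT : d ∈ T) :
    Pk D (closure (T ∪ {x})) d x := by
  set X := closure (T ∪ {x})
  have dX : d ∈ X := subset_closure (.inl dT)
  have xX : x ∈ X := subset_closure (.inr rfl)
  have nD : X ≤ normalizer D := fun g hg => h.mem_nD (Subgroup.closure_mono (by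
    rintro y (hy | rfl); exacts [(hT hy).1, hx]) hg)
  obtain ⟨s, k⟩ := h.s51 (d := ⟨d, dX⟩) (x := ⟨x, xX⟩) (T := X.subtype ⁻¹' T) X.subtype X.subtype_injective
    (QuotientGroup.mk' (pCore 2 X)) (QuotientGroup.mk'_surjective _) (by
      rw [QuotientGroup.ker_mk', pCore_eq Nat.prime_two]; exact pcore_pi) (H1.pCore_quotient_eq_bot 2 X)
    (fun g => nD g.2) hd hx o (fun _ k => hT k)
    (top_le_iff.1 (closure_closure_coe_preimage.ge.trans (Subgroup.closure_mono fun y hy =>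
      hy.imp id fun e => Subtype.ext e)))
  refine ⟨h, hd, hx, dX, xX, o, ?_, fun t tX ht => ?_, nD⟩
  · rwa [mfun_of_mem dX, mfun_of_mem xX]
  · rw [mfun_of_mem dX, mfun_of_mem xX, mfun_of_mem tX]; exact k ⟨t, tX⟩ ht

def Tv (D : Set G) (X : Subgroup G) (g : G) : Prop :=
  g ∈ X ∧ PiElt {2} g ∧ ∀ c ∈ D, c ∈ X → g * c * g⁻¹ * c = c * (g * c * g⁻¹)

namespace Pk
variable (h : Pk D X d x)
include h
local notation "φ" => mfun (QuotientGroup.mk' (pCore 2 X))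
omit h in
theorem ker (hg : g ∈ X) (e : φ g = 1) : PiElt {2} g := by
  rw [mfun_of_mem hg, QuotientGroup.mk'_apply, QuotientGroup.eq_one_iff, pCore_eq Nat.prime_two] at e
  simpa [PiElt, ← Subgroup.orderOf_coe] using pcore_pi.elt e
omit h in
theorem lift2 (hg : g ∈ X) (e : PiElt {2} (φ g)) : PiElt {2} g :=
  (PiNat.mul e (ker (pow_mem hg (orderOf (φ g))) (by rw [mfun_pow hg, pow_orderOf_eq_one]))).of_dvd
    (orderOf_dvd_of_pow_eq_one (by rw [pow_mul, pow_orderOf_eq_one]))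
omit h in
theorem su (z : X ⧸ pCore 2 X) : ∃ g ∈ X, φ g = z :=
  let ⟨g, e⟩ := QuotientGroup.mk'_surjective _ z; ⟨g, g.2, (mfun_coe g).trans e⟩
theorem cm' (ha : a ∈ D) (aX : a ∈ X) (hb : b ∈ D) (bX : b ∈ X) (e : φ a * φ b = φ b * φ a) : a * b = b * a :=
  h.cm ha hb fun o => by
    have a2 : φ a * φ a = 1 := by rw [← mfun_mul aX aX, h.sq a ha, mfun_one]
    have b2 : φ b * φ b = 1 := by rw [← mfun_mul bX bX, h.sq b hb, mfun_one]
    have := (ker (mul_mem aX bX) (eq_one_of_odd (o.2.of_dvd_nat (orderOf_mfun_dvd (mul_mem aX bX)))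
      (by rw [mfun_mul aX bX]; exact wd[e & a2 & b2]))).eq_one' (piNat_two_compl.2 o.2)
    have := And.intro this (h.sq b hb)
    exact o.1 wd[this]
theorem tv (hg : g ∈ X) (e : φ g = 1) : Tv D X g := ⟨hg, ker hg e, fun c hc cX =>
  h.cm' (nDc (h.nD hg) hc) (cmem hg cX) hc cX (by rw [mfun_conj hg cX, e]; simp)⟩
theorem mem (hy : y ∈ D) (yX : y ∈ X) (o : Od y x) : φ y ∈ {y | IsConj (φ x) y} := by
  obtain ⟨w, hw, e, l⟩ := h.mid h.hx hy o.symm.2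
  have wX : w ∈ X := (closure_le X).2 (by rintro _ (rfl | rfl); exacts [h.xX, yX]) l
  exact isConj_iff.2 ⟨φ w, by rw [← mfun_conj wX h.xX, h.inv hw, e]⟩
theorem pre {z : X ⧸ pCore 2 X} (hz : z ∈ {y | IsConj (φ x) y}) : ∃ y ∈ D, y ∈ X ∧ φ y = z := by
  obtain ⟨g, rfl⟩ := isConj_iff.1 hz
  obtain ⟨g, hg, rfl⟩ := su g
  exact ⟨_, nDc (h.nD hg) h.hx, cmem hg h.xX, mfun_conj hg h.xX⟩
theorem ne' (he : e ∈ D) (eX : e ∈ X) (k : e * d ∈ Ec D d) : φ e ≠ φ d := fun i =>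
  h.s.ne _ (h.ec _ (mul_mem eX h.dX) k).1 (by rw [mfun_mul eX h.dX, i, h.s.sq _ h.s.hd])
theorem one {Y : Subgroup G} {D' : Set G} (he : e ∈ Ec D d) (eX : e ∈ X) (k : e * d ∈ Ec D d) (l : Y ≤ X) (hb : b ∈ Ec D d)
    (bY : b ∈ Y) (xY : x ∈ Y) (hD : D ⊆ D') (hg : Tv D' Y g) : φ g = 1 := by
  have gX := l hg.1
  have i : ∀ c ∈ D, c ∈ Y → ∀ c' ∈ D, c' ∈ X → (∀ y ∈ D, y * c = c * y ↔ y * c' = c' * y) →
      φ g * φ c' * (φ g)⁻¹ * φ c' = φ c' * (φ g * φ c' * (φ g)⁻¹) := fun c hc cY c' hc' cX k => by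
    rw [← mfun_conj gX cX, ← mfun_mul (cmem gX cX) cX, ← mfun_mul cX (cmem gX cX)]
    congr 1
    have := (k _ (nDc (h.nD gX) hc)).1 (hg.2.2 c (hD hc) cY)
    exact ((Ec_conj (h.nD gX) (show c' ∈ Ec D c from ⟨hc', k⟩)).2 c' hc').1 this.symm |>.symm
  refine h.s.two (h.ec e eX he) (h.ne' he.1 eX k) (hg.2.1.mfun gX) (i b hb.1 bY d h.hd h.dX fun y hy => (hb.2 y hy).symm) ?_
  have x2 := h.inv h.hx
  have := i _ (h.cnj x h.hx b hb.1) (mul_mem (mul_mem xY bY) xY) _ (h.cnj x h.hx d h.hd)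
    (mul_mem (mul_mem h.xX h.dX) h.xX) fun y hy => by simpa only [x2] using ((Ec_conj (h.nD h.xX) hb).2 y hy).symm
  rwa [mfun_mul (mul_mem h.xX h.dX) h.xX, mfun_mul h.xX h.dX] at this
end Pk

structure OC (D : Set G) : Prop extends OT D where
  rc : RC D
  p3 : ∀ d ∈ D, ∃ e ∈ D, e * d ∈ D
def SE (D : Set G) (b d s r : G) : Prop := s ∈ Ec D b ∧ r ∈ closure (Ec D b ∪ {d}) ∧ PiElt {2} r ∧
  Tv D (closure (Ec D b ∪ {d})) (d * s * d * (r⁻¹ * d * r)⁻¹) ∧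
  ∀ β ∈ Ec D b, Tv D (closure (Ec D b ∪ {d})) (r * β * r⁻¹ * β⁻¹)

namespace OC
variable (h : OC D)
include h
theorem p (hd : d ∈ D) : ∃ e ∈ Ec D d, e * d ∈ Ec D d :=
  let ⟨e, he, k⟩ := h.p3 d hd
  ⟨e, h.X_Ec h.rc hd he k, h.X_Ec h.rc hd k (by rwa [tt'' (h.sq d hd)])⟩
theorem Ec_of_le (hx : x ∈ D) (hy : y ∈ D) (k : ∀ c ∈ D, c * x = x * c → c * y = y * c) : y ∈ Ec D x :=
  Ec_symm hy ⟨hx, (h.rc.E_iff hy hx).2 (h.rc.A_eq hy hx fun z hz o => h.od hx hz fun c => h.od_nc hy hz o (k z hz c.symm).symm)⟩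
theorem exN (hx : x ∈ D) (hy : y ∈ D) (n : y ∉ Ec D x) : ∃ c ∈ D, c * x = x * c ∧ Od c y := by
  by_contra! k; exact n (h.Ec_of_le hx hy fun c hc i => h.cm hc hy (k c hc i))
theorem F (hx : x ∈ D) (hs : s ∈ D) (o : Od s x) (hy : y ∈ D) (yW : y ∈ closure (Ec D x ∪ {s})) (k : y * x = x * y) :
    y ∈ Ec D x :=
  let ⟨_, he, ex⟩ := h.p hx
  h.Ec_of_le hx hy fun _ hc cx => h.fc hx hs o he ex hy yW k hc cx
theorem se (hb : b ∈ D) (hd : d ∈ D) (o : Od b d) : ∃ s r, SE D b d s r ∧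
    (L2c (closure (Ec D b ∪ {d}) ⧸ pCore 2 (closure (Ec D b ∪ {d}))) (mim (QuotientGroup.mk' _) (closure (Ec D b))) ∨
      ∃ β ∈ Ec D b, Tv D (closure (Ec D b ∪ {d})) (β⁻¹ * (r * r))) := by
  have k := h.pk hb hd o le_rfl (Ec_self hb)
  set X := closure (Ec D b ∪ {d})
  have m : ∀ y ∈ Ec D b, y ∈ X := fun y hy => subset_closure (.inl hy)
  obtain ⟨e, he, eb⟩ := h.p hb
  obtain ⟨s, hs, r, e1, r2, e2, e3⟩ := k.s.se (k.ec e (m e he) he) (k.ne' he.1 (m e he) eb)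
  have pr : ∀ z ∈ Ec {y | IsConj (mfun (QuotientGroup.mk' (pCore 2 X)) d) y} (mfun (QuotientGroup.mk' (pCore 2 X)) b),
      ∃ y ∈ Ec D b, mfun (QuotientGroup.mk' (pCore 2 X)) y = z := fun z hz => by
    obtain ⟨y, hy, yX, rfl⟩ := k.pre hz.1
    exact ⟨y, h.F hb hd o.symm hy yX (k.cm' hy yX hb k.dX (Ec_comm hz (Ec_self k.s.hd))), rfl⟩
  obtain ⟨s, hs', rfl⟩ := pr s hs
  obtain ⟨r, rX, rfl⟩ := Pk.su r
  have dX := k.xX; have sX := m s hs'
  refine ⟨s, r, ⟨hs', rX, Pk.lift2 rX r2, k.tv (by repeat' first | assumption | apply mul_mem | apply inv_mem) ?_, fun β hβ =>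
    k.tv (mul_mem (cmem rX (m β hβ)) (inv_mem (m β hβ))) ?_⟩, e3.imp (fun l => ?_) fun l => ?_⟩
  · simp (disch := (repeat' first | assumption | apply mul_mem | apply inv_mem)) only [mfun_mul, mfun_inv, e1, mul_inv_cancel]
  · have := m β hβ
    simp (disch := (repeat' first | assumption | apply mul_mem | apply inv_mem)) only [mfun_mul, mfun_inv, e2 _ (k.ec β this hβ)]; simp
  · convert l
    refine le_antisymm (fun z hz => ?_) ((closure_le _).2 fun z hz => ?_)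
    · obtain ⟨y, hy, -, rfl⟩ := mem_mim.1 hz
      have mX : ∀ y ∈ closure (Ec D b), y ∈ X := fun y hy => Subgroup.closure_mono Set.subset_union_left hy
      clear hz
      induction hy using closure_induction with
      | mem x hx => exact subset_closure (k.ec x (m x hx) hx)
      | one => simp
      | mul x y hx hy i j => rw [mfun_mul (mX x hx) (mX y hy)]; exact mul_mem i j
      | inv x hx i => rw [mfun_inv (mX x hx)]; exact inv_mem i
    · obtain ⟨y, hy, rfl⟩ := pr z hz; exact mfun_mem_mim (subset_closure hy)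
  · obtain ⟨β, hβ, e⟩ := pr _ l
    exact ⟨β, hβ, k.tv (mul_mem (inv_mem (m β hβ)) (mul_mem rX rX)) (by
      simp only [mfun_mul, mfun_inv, mul_mem, inv_mem, m β hβ, rX, e, inv_mul_cancel])⟩
theorem q0 (hb : b ∈ D) (hx : x ∈ D) (hd : d ∈ D) (c : b * x = x * b) (ob : Od d b) (ox : Od d x) (S : SE D x d s r) :
    ∃ β ∈ Ec D b, s * d * s * (β * d * β) = β * d * β * (s * d * s) := by
  obtain ⟨β, r', S', -⟩ := h.se hb hd ob.symm
  obtain ⟨e, he, eb⟩ := h.p hb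
  set W := closure (Ec D b ∪ Ec D x ∪ {d})
  have l1 : closure (Ec D b ∪ {d}) ≤ W := Subgroup.closure_mono (Set.union_subset_union_left _ Set.subset_union_left)
  have l2 : closure (Ec D x ∪ {d}) ≤ W := Subgroup.closure_mono (Set.union_subset_union_left _ Set.subset_union_right)
  have m1 : ∀ y ∈ Ec D b, y ∈ W := fun y hy => l1 (subset_closure (.inl hy))
  have m2 : ∀ y ∈ Ec D x, y ∈ W := fun y hy => l2 (subset_closure (.inl hy))
  have dW : d ∈ W := subset_closure (.inr rfl)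
  have E1 : ∀ y ∈ Ec D b, y ∈ Ec (D ∩ (W : Set G)) b := fun y hy => Ec_inter hy (m1 y hy)
  have E2 : ∀ y ∈ Ec D x, y ∈ Ec (D ∩ (W : Set G)) b := fun y hy => ⟨⟨hy.1, m2 y hy⟩, fun z hz =>
    (h.z2 hb hx hd c ob ox he eb hz.1 hz.2).trans (hy.2 z hz.1)⟩
  have k : Pk _ W b d := (h.inter W).pk ⟨hb, m1 b (Ec_self hb)⟩ ⟨hd, dW⟩ ob.symm (T := Ec D b ∪ Ec D x)
    (fun y hy => hy.elim (E1 y) (E2 y)) (.inl (Ec_self hb))
  have i : ∀ x s r, x ∈ D → closure (Ec D x ∪ {d}) ≤ W → (∀ y ∈ Ec D x, y ∈ Ec (D ∩ (W : Set G)) b) → SE D x d s r →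
      let φ := mfun (QuotientGroup.mk' (pCore 2 W))
      φ d * φ s * φ d = (φ r)⁻¹ * φ d * φ r ∧ PiElt {2} (φ r) ∧ φ r * φ s = φ s * φ r := fun x s r hx l E S => by
    have j := fun g => k.one (g := g) (E1 e he) (m1 e he) (E1 _ eb) l (E x (Ec_self hx)) (subset_closure (.inl (Ec_self hx)))
      (subset_closure (.inr rfl)) Set.inter_subset_left
    have j1 := j _ S.2.2.2.1; have j2 := j _ (S.2.2.2.2 s S.1)
    have sW : s ∈ W := (E s S.1).1.2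
    have rW := l S.2.1
    simp (disch := (repeat' first | assumption | apply mul_mem | apply inv_mem)) only [mfun_mul, mfun_inv] at j1 j2
    exact ⟨mul_inv_eq_one.1 j1, S.2.2.1.mfun rW, mul_inv_eq_iff_eq_mul.1 (mul_inv_eq_one.1 j2)⟩
  obtain ⟨a1, a2, a3⟩ := i x s r hx l2 E2 S
  obtain ⟨b1, b2, b3⟩ := i b β r' hb l1 E1 S'
  have sW := m2 s S.1; have βW := m1 β S'.1
  have := k.s.se_uniq (k.ec e (m1 e he) (E1 e he)) (k.ne' ⟨he.1, m1 e he⟩ (m1 e he) (E1 _ eb)) (k.ec s sW (E2 s S.1))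
    (k.ec β βW (E1 β S'.1)) a1 b1 a2 b2 a3 b3
  have mW : ∀ y ∈ W, y * d * y ∈ W := fun y hy => mul_mem (mul_mem hy dW) hy
  exact ⟨β, S'.1, k.cm' ⟨h.cnj s S.1.1 d hd, mW s sW⟩ (mW s sW) ⟨h.cnj β S'.1.1 d hd, mW β βW⟩ (mW β βW) (by
    simp only [mfun_mul, mul_mem, dW, sW, βW, this])⟩
end OC
end H13
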