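import Cfsg.Agent.H13.OT2
/-! Classes of odd transpositions with a four-group in `D ∪ 1`: `OC.q1`, common neighbours (`OC.pl`, `OC.nb`,
`OC.pl2`), and `E_d ∪ 1` is a group acting semiregularly when `O₂(G) = Z(G) = 1` (`OC.K`). -/
set_option autoImplicit false
set_option linter.unusedSectionVars false
open Cfsg H18 Subgroup H9 H19 H21 MulAction Relation
open H5 (eq_one_of_odd piNat_two_compl)

namespace H13
variable {G : Type*} [Group G] [Finite G] {D : Set G} {a b c d e f g m n r s t u v w x y z β : G}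

theorem Ec_eq_of (hd : d ∈ D) (ht : t ∈ Ec D d) : Ec D t = Ec D d :=
  Set.ext fun _ => ⟨Ec_trans ht, Ec_trans (Ec_symm hd ht)⟩
theorem Ec_cc (ht : t ∈ Ec D d) (hs : s ∈ Ec D e) (hd : d ∈ D) (c : d * e = e * d) : t * s = s * t :=
  ((ht.2 s hs.1).1 ((hs.2 d hd).1 c).symm).symm
theorem RI.con_of_nt (h : RI D) (hd : d ∈ D) (he : e ∈ D) (ed : e * d ∈ D) (hx : x ∈ D) (hy : y ∈ D) (hz : z ∈ D)
    (c1 : x * y = y * x) (c2 : y * z = z * y) (n : x * z ≠ z * x) : IsConnectedSet (CommAdj D) D := by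
  let M := closure D
  have k := h.sub M
  have gen : closure (M.subtype ⁻¹' D) = ⊤ := closure_closure_coe_preimage
  obtain ⟨r, i⟩ := k.rt_comp (fun g => k.mem_nD (gen.ge (mem_top g))) (d := ⟨d, subset_closure hd⟩) hd
  suffices ∀ a ∈ D, ReflTransGen (CommAdj D) d a from fun a ha b hb => (ccon_symm (this a ha)).trans (this b hb)
  intro a ha
  by_contra na
  have t := r.tc (a := ((1 : M) : M ⧸ _)) (d := ⟨d, subset_closure hd⟩) (e := ⟨e, subset_closure he⟩)
    (x := ⟨a, subset_closure ha⟩) hd he ed (coset_fix.2 (by simpa using (i ⟨d, subset_closure hd⟩ hd).2 .refl)) ha fun e => na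
    (((i ⟨a, subset_closure ha⟩ ha).1 (by simpa using coset_fix.1 e)).lift Subtype.val fun _ _ k =>
      ⟨k.1, k.2.1, fun e => k.2.2.1 (Subtype.ext e), congrArg Subtype.val k.2.2.2⟩)
  obtain ⟨p, hp⟩ := r.fix ⟨x, subset_closure hx⟩ hx
  have yp := r.comm_fix (g := ⟨y, subset_closure hy⟩) hx hp (Subtype.ext c1.symm)
  exact n (congrArg Subtype.val (t.t1 ⟨x, subset_closure hx⟩ hx ⟨z, subset_closure hz⟩ hz p hp
    (r.comm_fix (g := ⟨z, subset_closure hz⟩) hy yp (Subtype.ext c2.symm))))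

namespace OC
variable (h : OC D)
include h
theorem Ecj (ha : a ∈ D) (ht : t ∈ Ec D d) : a * t * a ∈ Ec D (a * d * a) := by
  simpa only [h.inv ha] using Ec_conj (h.mem_nD (subset_closure ha)) ht
theorem q1 (hb : b ∈ D) (hx : x ∈ D) (hd : d ∈ D) (c : b * x = x * b) (ob : Od d b) (ox : Od d x) :
    ∃ β ∈ Ec D b, x * d * x * (β * d * β) = β * d * β * (x * d * x) := by
  obtain ⟨s, r, S, -⟩ := h.se hx hd ox.symm
  obtain ⟨n, hn, e1, -⟩ := h.mid S.1.1 hd (h.Ec_od hx S.1 hd ox.symm).2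
  obtain ⟨m, hm, e2, -⟩ := h.mid hd hx ox.2
  have n2 := h.sq n hn; have m2 := h.sq m hm
  have hb' := h.cnj n hn _ (h.cnj m hm b hb)
  have e3 : m * x * m = d := wd[e2 & m2]
  have e4 : n * d * n = s := wd[e1 & n2]
  obtain ⟨β, hβ, k⟩ := h.q0 hb' hx hd ((S.1.2 _ hb').2 (by
      rw [← e4, ← e3]; exact tr[[m, n, b, x]; c & n2 & m2]))
    (by
      have := h.Ec_od hx S.1 (h.cnj m hm b hb) (e2 ▸ ob.cj m2)
      exact e1 ▸ this.cj n2) ox S
  have E : d ∈ Ec D (m * s * m) := e3 ▸ h.Ecj hm (Ec_symm hx S.1)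
  have hβ' := h.Ecj hm (h.Ecj hn hβ)
  rw [show m * (n * (n * (m * b * m) * n) * n) * m = b from tr[[m, n, b]; m2 & n2]] at hβ'
  refine ⟨_, hβ', Ec_cc (h.Ecj hx E) (h.Ecj hβ'.1 E) (h.cnj x hx _ (h.cnj m hm s S.1.1)) ?_⟩
  calc _ = m * (n * (s * d * s * (β * d * β)) * n) * m := by rw [← e2, ← e4]; exact tr[[m, n, d, β]; m2 & n2]
    _ = _ := by rw [k, ← e2, ← e4]; exact tr[[m, n, d, β]; m2 & n2]
theorem cen_Y (hb : b ∈ D) (ha : a ∈ D) (k1 : a * b = b * a) (k2 : a * d = d * a) (hy : y ∈ closure (Ec D b ∪ {d})) :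
    y * a = a * y := cent_closure (by rintro t (ht | rfl); exacts [((ht.2 a ha).1 k1).symm, k2.symm]) hy
/-- a common neighbour of the ends of a path of length three -/
theorem pl (ha : a ∈ D) (hb : b ∈ D) (hx : x ∈ D) (hd : d ∈ D) (c : b * x = x * b) (ob : Od d b) (ox : Od d x)
    (ab : a * b = b * a) (ad : a * d = d * a) (ax : Od a x) : ∃ r ∈ D, r * b = b * r ∧ r * x = x * r ∧ r * d = d * r := by
  obtain ⟨e, he, eb⟩ := h.p hb
  obtain ⟨β, hβ, o⟩ := h.zl hb hx hd c ob he eb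
  have c' := (hβ.2 x hx).1 c.symm
  have aβ := (hβ.2 a ha).1 ab
  obtain ⟨m, hm, k1, k2, e, k, -⟩ := h.zm hx hβ.1 hd c' (by rintro rfl; exact h.od_nc ha hx ax aβ) o
  have x2 := h.sq x hx; have b2 := h.sq β hβ.1; have m2 := h.sq m hm
  have oβ := (h.Ec_od hb hβ hd ob.symm).symm
  have mx : m ≠ x := by rintro rfl; exact h.od_nc hd hβ.1 oβ wd[e & c' & x2 & b2]
  have e' : m * x * β * a * (m * x * β) = x * m * a * (x * m) := tr[[m, x, β, a]; k1 & k2 & c' & aβ & b2]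
  have zd : x * m * a * (x * m) * d = d * (x * m * a * (x * m)) :=
    e' ▸ (Commute.mul_left (Commute.mul_left k.symm ad) k.symm).eq
  have zb : x * m * a * (x * m) * β = β * (x * m * a * (x * m)) := tr[[m, x, β, a]; k2 & c' & aβ]
  have aD : x * m * a * (x * m) ∈ D := by
    rw [show x * m * a * (x * m) = x * (m * a * m) * x from tr[[m, x, a]; k1]]; exact h.cnj x hx _ (h.cnj m hm a ha)
  by_cases i : a * (x * m * a * (x * m)) = x * m * a * (x * m) * a
  · obtain ⟨s, hs, sa, e1, l⟩ := h.theta ha hx hm k1.symm ax rfl i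
    obtain ⟨γ, hγ, j⟩ := h.q1 hb hx hd c ob ox
    have sd := l d hd ad.symm zd.symm
    have sγ := (hγ.2 s hs).1 ((hβ.2 s hs).2 (l β hβ.1 aβ.symm zb.symm).symm)
    have aγ := (hγ.2 a ha).1 ab
    have a2 := h.sq a ha; have s2 := h.sq s hs
    have j' : γ * d * γ * (m * d * m) = m * d * m * (γ * d * γ) := by
      calc _ = a * s * (γ * d * γ * (x * d * x)) * (a * s) := by
            rw [← e1]; exact tr[[a, s, γ, d, x]; sa & sd & sγ & aγ & ad & a2 & s2]
        _ = _ := by rw [← j, ← e1]; exact tr[[a, s, γ, d, x]; sa & sd & sγ & aγ & ad & a2 & s2]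
    have := h.comm_of_od (h.cnj x hx d hd) (b := β) (by
      simpa only [show x * β * x = β from tr[[x, β]; c' & x2]] using oβ.cj x2) j.symm (by
      rwa [show β * (x * d * x) * β = m * d * m by rw [e]; exact tr[[x, β, d]; c']])
    have γβ := Ec_comm hγ hβ; have γ2 := h.sq γ hγ.1
    exact (h.od_nc hd hβ.1 oβ wd[this & γβ & γ2]).elim
  · obtain ⟨r, hr, -, j, l⟩ := h.mid_comm (u := m * x * β)
      (h.mem_nD (mul_mem (mul_mem (subset_closure hm) (subset_closure hx)) (subset_closure hβ.1)))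
      tr[[m, x, β]; k1 & k2 & c' & x2 & b2 & m2] ha (e' ▸ h.od ha aD i)
    rw [e'] at l
    have rβ : r * β = β * r := cent_closure (by rintro _ (rfl | rfl); exacts [aβ, zb]) l
    exact ⟨r, hr, (hβ.2 r hr).2 rβ, (h.zc hx hβ.1 hm mx (by
      rintro rfl; exact h.od_nc hd hx ox wd[e & c' & x2 & b2]) c' hr j).1 rβ,
      cent_closure (by rintro _ (rfl | rfl); exacts [ad, zd]) l⟩
theorem nb (hd : d ∈ D) (k : ReflTransGen (CommAdj D) d x) : ∃ e ∈ D, e * d = d * e ∧ e * x = x * e := by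
  induction k with
  | refl => exact ⟨d, hd, rfl, rfl⟩
  | @tail b x _ j i =>
    obtain ⟨a, ha, ad, ab⟩ := i
    by_cases c1 : d * b = b * d
    · exact ⟨b, j.1, c1.symm, j.2.2.2⟩
    by_cases c2 : d * x = x * d
    · exact ⟨d, hd, rfl, c2⟩
    by_cases c3 : a * x = x * a
    · exact ⟨a, ha, ad, c3⟩
    obtain ⟨r, hr, -, r1, r2⟩ := h.pl ha j.1 j.2.1 hd j.2.2.2 (h.od hd j.1 c1) (h.od hd j.2.1 c2) ab ad (h.od ha j.2.1 c3)
    exact ⟨r, hr, r2, r1⟩
/-- the class of `d` among the members commuting with `r` -/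
theorem sub (hd : d ∈ D) (hx : x ∈ D) (o : Od d x) (dr : d * r = r * d) (xr : x * r = r * x) (hr : r ∈ D) :
    ∃ Λ ⊆ D, OC Λ ∧ r ∉ Λ ∧ d ∈ Λ ∧ ∀ y ∈ Λ, ∀ z ∈ D, z * r = r * z → Od y z → z ∈ Λ := by
  have k := h.toOT.inter (C1(r) : Subgroup G)
  set E := D ∩ ((C1(r) : Subgroup G) : Set G)
  let Λ : Set G := {y | ∃ g ∈ closure E, g * d * g⁻¹ = y}
  have dE : d ∈ E := ⟨hd, mem_C1.2 dr⟩
  have sb : Λ ⊆ E := by rintro _ ⟨g, hg, rfl⟩; exact k.conj_mem hg d dE
  have cj : ∀ g ∈ closure E, ∀ y ∈ Λ, g * y * g⁻¹ ∈ Λ := by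
    rintro g hg _ ⟨g', hg', rfl⟩; exact ⟨_, mul_mem hg hg', by group⟩
  have st : ∀ y ∈ Λ, ∀ z ∈ D, z * r = r * z → Od y z → z ∈ Λ := fun y hy z hz zr o => by
    obtain ⟨w, hw, e, -⟩ := k.mid (sb hy) ⟨hz, mem_C1.2 zr⟩ o.2
    exact e ▸ k.inv hw ▸ (k.inv hw).symm ▸ cj w (subset_closure hw) y hy
  have dΛ : d ∈ Λ := ⟨1, one_mem _, by simp⟩
  have xΛ := st d dΛ x hx xr o
  have ri : RI Λ := ⟨fun y hy => k.sq y (sb hy), fun y hy => k.ne y (sb hy), fun y hy z hz => by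
    simpa only [k.inv (sb hy)] using cj y (subset_closure (sb hy)) z hz, fun y hy z hz =>
    (em _).imp_right fun c => .inl (k.od (sb hy) (sb hz) c).2⟩
  have rc : RC Λ := ⟨ri, by
    rintro _ ⟨g, hg, rfl⟩ _ ⟨g', hg', rfl⟩
    exact ⟨g' * g⁻¹, fun y => ⟨cj _ (mul_mem hg' (inv_mem hg)) y, fun i => by
      simpa [mul_assoc] using cj _ (inv_mem (mul_mem hg' (inv_mem hg))) _ i⟩, by group⟩, by
    rintro _ ⟨g, hg, rfl⟩; exact ⟨_, cj g hg x xΛ, o.conj g⟩⟩
  obtain ⟨e, he, ed⟩ := h.p hd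
  have m : ∀ e ∈ Ec D d, e ∈ Λ := fun e he => st x xΛ e he.1 ((he.2 r hr).1 dr.symm).symm (h.Ec_od hd he hx o).symm
  refine ⟨Λ, fun y hy => (sb hy).1, ⟨⟨ri, fun y hy z hz f => k.nF y (sb hy) z (sb hz) (sb f)⟩, rc,
    rc.X_all dΛ (m e he) (m _ ed)⟩, ?_, dΛ, st⟩
  rintro ⟨g, hg, e⟩
  have := cent_closure (z := r) (fun s hs => mem_C1.1 hs.2) hg
  obtain rfl : d = r := by rw [← mul_left_cancel_iff (a := g), this, ← e]; simp
  exact h.od_nc hd hx o xr.symm
omit h in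
theorem pl2 (D : Set G) : OC D → ∀ d ∈ D, ∀ e ∈ D, ∀ x ∈ D, ∀ f ∈ D, d * e = e * d → f * d = d * f → Od f e → Od x d →
    Od x e → ∃ a ∈ D, a * d = d * a ∧ a * x = x * a ∧ Od a e := by
  induction hn : D.ncard using Nat.strong_induction_on generalizing D with | _ n ih =>
  subst hn
  intro h d hd e he x hx f hf de fd fe xd xe
  by_contra! k
  have k' : ∀ a ∈ D, a * d = d * a → a * x = x * a → a * e = e * a := fun a ha i j => h.cm ha he (k a ha i j)
  obtain ⟨e', he', ed⟩ := h.p3 d hd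
  obtain ⟨a, ha, ad, ax⟩ := h.nb hd (h.con_of_nt hd he' ed hf hd he fd de (h.od_nc hf he fe) d hd x hx)
  have xf := h.od hx hf fun c => k f hf fd c.symm fe
  obtain ⟨r, hr, rd, rf, rx⟩ : ∃ r ∈ D, r * d = d * r ∧ r * f = f * r ∧ r * x = x * r := by
    by_cases c : a * f = f * a
    exacts [⟨a, ha, ad, c, ax⟩, h.pl ha hd hf hx fd.symm xd xf ad ax (h.od ha hf c)]
  obtain ⟨Λ, l, o, rΛ, dΛ, st⟩ := h.sub hd hx xd.symm rd.symm rx.symm hr
  have xΛ := st d dΛ x hx rx.symm xd.symm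
  have eΛ := st x xΛ e he (k' r hr rd rx).symm xe
  obtain ⟨a, ha, i, j, o⟩ := ih _ (Set.ncard_lt_ncard ⟨l, fun i => rΛ (i hr)⟩) Λ rfl o d dΛ e eΛ x xΛ f
    (st x xΛ f hf rf.symm xf) de fd fe xd xe
  exact k a (l ha) i j o

theorem U_sq (hu : u ∈ closure (Ec D d)) : u * u = 1 :=
  sq_closure (fun _ hx _ hy => Ec_comm hx hy) (fun x hx => h.sq x hx.1) hu
omit h in
theorem U_c (hy : y ∈ D) (c : y * d = d * y) (hu : u ∈ closure (Ec D d)) : u * y = y * u :=
  cent_closure (fun s hs => ((hs.2 y hy).1 c).symm) hu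
theorem U_D (hu : u ∈ closure (Ec D d)) (hy : y ∈ D) : u * y * u ∈ D := by
  simpa only [inv_eq_of_mul_self (h.U_sq hu)] using h.conj_mem (Subgroup.closure_mono (fun _ k => k.1) hu) y hy
theorem m1 (hd : d ∈ D) (hy : y ∈ D) (o : Od d y) (hu : u ∈ closure (Ec D d)) (o' : Od y (u * y * u)) :
    ∃ m ∈ Ec D d, m * y * m = u * y * u := by
  have k := h.pk hd hy o le_rfl (Ec_self hd)
  have l : closure (Ec D d) ≤ closure (Ec D d ∪ {y}) := Subgroup.closure_mono Set.subset_union_left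
  obtain ⟨m, hm, e1, c, mX⟩ := h.mid_comm (h.mem_nD (Subgroup.closure_mono (fun _ k => k.1) hu)) (h.U_sq hu) hy o'
  have uX := l hu; have yX := k.xX
  replace mX : m ∈ closure (Ec D d ∪ {y}) := (closure_le _).2 (by
    rintro _ (rfl | rfl); exacts [yX, mul_mem (mul_mem uX yX) uX]) mX
  obtain ⟨e, he, ed⟩ := h.p hd
  have eX := l (subset_closure he)
  have m2 := h.sq m hm
  refine ⟨m, h.F hd hy o.symm hm mX (k.cm' hm mX hd k.dX ?_), e1⟩
  rcases k.s.mem_cl (u := mfun (QuotientGroup.mk' _) u) (k.ec e eX he) (k.ne' he.1 eX ed) (by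
    clear o' e1 c uX
    induction hu using closure_induction with
    | mem x hx => exact subset_closure (k.ec x (l (subset_closure hx)) hx)
    | one => simp
    | mul x y hx hy i j => rw [mfun_mul (l hx) (l hy)]; exact mul_mem i j
    | inv x hx i => rw [mfun_inv (l hx)]; exact inv_mem i) with i | i
  · exact (h.od_nc hy (h.U_D hu hy) o' (k.cm' hy yX (h.U_D hu hy) (mul_mem (mul_mem uX yX) uX) (by
      rw [mfun_mul (mul_mem uX yX) uX, mfun_mul uX yX, i]; simp))).elim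
  · exact (i.2 _ (k.mem hm mX (h.od hm hy fun c => o'.1 (by rw [← e1]; exact wd[c & m2])))).2 (by
      rw [← mfun_mul mX uX, c, mfun_mul uX mX])
theorem g2 (hd : d ∈ D) (hx : x ∈ D) (o : Od d x) (hu : u ∈ closure (Ec D d)) (c : x * (u * x * u) = u * x * u * x)
    (hy : y ∈ D) : u * y * u ∈ Ec D y := by
  have u2 := h.U_sq hu
  by_cases yd : y * d = d * y
  · have := U_c hy yd hu
    exact (show y = u * y * u from wd[this & u2]) ▸ Ec_self hy
  have oy := h.od hd hy (Ne.symm yd)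
  have W : ∀ y ∈ D, Od d y → u * y * u ∈ closure (Ec D y ∪ {d}) := fun y hy o => by
    have : closure (Ec D d) ≤ closure (Ec D y ∪ {d}) := (closure_le _).2 fun t ht => by
      obtain ⟨n, hn, e, l⟩ := h.mid hy hd o.symm.2
      have nX : n ∈ closure (Ec D y ∪ {d}) := Subgroup.closure_mono (by
        rintro _ (rfl | rfl); exacts [.inl (Ec_self hy), .inr rfl]) l
      have := h.Ecj hn ht; have n2 := h.sq n hn
      rw [show n * d * n = y from wd[e & n2]] at this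
      exact (show n * (n * t * n) * n = t from tr[[n, t]; n2]) ▸ mul_mem (mul_mem nX (subset_closure (.inl this))) nX
    exact mul_mem (mul_mem (this hu) (subset_closure (.inl (Ec_self hy)))) (this hu)
  refine h.F hy hd oy (h.U_D hu hy) (W y hy oy) (h.cm hy (h.U_D hu hy) fun o' => ?_).symm
  obtain ⟨m, hm, e1⟩ := h.m1 hd hy oy hu o'
  have hu' := mul_mem (subset_closure hm) hu
  have mu := U_c hm.1 (Ec_comm hm (Ec_self hd)) hu; have m2 := h.sq m hm.1
  have E := h.Ecj hm.1 (h.F hx hd o (h.U_D hu hx) (W x hx o) c.symm)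
  obtain ⟨m', hm', e2⟩ := h.m1 hd hx o hu' (by
    rw [show m * u * x * (m * u) = m * (u * x * u) * m from tr[[m, u, x]; mu]]
    exact (h.Ec_od (h.cnj m hm.1 x hx) E hx (h.odc hx hm.1 (h.Ec_od hd hm hx o).symm).symm).symm)
  have hv := mul_mem (subset_closure hm') hu'
  have mu' := U_c hm'.1 (Ec_comm hm' (Ec_self hd)) hu'; have m2' := h.sq _ hm'.1; have v2 := h.U_sq hu'
  have e3 : m * u * y * (m * u) = y :=
    (show _ = m * (u * y * u) * m from tr[[m, u, y]; mu]).trans (by rw [← e1]; exact tr[[m, y]; m2])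
  generalize m * u = w at *
  have vx : m' * w * x = x * (m' * w) :=
    (show _ = m' * (w * x * w) * w from tr[[m', w, x]; v2]).trans (by rw [← e2]; exact tr[[m', w, x]; m2' & mu'])
  have e4 : m' * w * y * (m' * w) = m' * y * m' :=
    (show _ = m' * (w * y * w) * m' from tr[[m', w, y]; mu']).trans (by rw [e3])
  generalize m' * w = v at *
  obtain ⟨n, hn, e, l⟩ := h.mid hd hx o.2
  have nv : n * v = v * n := cent_closure (by
    rintro _ (rfl | rfl); exacts [(U_c hd rfl hv).symm, vx.symm]) l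
  have n2 := h.sq n hn
  have hv' : v ∈ closure (Ec D x) := by
    have := conj_mem_cj (g := n) hv
    rw [cj_closure, nv, mul_inv_cancel_right] at this
    refine Subgroup.closure_mono ?_ this
    rintro _ ⟨t, ht, rfl⟩; simpa only [h.inv hn, e] using h.Ecj hn ht
  have om := (h.Ec_od hd hm' hy oy).symm
  have o4 : Od y (v * y * v) := e4 ▸ h.odc hy hm'.1 om
  obtain ⟨m'', hm'', e5⟩ := h.m1 hx hy (h.od hx hy fun c => by
    have := U_c hy c.symm hv'; have := And.intro this (h.U_sq hv)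
    exact o4.1 wd[this]) hv' o4
  obtain rfl := h.uniq hy hm'.1 hm''.1 om (e5.trans e4)
  exact h.od_nc hd hx o (Ec_cc (Ec_symm hd hm') (Ec_symm hx hm'') hm'.1 rfl)
variable (gen : closure D = ⊤) (hO : pCore 2 G = ⊥) (hZ : center G = ⊥)
include gen hO hZ
theorem K (hd : d ∈ D) (hx : x ∈ D) (o : Od d x) (hu : u ∈ closure (Ec D d)) (c : x * (u * x * u) = u * x * u * x) :
    u = 1 := by
  have nD : ∀ g : G, g ∈ normalizer D := fun g => h.mem_nD (gen.ge (mem_top g))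
  let N : Subgroup G := ⟨⟨⟨{g | ∀ y ∈ D, g * y * g⁻¹ ∈ Ec D y}, fun {a b} ha hb y hy => by
    simpa [mul_assoc] using Ec_trans (hb y hy) (ha _ (hb y hy).1)⟩, fun y hy => by simpa using Ec_self hy⟩,
    fun {a} ha y hy => by simpa [mul_assoc] using Ec_symm (nDc' (nD a) hy) (ha _ (nDc' (nD a) hy))⟩
  have : N.Normal := ⟨fun a ha g y hy => by simpa [mul_assoc] using Ec_conj (nD g) (ha _ (nDc' (nD g) hy))⟩
  have u2 := h.U_sq hu
  have uN : u ∈ N := fun y hy => by simpa only [inv_eq_of_mul_self u2] using h.g2 hd hx o hu c hy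
  refine eq_one_of_eq_bot hZ (mem_center_iff.2 fun g => cent_closure (fun y hy => ?_) (gen.ge (mem_top g)))
  have := h.nml_two' (N := N) nD hy (fun n hn => Ec_comm (Ec_self hy) (hn y hy)) uN
  rw [hO, mem_bot, inv_eq_of_mul_self u2] at this
  have y2 := h.sq y hy
  exact wd[this & u2 & y2]
theorem U_eq (hd : d ∈ D) (hu : u ∈ closure (Ec D d)) : u = 1 ∨ u ∈ Ec D d := by
  obtain ⟨x, hx, o⟩ := h.rc.odd d hd
  refine (em _).imp_right fun n => ?_
  obtain ⟨m, hm, e⟩ := h.m1 hd hx o hu (h.od hx (h.U_D hu hx) fun c => n (h.K gen hO hZ hd hx o hu c))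
  have mu := U_c hm.1 (Ec_comm hm (Ec_self hd)) hu; have m2 := h.sq m hm.1; have u2 := h.U_sq hu
  have := h.K gen hO hZ hd hx o (mul_mem (subset_closure hm) hu) (by
    rw [(show m * u * x * (m * u) = m * (u * x * u) * m from tr[[m, u, x]; mu]), ← e,
      show m * (m * x * m) * m = x from tr[[m, x]; m2]])
  exact (show m = u from wd[this & u2]) ▸ hm
end OC
end H13
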