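import Cfsg.Agent.H13.RI5
/-! Non-degenerate classes of root involutions: the graph `ProdAdj` is connected (`econ`, `RC.econ`), and
`G = ⟨X_d, x⟩` for `x ∈ A_d` (`RC.gen_X`). -/
set_option autoImplicit false
set_option linter.unusedSectionVars false
open Cfsg H18 Subgroup H9 H19 H21 MulAction Relation

namespace H13
universe u
section
variable {G : Type*} [Group G] {D : Set G} {a a' b d e f g x y : G}

theorem econ_conj (hg : g ∈ normalizer D) (h : ReflTransGen (ProdAdj D) x y) :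
    ReflTransGen (ProdAdj D) (g * x * g⁻¹) (g * y * g⁻¹) :=
  h.lift (fun a => g * a * g⁻¹) fun _ _ k => ⟨nDc hg k.1, nDc hg k.2.1, fun e => k.2.2.1 (by simpa using e), by
    rw [conj_mul, conj_mul, k.2.2.2.1], by rw [conj_mul]; exact nDc hg k.2.2.2.2⟩
theorem econ_symm (h : ReflTransGen (ProdAdj D) x y) : ReflTransGen (ProdAdj D) y x := by
  induction h with
  | refl => exact .refl
  | tail _ k i => exact .head ⟨k.2.1, k.1, k.2.2.1.symm, k.2.2.2.1.symm, k.2.2.2.1 ▸ k.2.2.2.2⟩ i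
namespace RI
variable (h : RI D)
include h
theorem eadj (ha : a ∈ D) (hb : b ∈ D) (k : a * b ∈ D) : ProdAdj D a b :=
  ⟨ha, hb, h.ne_of_mul ha k, h.comm ha hb k, k⟩
theorem econ_fo (ha : a ∈ D) (hb : b ∈ D) (k : Fo D a b) : ReflTransGen (ProdAdj D) a b :=
  .tail (econ_symm (.single (h.eadj k ha (h.br_symm ha hb k ▸ h.br_mul hb ha)))) (h.eadj k hb (h.br_mul ha hb))
theorem econ_od (hb : b ∈ D) (n : ¬ ReflTransGen (ProdAdj D) a b) (o : Od a b) (k : ReflTransGen (ProdAdj D) a a') :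
    Od a' b := by
  induction k with
  | refl => exact o
  | tail j k i =>
    exact h.od_of k.2.1 hb (h.X_nc k.1 hb k.2.1 i (k.2.2.2.1 ▸ k.2.2.2.2)) fun f =>
      n ((j.tail k).trans (h.econ_fo k.2.1 hb f))
theorem econ_comm (ha : a ∈ D) (hb : b ∈ D) (n : ¬ ReflTransGen (ProdAdj D) a b) (c : a * b = b * a)
    (k : ReflTransGen (ProdAdj D) a a') (ha' : a' ∈ D) : a' * b = b * a' :=
  h.comm_of ha' hb (fun o => h.od_nc ha hb (h.econ_od hb (fun j => n (k.trans j)) o (econ_symm k)) c) fun f =>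
    n (k.trans (h.econ_fo ha' hb f))
end RI
end

theorem econ (G : Type u) [Group G] [Finite G] : ∀ (D : Set G) (e f x : G), RI D → closure D = ⊤ →
    (∀ a ∈ D, IsConj e a) → e ∈ D → f ∈ D → x ∈ D → Fo D e f → Od e x → ReflTransGen (ProdAdj D) e x := by
  induction hn : Nat.card G using Nat.strong_induction_on generalizing G with | _ n ih =>
  subst hn
  intro D e f x h gen cl he hf hx k o
  by_contra n
  have nD : ∀ g, g ∈ normalizer D := fun g => h.mem_nD (gen.ge (mem_top g))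
  have st : ∀ d ∈ D, ∀ y ∈ D, Od d y → ¬ ReflTransGen (ProdAdj D) d y → ∃ f ∈ D, Fo D d f ∧ closure {d, f, y} = ⊤ := by
    intro d hd y hy o n
    obtain ⟨f, hf, k⟩ : ∃ f ∈ D, Fo D d f := by
      obtain ⟨g, rfl⟩ := isConj_iff.1 (cl d hd)
      exact ⟨_, nDc (nD g) hf, by simpa [Fo, mul_assoc] using nDc (nD g) k⟩
    refine ⟨f, hf, k, by_contra fun ne => n ?_⟩
    set M := closure {d, f, y}
    have dM : d ∈ M := subset_closure (by simp)
    have fM : f ∈ M := subset_closure (by simp)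
    have yM : y ∈ M := subset_closure (by simp)
    have h' := h.sub M
    let E : Set M := {a | IsConj (⟨d, dM⟩ : M) a}
    have sub : E ⊆ M.subtype ⁻¹' D := fun a ha => by obtain ⟨g, rfl⟩ := isConj_iff.1 ha; exact nDc (D := D) (nD g) hd
    have od : ∀ a b : M, Od (a : G) b → Od a b := fun a b o =>
      ⟨fun e => o.1 (congrArg _ e), by rw [← Subgroup.orderOf_coe]; exact o.2⟩
    have cj : ∀ a ∈ E, ∀ b : M, (b : G) ∈ D → Od (a : G) b → b ∈ E := fun a ha b hb o =>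
      ha.trans (isConj_of_odd (h'.sq a (sub ha)) (h'.sq b hb) (od a b o).2)
    have hy' : ⟨y, yM⟩ ∈ E := cj ⟨d, dM⟩ (IsConj.refl _) _ hy o
    have hf' : ⟨f, fM⟩ ∈ E := cj _ hy' _ hf (h.econ_od hy n o (h.econ_fo hd hf k)).symm
    have fo : ∀ a ∈ E, ∀ b ∈ E, Fo D (a : G) b → Fo E a b := fun a ha b hb k => by
      obtain ⟨g, rfl⟩ := isConj_iff.1 ha
      have ha' := sub ha
      refine cj (g * ⟨y, yM⟩ * g⁻¹) (hy'.trans (isConj_iff.2 ⟨g, rfl⟩)) _ k (h.econ_od (nDc (nD g) hy) (fun j => n ?_)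
        (o.conj g) (econ_symm (.single (h.eadj k ha' (h.br_symm ha' (sub hb) k ▸ h.br_mul (sub hb) ha'))))).symm
      simpa [mul_assoc] using econ_conj (nD (g : G)⁻¹) j
    exact (ih _ (card_lt_top ne) M rfl E ⟨d, dM⟩ ⟨f, fM⟩ ⟨y, yM⟩ ⟨fun a ha => h'.sq a (sub ha), fun a ha => h'.ne a (sub ha),
      fun a ha b hb => hb.trans (isConj_iff.2 ⟨a, by rw [h'.inv (sub ha)]⟩), fun a ha b hb =>
      (h'.pair a (sub ha) b (sub hb)).imp_right (Or.imp_right (fo a ha b hb))⟩ (top_le_iff.1 (closure_closure_coe_preimage.ge.trans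
      (Subgroup.closure_mono (by
        rintro a (e | e | e)
        exacts [(show a = ⟨d, dM⟩ from Subtype.ext e) ▸ IsConj.refl _, (show a = ⟨f, fM⟩ from Subtype.ext e) ▸ hf',
          (show a = ⟨y, yM⟩ from Subtype.ext e) ▸ hy'])))) (fun _ k => k)
      (IsConj.refl _) hf' hy' (fo _ (IsConj.refl _) _ hf' k) (od _ _ o)).lift M.subtype fun a b k =>
      h.eadj (sub k.1) (sub k.2.1) (sub k.2.2.2.2)
  have key : ∀ d, ReflTransGen (CommAdj D) e d → Od d x ∧ ¬ ReflTransGen (ProdAdj D) d x := fun d j => by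
    induction j with
    | refl => exact ⟨o, n⟩
    | @tail d d' _ j i =>
      by_cases p : ReflTransGen (ProdAdj D) d d'
      · exact ⟨h.econ_od hx i.2 i.1 p, fun q => i.2 (p.trans q)⟩
      have q : ¬ ReflTransGen (ProdAdj D) d' x := fun q =>
        h.od_nc j.1 hx i.1 (h.econ_comm j.2.1 j.1 (fun r => p (econ_symm r)) j.2.2.2.symm q hx).symm
      refine ⟨h.od_of j.2.1 hx (fun c => ?_) fun r => q (h.econ_fo j.2.1 hx r), q⟩
      obtain ⟨f', hf', k', gen'⟩ := st d j.1 x hx i.1 i.2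
      obtain ⟨g, e'⟩ := isConj_iff.1 (cl d' j.2.1)
      refine h.od_nc j.2.1 (nDc (nD g) hx) (e' ▸ o.conj g) (mem_C1.1 ((gen'.ge.trans ((closure_le C1(d')).2 ?_))
        (mem_top _))).symm
      rintro _ (rfl | rfl | rfl)
      exacts [mem_C1.2 j.2.2.2, mem_C1.2 (h.econ_comm j.1 j.2.1 p j.2.2.2 (h.econ_fo j.1 hf' k') hf'), mem_C1.2 c.symm]
  obtain ⟨r, m⟩ := h.rt_comp nD he
  have fx : ∀ y ∈ D, y • (QuotientGroup.mk (s := normalizer (elemComponentOf (CommAdj D) D e)) 1) = QuotientGroup.mk 1 ↔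
      ReflTransGen (CommAdj D) e y := fun y hy => by
    rw [coset_fix, ← m y hy]; simp
  exact h.fo_nc he hf k ((r.tc he k (h.br_symm he hf k ▸ h.br_mul hf he) ((fx e he).2 .refl) hx fun i =>
    od_irrefl (key x ((fx x hx).1 i)).1).t1 e he f hf _ ((fx e he).2 .refl) ((fx f hf).2 (h.ccon he hf (h.fo_nod he hf k))))

variable {G : Type*} [Group G] [Finite G] {D : Set G} {a b d e f g x y : G}
namespace RC
variable (h : RC D) (gen : closure D = ⊤) (he : e ∈ D) (hf : f ∈ D) (k : Fo D e f)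
include h
theorem ocon (gen : closure D = ⊤) : IsConnectedSet (OddAdj D) D := fun a ha b hb => by
  obtain ⟨x, hx, o⟩ := h.odd a ha
  obtain ⟨g, -, rfl⟩ := h.cls a ha b hb
  exact h.comp_inv' ha hx o (gen.ge (mem_top g))
include he hf k
theorem fo_all (ha : a ∈ D) : ∃ b ∈ D, Fo D a b := by
  obtain ⟨g, hg, rfl⟩ := h.cls e he a ha
  exact ⟨_, nDc hg hf, by simpa [Fo, mul_assoc] using nDc hg k⟩
include gen
theorem econ : IsConnectedSet (ProdAdj D) D := fun a ha b hb => by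
  induction h.ocon gen a ha b hb with
  | refl => exact .refl
  | @tail c _ _ j i =>
    obtain ⟨f', hf', k'⟩ := h.fo_all he hf k j.1
    exact (i j.1).trans (H13.econ G D _ _ _ h.toRI gen (fun a ha => let ⟨g, _, e⟩ := h.cls c j.1 a ha; isConj_iff.2 ⟨g, e⟩)
      j.1 hf' j.2.1 k' j.2.2)
theorem gen_X (hd : d ∈ D) (hx : x ∈ D) (o : Od d x) {H : Subgroup G} (hX : ∀ y ∈ D, y * d ∈ D → y ∈ H) (xH : x ∈ H) :
    H = ⊤ := by
  have d2 := h.sq d hd
  have dH : d ∈ H := by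
    obtain ⟨y, hy, j⟩ := h.X_all he k (h.br_symm he hf k ▸ h.br_mul hf he) d hd
    exact (mul_mem_cancel_left (hX y hy j)).1 (hX _ j (by rwa [tt'' d2]))
  have md : ∀ a ∈ D, a ∈ H → Od a x → ∃ g ∈ H, g * a * g⁻¹ = x := fun a ha aH o =>
    let ⟨w, hw, e, m⟩ := h.mid ha hx o.2; ⟨w, (closure_le _).2 (Set.pair_subset aH xH) m, by rwa [h.inv hw]⟩
  have m1 : ∀ y ∈ D, y * d ∈ D → Od y x → ∃ g ∈ H, g * d * g⁻¹ = y := fun y hy j o' => by
    obtain ⟨g, hg, e1⟩ := md d hd dH o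
    obtain ⟨g', hg', e2⟩ := md y hy (hX y hy j) o'
    exact ⟨g'⁻¹ * g, mul_mem (inv_mem hg') hg, by
      rw [show g'⁻¹ * g * d * (g'⁻¹ * g)⁻¹ = g'⁻¹ * (g * d * g⁻¹) * g' by group, e1, ← e2]; group⟩
  have m2 : ∀ y ∈ D, y * d ∈ D → ∃ g ∈ H, g * d * g⁻¹ = y := fun y hy j => by
    by_cases o' : Od y x
    · exact m1 y hy j o'
    obtain ⟨g, hg, e1⟩ := m1 _ j (by rwa [tt'' d2]) (h.X_od hd hx hy o j (h.X_fo hd hx hy o j o'))
    obtain ⟨z, hz, o1, o2⟩ : ∃ z ∈ D, Od y z ∧ ¬ Od d z := by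
      by_contra! c; exact o' ((h.A_eq hy hd c x hx).2 o)
    have j' := h.mul_symm hy hd j
    obtain ⟨w, hw, -, c, e2⟩ := h.L5 hy hz o1 hd j' (h.X_fo hy hz hd o1 j' o2)
    have w2 := h.sq w hw; have y2 := h.sq y hy; have s := h.br_symm hw hy c
    refine ⟨w * g, mul_mem (hX w hw ?_) hg, ?_⟩
    · rw [← e2, show w * (w * y * w * y) = y * w * y from wd[w2]]; exact h.cnj y hy w hw
    · rw [show w * g * d * (w * g)⁻¹ = w * (g * d * g⁻¹) * w⁻¹ by group, e1, h.inv hw, ← e2]; exact wd[w2 & y2 & s]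
  refine top_le_iff.1 (gen.ge.trans ((closure_le _).2 fun a ha => ?_))
  suffices ∃ g ∈ H, g * d * g⁻¹ = a by obtain ⟨g, hg, rfl⟩ := this; exact mul_mem (mul_mem hg dH) (inv_mem hg)
  induction h.econ gen he hf k d hd a ha with
  | refl => exact ⟨1, one_mem _, by simp⟩
  | @tail b c _ j i =>
    obtain ⟨g, hg, rfl⟩ := i j.1
    have nD := h.mem_nD (gen.ge (mem_top g))
    obtain ⟨g', hg', e'⟩ := m2 (g⁻¹ * c * g) (nDc' nD j.2.1) (by
      convert nDc' nD (j.2.2.2.1 ▸ j.2.2.2.2) using 1; group)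
    exact ⟨g * g', mul_mem hg hg', by rw [show g * g' * d * (g * g')⁻¹ = g * (g' * d * g'⁻¹) * g⁻¹ by group, e']; group⟩
end RC
end H13
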