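import Cfsg.Agent.H13.OT3
import Cfsg.Agent.H13.RI6
/-! Connected classes of odd transpositions with `O₂(G) = Z(G) = 1`: the lemma `OC.del` on commuting members outside
`E_b`, exclusion of the Suzuki groups (`OC.nsz`) and `⟨E_b, d⟩ ≅ L₂(|E_b| + 1)` (`OC.l2`). -/
set_option autoImplicit false
set_option linter.unusedSectionVars false
open Cfsg H18 Subgroup H9 H19 H21 MulAction Relation
open H5 (eq_one_of_odd piNat_two_compl)

namespace H13
variable {G : Type*} [Group G] [Finite G] {D S : Set G} {a b c d e f g m n r s t u v w x y y' z β : G}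

theorem conj_perm (ht : ∀ f ∈ S, t * f * t⁻¹ ∈ S) {n : ℕ} (e : t ^ n = 1) :
    ∃ σ : Equiv.Perm S, σ ^ n = 1 ∧ ∀ x, (σ x : G) = t * x * t⁻¹ := by
  let τ : S → S := fun x => ⟨_, ht x x.2⟩
  let σ : Equiv.Perm S := .ofBijective τ (Finite.injective_iff_bijective.1 fun x y k =>
    Subtype.ext (by simpa [τ] using k))
  have : ∀ (k : ℕ) (x : S), ((σ ^ k) x : G) = t ^ k * x * (t ^ k)⁻¹ := fun k x => by
    induction k with
    | zero => simp
    | succ k i => rw [pow_succ', Equiv.Perm.mul_apply]; show t * _ * t⁻¹ = _; rw [i, pow_succ']; group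
  exact ⟨σ, Equiv.ext fun x => Subtype.ext (by simp [this, e]), fun _ => rfl⟩
theorem fix_two (t2 : PiElt {2} t) (ht : ∀ f ∈ S, t * f * t⁻¹ ∈ S) (v2 : v * v = 1)
    (hv : ∀ f ∈ S, v * f * v ∈ S ∧ v * f * v ≠ f) (hβ : β ∈ S) (c : t * β * t⁻¹ = β) :
    ∃ f ∈ S, f ≠ β ∧ t * f * t⁻¹ = f := by
  classical
  have := Fintype.ofFinite S
  obtain ⟨n, hn⟩ : ∃ n, orderOf t = 2 ^ n := ⟨_, Nat.eq_prime_pow_of_unique_prime_dvd (orderOf_pos t).ne' fun h1 h2 => t2 _ h1 h2⟩
  obtain ⟨σ, s1, s2⟩ := conj_perm ht (hn ▸ pow_orderOf_eq_one t)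
  have vi := inv_eq_of_mul_self v2
  obtain ⟨τ, t1, t2⟩ := conj_perm (t := v) (n := 2 ^ 1) (fun f hf => by rw [vi]; exact (hv f hf).1) (by rw [pow_one, sq, v2])
  obtain ⟨f, f1, f2⟩ := Equiv.Perm.exists_fixed_point_of_prime' (p := 2) (by
    by_contra k
    obtain ⟨x, e⟩ := Equiv.Perm.exists_fixed_point_of_prime k t1
    exact (hv x x.2).2 (by rw [← vi] at t2; simpa [vi, e] using (t2 x).symm)) s1 (a := ⟨β, hβ⟩) (Subtype.ext ((s2 _).trans c))
  exact ⟨f, f.2, fun e => f2 (Subtype.ext e), by rw [← s2, f1]⟩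
theorem cent_transfer {P : Subgroup G} (ab : ∀ x ∈ P, ∀ y ∈ P, x * y = y * x) (pf : commutator G = ⊤)
    (hz : ∀ g, g * z = z * g) : z ^ P.index = 1 := by
  have : IsMulCommutative P := ⟨⟨fun x y => Subtype.ext (ab x x.2 y y.2)⟩⟩
  open scoped IsMulCommutative in
  have e := MonoidHom.transfer_eq_pow (MonoidHom.id P) z fun k g _ => by
    rw [mul_assoc, (show Commute g z from hz g).pow_right k |>.eq.symm]; simp
  rw [show MonoidHom.transfer (MonoidHom.id P) z = 1 from Abelianization.commutator_subset_ker _ (pf.ge (mem_top z))] at e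
  exact congrArg Subtype.val e.symm

namespace OC
variable (h : OC D)
include h
theorem EY (hd : d ∈ D) (hy : y ∈ D) (o : Od d y) (ht : t ∈ Ec D d) : t ∈ closure (Ec D y ∪ {d}) := by
  obtain ⟨n, hn, e, l⟩ := h.mid hy hd o.symm.2
  have nX : n ∈ closure (Ec D y ∪ {d}) := Subgroup.closure_mono (by
    rintro _ (rfl | rfl); exacts [.inl (Ec_self hy), .inr rfl]) l
  have := h.Ecj hn ht; have n2 := h.sq n hn
  rw [show n * d * n = y from wd[e & n2]] at this
  exact (show n * (n * t * n) * n = t from tr[[n, t]; n2]) ▸ mul_mem (mul_mem nX (subset_closure (.inl this))) nX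
theorem dz (hb : b ∈ D) (hd : d ∈ D) (o : Od b d) (k : ∀ x ∈ D, x * b = b * x → x ∉ Ec D b → x * d = d * x) (hy : y ∈ D)
    (oy : Od b y) (hf : f ∈ D) (c : f * y = y * f) (n : f ∉ Ec D y) : f * b = b * f := by
  refine h.cm hf hb fun of => ?_
  obtain ⟨e, he, ey⟩ := h.p hy
  obtain ⟨β, hβ, o1⟩ := h.zl hy hf hb c.symm oy he ey
  have c' := (hβ.2 f hf).1 c
  obtain ⟨m, hm, k1, k2, e1, z1, -⟩ := h.zm hf hβ.1 hb c' (fun e => n (e ▸ hβ)) o1
  set Y := closure (Ec D y ∪ {b})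
  have EY : ∀ t ∈ Ec D y, t ∈ Y := fun t ht => subset_closure (.inl ht)
  have bY : b ∈ Y := subset_closure (.inr rfl)
  have b2 := h.sq β hβ.1
  have mn : m ∉ Ec D y := fun hm' => by
    have o2 : Od (β * b * β) f := by simpa only [show β * f * β = f from tr[[β, f]; c' & b2]] using of.symm.cj b2
    have bD := h.cnj β hβ.1 b hb
    obtain ⟨w, hw, e2, l⟩ := h.mid bD (h.cnj f hf _ bD) (h.odc bD hf o2).2
    obtain rfl := h.uniq bD hf hw o2 e2
    refine n (h.F hy hb oy hf ((closure_le Y).2 ?_ l) c)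
    have := EY β hβ; have := EY m hm'
    rintro _ (rfl | rfl)
    · exact mul_mem (mul_mem ‹_› bY) ‹_›
    · rw [show w * (β * b * β) * w = m * b * m by rw [e1]; exact tr[[w, β, b]; c']]; exact mul_mem (mul_mem ‹_› bY) ‹_›
  have key : ∀ s ∈ Ec D b, m * f * β * d * (m * f * β) = s * d * s := fun s hs => by
    obtain ⟨w, hw, e2, l⟩ := h.mid hβ.1 hs.1 (h.Ec_od hb hs hβ.1 (h.Ec_od hy hβ hb oy.symm).symm).symm.2
    have wz : w * (m * f * β) = m * f * β * w := cent_closure (by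
      rintro t (ht | rfl)
      exacts [(Commute.mul_right (Commute.mul_right ((ht.2 m hm).1 ((hβ.2 m hm).2 k2)).symm ((ht.2 f hf).1 c).symm)
        (Ec_comm ht hβ)).eq, z1]) ((closure_le Y).2 (by rintro _ (rfl | rfl); exacts [EY _ hβ, h.EY hb hy oy hs]) l)
    have w2 := h.sq w hw
    have i : ∀ x ∈ D, x * β = β * x → x ∉ Ec D y → w * x * w * s = s * (w * x * w) ∧ w * x * w * d = d * (w * x * w) :=
      fun x hx i j => by
      have i' : w * x * w * s = s * (w * x * w) := by rw [← e2]; exact tr[[w, x, β]; i & w2]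
      refine ⟨i', k _ (h.cnj w hw x hx) ((hs.2 _ (h.cnj w hw x hx)).2 i') fun l => j (Ec_trans hβ ?_)⟩
      simpa only [← e2, show ∀ x, w * (w * x * w) * w = x from fun x => tr[[w, x]; w2]] using
        h.Ecj hw (Ec_trans (Ec_symm hb hs) l)
    obtain ⟨m1, m2⟩ := i m hm k2 mn
    obtain ⟨f1, f2⟩ := i f hf c' n
    have m3 := h.sq _ (h.cnj w hw m hm); have f3 := h.sq _ (h.cnj w hw f hf)
    have mf : w * m * w * (w * f * w) = w * f * w * (w * m * w) := tr[[w, m, f]; k1 & w2]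
    rw [show m * f * β = w * m * w * (w * f * w) * s by
      rw [← e2, ← tt'' w2 (m * f * β), ← wz]; exact tr[[w, m, f, β]; w2]]
    generalize w * m * w = m' at *
    generalize w * f * w = f' at *
    exact tr[[m', f', s, d]; m1 & m2 & f1 & f2 & m3 & f3 & mf]
  obtain ⟨e, he, eb⟩ := h.p hb
  exact h.ne_of_mul he.1 eb.1 (h.uniq hd hb he.1 o.symm ((key e he).symm.trans (key b (Ec_self hb))))
variable (gen : closure D = ⊤)
include gen
theorem del (hc : IsConnectedSet (CommAdj D) D) (hb : b ∈ D) (hd : d ∈ D) (o : Od b d) :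
    ∃ x ∈ D, x * b = b * x ∧ x ∉ Ec D b ∧ Od x d := by
  by_contra! k
  have k' : ∀ x ∈ D, x * b = b * x → x ∉ Ec D b → x * d = d * x := fun x hx i j => h.cm hx hd (k x hx i j)
  obtain ⟨e, he, eb, en⟩ : ∃ e ∈ D, e * b = b * e ∧ e ∉ Ec D b := by
    by_contra! l
    have : ∀ x, ReflTransGen (CommAdj D) b x → x ∈ Ec D b := fun x i => by
      induction i with
      | refl => exact Ec_self hb
      | tail _ j i => exact l _ j.2.1 ((i.2 _ j.2.1).2 j.2.2.2.symm)
    exact h.od_nc hb hd o (Ec_comm (Ec_self hb) (this d (hc b hb d hd)))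
  have : ∀ y, ReflTransGen (OddAdj D) b y → y ∈ D ∧ (∃ d ∈ D, Od y d ∧ ∀ x ∈ D, x * y = y * x → x ∉ Ec D y →
      x * d = d * x) ∧ e * y = y * e ∧ e ∉ Ec D y := fun y i => by
    induction i with
    | refl => exact ⟨hb, ⟨d, hd, o, k'⟩, eb, en⟩
    | @tail y y' _ j i =>
      obtain ⟨hy, ⟨d', hd', o', l⟩, i1, i2⟩ := i
      have oy : Od y y' := ⟨j.2.2.1, j.2.2.2⟩
      have l' := fun f hf => h.dz hy hd' o' l j.2.1 oy (f := f) hf
      exact ⟨j.2.1, ⟨y, hy, oy.symm, l'⟩, h.dz j.2.1 hy oy.symm l' hy oy.symm he i1 i2,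
        fun m => h.od_nc he hy (h.Ec_od j.2.1 m hy oy.symm) i1⟩
  exact (this e (h.rc.ocon gen b hb e he)).2.2.2 (Ec_self he)
omit gen in
theorem sz2 (τ : G ≃* G) (hb : b ∈ D) (hd : d ∈ D) (o : Od b d) (hβ : β ∈ Ec D b) (hr : r ∈ Ec D b) (hf : f ∈ D)
    (c : β * f = f * β) (n : f ∉ Ec D b) (k : β * d * β * (f * d * f) = f * d * f * (β * d * β)) (τD : ∀ y ∈ D, τ y ∈ D)
    (τE : ∀ y ∈ Ec D b, τ y = y) (τd : τ d = d * β * d) (τf : τ f = f) (ττ : τ (τ d) = r * d * r)
    (τa : ∀ a ∈ D, a * b = b * a → a * d = d * a → τ a = a) : False := by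
  have oβ := h.Ec_od hb hβ hd o
  have b2 := h.sq β hβ.1; have d2 := h.sq d hd; have f2 := h.sq f hf; have r2 := h.sq r hr.1
  have τβ := τE β hβ
  obtain ⟨s, hs, sd, e, -⟩ := h.theta hd hβ.1 hf c oβ.symm rfl (by
    have := cj_comm b2 (x := β * d * β) (y := β * f * d * (β * f)) (by
      rwa [show β * (β * f * d * (β * f)) * β = f * d * f from tr[[β, f, d]; c & b2]])
    rwa [show β * (β * d * β) * β = d from tr[[β, d]; b2]] at this)
  have s2 := h.sq s hs
  have os : Od β s := h.od hβ.1 hs fun i => h.od_nc hβ.1 hd oβ (h.cj_comm_iff hβ.1 hd (by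
    rwa [show d * β * d = f by rw [← e]; exact tr[[d, s, β]; i & sd & s2]]))
  have U : ∀ w ∈ D, w * d = d * w → d * w * β * (d * w) = f → w = s := fun w hw i j => h.uniq hβ.1 hs hw os (by
    calc _ = d * (d * w * β * (d * w)) * d := tr[[d, w, β]; i & d2]
      _ = _ := by rw [j, ← e]; exact tr[[d, s, β]; sd & d2])
  obtain ⟨g, hg, eg⟩ : ∃ g ∈ D, τ s = d * g * d := ⟨_, h.cnj d hd _ (τD s hs), tr[[d, τ s]; d2]⟩
  have g2 := h.sq g hg
  have gβ : g * β = β * g := by
    have := congrArg τ sd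
    rw [map_mul, map_mul, eg, τd] at this
    exact wd[this & d2]
  have es : β * g * d * (β * g) = s := by
    have := congrArg τ e
    simp only [map_mul, eg, τd, τβ, τf] at this
    refine h.uniq hβ.1 hs (by
      rw [show β * g * d * (β * g) = β * (g * d * g) * β from tr[[β, g, d]; gβ]]; exact h.cnj β hβ.1 _ (h.cnj g hg d hd)) os ?_
    calc _ = d * (d * β * d * (d * g * d) * β * (d * β * d * (d * g * d))) * d := tr[[d, g, β]; gβ & d2 & b2 & g2]
      _ = _ := by rw [this, ← e]; exact tr[[d, s, β]; sd & d2]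
  have rβ := Ec_comm hr hβ
  have rf : r * f = f * r := ((hr.2 f hf).1 ((hβ.2 f hf).2 c.symm)).symm
  have e2 : τ (τ s) = r * s * r := by
    have i := congrArg (fun x => τ (τ x)) e
    have j := congrArg (fun x => τ (τ x)) sd
    simp only [map_mul, ττ, τβ, τf] at i j
    have sD := τD _ (τD s hs)
    generalize τ (τ s) = s' at *
    rw [← U _ (h.cnj r hr.1 s' sD) (cj_comm r2 j) (by
      calc _ = r * (r * d * r * s' * β * (r * d * r * s')) * r := tr[[d, s', β, r]; rβ & r2]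
        _ = _ := by rw [i]; exact tr[[r, f]; rf & r2])]
    exact tr[[r, s']; r2]
  have vD : ∀ x y, y ∈ Ec D x → d * s * y * (d * s) ∈ Ec D (d * s * x * (d * s)) := fun x y i => by
    simpa only [show ∀ x, d * (s * x * s) * d = d * s * x * (d * s) from fun x => tr[[d, s, x]; sd]] using h.Ecj hd (h.Ecj hs i)
  have τv : τ (d * s) = d * s * (β * g) := by rw [map_mul, τd, eg, ← es]; exact tr[[d, g, β]; gβ & d2 & b2 & g2]
  have ττv : τ (τ (d * s)) = r * (d * s) * r := by rw [map_mul, map_mul, ττ, e2]; exact tr[[d, s, r]; r2]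
  have av : ∀ a, a * β = β * a → a * d = d * a → a * g = g * a → a * (d * s) = d * s * a := fun a i j l => by
    rw [← es]; exact tr[[d, g, β, a]; i & j & l]
  have ne : β * g ≠ 1 := fun i => n (by
    rw [i, one_mul, mul_one] at es; rwa [← e, ← es, d2, one_mul, mul_one])
  have v2 : d * s * (d * s) = 1 := tr[[d, s]; sd & d2 & s2]
  generalize d * s = v at *
  have uv : v * (β * g) = β * g * v := by
    have i := congrArg τ v2
    have u2 : β * g * (β * g) = 1 := tr[[g, β]; gβ & b2 & g2]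
    rw [map_mul, τv, map_one] at i
    generalize β * g = u at *
    exact wd[i & u2 & v2]
  have gD := (vD g g (Ec_self hg)).1
  have e3 : f * (v * g * v) = β * g := by
    rw [← e, ← tt'' v2 (β * g), ← uv]; exact tr[[v, g, β]; v2]
  have gf := h.cen hf gD (fun i => ne (by rw [← e3, ← i, f2])) hg (by rw [e3]; exact tr[[g, β]; gβ])
  have τE' : ∀ y ∈ Ec D f, τ y = y := fun y hy => by
    have i := vD _ _ hy
    rw [← e, show v * (v * β * v) * v = β from tr[[v, β]; v2]] at i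
    have j := τE _ (Ec_trans hβ i)
    have l := (i.2 g hg).1 gβ; have l' := Ec_comm i (Ec_self hβ.1)
    rw [show y = v * (v * y * v) * v from tr[[v, y]; v2]]
    generalize v * y * v = y' at *
    rw [map_mul, map_mul, τv, j]; nth_rw 2 [uv]; exact tr[[v, y', g, β]; l & l' & gβ & b2 & g2]
  have hr' := vD _ _ (Ec_trans (Ec_symm hb hβ) hr)
  rw [e] at hr'
  have e4 : g * τ g = v * r * v * r := by
    rw [τv, map_mul, τv, map_mul, τβ] at ττv
    calc _ = v * (v * (β * g) * (β * τ g)) := tr[[v, τ g, g, β]; gβ & b2 & v2]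
      _ = _ := by rw [ττv]; exact tr[[v, r]; v2]
  have rr := Ec_cc hr' hr hf ((hβ.2 f hf).2 c.symm)
  have fb := (hβ.2 f hf).2 c.symm
  obtain ⟨c', hc', cb, oc⟩ := h.exN hb hf n
  obtain ⟨a, ha, ab, ad, oa⟩ := pl2 D h b hb f hf d hd c' hc' fb.symm cb oc o.symm (h.od hd hf fun i =>
    h.od_nc hd hβ.1 oβ.symm (h.cj_comm_iff hd hβ.1 (by
      rw [show f * d * f = d from tr[[d, f]; i & f2]] at k; exact k.symm)))
  have aβ := (hβ.2 a ha).1 ab; have ar := (hr.2 a ha).1 ab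
  obtain ⟨γ, hγ, j⟩ := h.q1 hf hg ha gf.symm oa (h.od ha hg fun i => h.od_nc ha hf oa (by
    have := av a aβ ad i; rw [← e]; exact tr[[v, a, β]; this & aβ]))
  have j' := congrArg τ j
  have γg := (hγ.2 g hg).1 gf
  have γg' := congrArg τ γg
  simp only [map_mul, τa a ha ab ad, τE' γ hγ] at j' γg'
  have g3 := h.sq _ (τD g hg); have r3 := h.sq _ hr'.1
  have hg' := τD g hg
  generalize τ g = g' at *
  generalize v * r * v = r' at *
  have gg : g * g' = g' * g := by
    have : g * g' * (g * g') = 1 := by rw [e4]; exact tr[[r, r']; rr & r2 & r3]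
    exact wd[this & g2 & g3]
  have := cj_comm g2 (x := g * a * g) (y := g * g' * a * (g * g')) (by
    rw [show g * (g * g' * a * (g * g')) * g = g' * a * g' from tr[[g, g', a]; gg & g2]]
    exact h.cl ha hγ.1 hg hg' γg.symm γg'.symm gg j.symm j'.symm)
  rw [show g * (g * a * g) * g = a from tr[[g, a]; g2], e4,
    show r' * r * a * (r' * r) = r' * a * r' from tr[[r, r', a]; rr & ar & r2]] at this
  exact h.od_nc ha hf oa ((hr'.2 a ha).2 (h.cj_comm_iff ha hr'.1 this))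
variable (hO : pCore 2 G = ⊥) (hZ : center G = ⊥) (hb : b ∈ D) (hd : d ∈ D) (o : Od b d)
include hO hZ hb hd o
theorem T1 (hy : y ∈ D) (yY : y ∈ closure (Ec D b ∪ {d})) (hy' : y' ∈ D) (yY' : y' ∈ closure (Ec D b ∪ {d}))
    (T : Tv D (closure (Ec D b ∪ {d})) (y * y')) : y = y' := by
  have y2 := h.sq y hy; have y3 := h.sq y' hy'
  have c : y * y' = y' * y := h.cm hy hy' fun o => o.1 (by
    have := T.2.1.eq_one' (piNat_two_compl.2 o.2); exact wd[this & y3])
  have dY : d ∈ closure (Ec D b ∪ {d}) := subset_closure (.inr rfl)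
  have i : ∀ n ∈ closure (Ec D b ∪ {d}), n * n = 1 → (∀ c ∈ D, n * c * n ∈ D) → n * y * n ∈ Ec D b → y = y' :=
    fun n nY n2 nD hn => by
    have h' := h.F hb hd o.symm (nD _ hy') (mul_mem (mul_mem nY yY') nY) ((hn.2 _ (nD _ hy')).2 tr[[n, y, y']; c & n2])
    have j := T.2.2 _ (nD d hd) (mul_mem (mul_mem nY dY) nY)
    rw [show (y * y')⁻¹ = y * y' by rw [mul_inv_rev, h.inv hy, h.inv hy', c]] at j
    have := h.K gen hO hZ hb hd o (mul_mem (subset_closure hn) (subset_closure h')) (by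
      calc _ = n * (n * d * n * (y * y' * (n * d * n) * (y * y'))) * n := tr[[n, y, y', d]; n2]
        _ = _ := by rw [← j]; exact tr[[n, y, y', d]; n2])
    exact wd[this & n2 & y3]
  by_cases c' : y * b = b * y
  · exact i 1 (one_mem _) (mul_one 1) (by simp) (by simpa using h.F hb hd o.symm hy yY c')
  · obtain ⟨n, hn, e, l⟩ := h.mid hy hb (h.od hy hb c').2
    exact i n ((closure_le _).2 (by rintro _ (rfl | rfl); exacts [yY, subset_closure (.inl (Ec_self hb))]) l) (h.sq n hn)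
      (h.cnj n hn) (e.symm ▸ Ec_self hb)
theorem T2 (T : Tv D (closure (Ec D b ∪ {d})) g) (hy : y ∈ closure (Ec D b ∪ {d})) : y * g = g * y := by
  have k := h.pk hb hd o le_rfl (Ec_self hb)
  obtain ⟨e, he, eb⟩ := h.p hb
  have := k.one he (subset_closure (.inl he)) eb le_rfl (Ec_self hb) k.dX k.xX le_rfl T
  refine cent_closure (fun c hc => ?_) hy
  have cD : c ∈ D := by rcases hc with hc | rfl; exacts [hc.1, hd]
  have cY := subset_closure hc
  exact (mul_inv_eq_iff_eq_mul.1 (h.T1 gen hO hZ hb hd o (nDc (k.nD T.1) cD) (cmem T.1 cY) cD cY (k.tv (mul_mem (cmem T.1 cY) cY)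
    (by rw [mfun_mul (cmem T.1 cY) cY, mfun_conj T.1 cY, this, one_mul, inv_one, mul_one, ← mfun_mul cY cY, h.sq c cD,
      mfun_one])))).symm
theorem sz1 (hc : IsConnectedSet (CommAdj D) D) (hβ : β ∈ Ec D b) (tY : t ∈ closure (Ec D b ∪ {d})) (t2 : PiElt {2} t)
    (e : d * β * d = t⁻¹ * d * t) (tβ : t * β * t⁻¹ = β) :
    ∃ f ∈ D, β * f = f * β ∧ f ∉ Ec D b ∧ β * d * β * (f * d * f) = f * d * f * (β * d * β) ∧ t * f * t⁻¹ = f := by
  obtain ⟨x, hx, xb, xn, ox⟩ := h.del gen hc hb hd o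
  obtain ⟨e', he, eb⟩ := h.p hb
  have oβ := h.Ec_od hb hβ hd o
  have b2 := h.sq β hβ.1; have d2 := h.sq d hd
  set W := closure (Ec D b ∪ Ec D x ∪ {d})
  have l1 : closure (Ec D b ∪ {d}) ≤ W := Subgroup.closure_mono (Set.union_subset_union_left _ Set.subset_union_left)
  have m1 : ∀ y ∈ Ec D b, y ∈ W := fun y hy => l1 (subset_closure (.inl hy))
  have m2 : ∀ y ∈ Ec D x, y ∈ W := fun y hy => subset_closure (.inl (.inr hy))
  have dW : d ∈ W := subset_closure (.inr rfl)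
  have E1 : ∀ y ∈ Ec D b, y ∈ Ec (D ∩ (W : Set G)) b := fun y hy => Ec_inter hy (m1 y hy)
  have cq : ∀ y ∈ D, y ∈ W → β * y = y * β → ∀ z ∈ D, z ∈ W → β * z = z * β → y * z = z * y := fun y hy yW i z hz zW j =>
    (h.inter W).fc ⟨hb, m1 b (Ec_self hb)⟩ ⟨hd, dW⟩ o.symm (E1 _ he) (E1 _ eb) ⟨hz, zW⟩ (Subgroup.closure_mono
      (Set.union_subset_union_left _ fun y hy => hy.elim (E1 y) fun hy => ⟨⟨hy.1, m2 y hy⟩, fun z hz =>
        (h.z2 hb hx hd xb.symm o.symm ox.symm he eb hz.1 hz.2).trans (hy.2 z hz.1)⟩) zW) ((hβ.2 z hz).2 j.symm) ⟨hy, yW⟩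
      ((hβ.2 y hy).2 i.symm)
  obtain ⟨f1, hf1, j1⟩ := h.q1 hβ.1 hd ((hβ.2 x hx).1 xb) ox.symm oβ.symm (hb := hx)
  have c1 : β * f1 = f1 * β := (hf1.2 β hβ.1).1 ((hβ.2 x hx).1 xb).symm
  obtain ⟨s, hs, sd, e1, -⟩ := (h.inter W).theta ⟨hd, dW⟩ ⟨hβ.1, m1 β hβ⟩ ⟨hf1.1, m2 _ hf1⟩ c1 oβ.symm rfl (by
    have := cj_comm b2 (x := β * d * β) (y := β * f1 * d * (β * f1)) (by
      rwa [show β * (β * f1 * d * (β * f1)) * β = f1 * d * f1 from tr[[β, f1, d]; c1 & b2]])
    rwa [show β * (β * d * β) * β = d from tr[[β, d]; b2]] at this)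
  have s2 := h.sq s hs.1
  have ns : d ≠ s := by
    rintro rfl; rw [d2, one_mul, mul_one] at e1
    exact xn (Ec_trans hβ (e1 ▸ Ec_symm hx hf1))
  have nd : ∀ f ∈ D, β * d * β * (f * d * f) = f * d * f * (β * d * β) → f * d ≠ d * f := fun f hf k i => by
    have := h.sq f hf
    rw [show f * d * f = d from tr[[d, f]; i & this]] at k
    exact h.od_nc hd hβ.1 oβ.symm (h.cj_comm_iff hd hβ.1 k.symm)
  refine (fix_two (S := {f | f ∈ D ∧ f ∈ W ∧ β * f = f * β ∧ β * d * β * (f * d * f) = f * d * f * (β * d * β)})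
    (v := d * s) (β := β) t2 (fun f ⟨hf, fW, c, k⟩ => ?_) tr[[d, s]; sd & d2 & s2] (fun f ⟨hf, fW, c, k⟩ => ?_)
    ⟨hβ.1, m1 β hβ, rfl, rfl⟩ tβ).elim fun f ⟨hf, n, k⟩ => ⟨f, hf.1, hf.2.2.1, fun m => n ?_, hf.2.2.2, k⟩
  rotate_left 2
  · have f2 := h.sq f hf.1; have c := hf.2.2.1
    have := h.K gen hO hZ hb hd o (mul_mem (subset_closure hβ) (subset_closure m)) (by
      calc _ = β * (β * d * β * (f * d * f)) * β := tr[[β, f, d]; c & b2]
        _ = _ := by rw [hf.2.2.2]; exact tr[[β, f, d]; c & b2])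
    exact wd[this & b2]
  · have f2 := h.sq f hf
    have := h.tau' hβ.1 hd hf c.symm (by
      calc _ = β * (f * d * f * (β * d * β)) * β := tr[[β, f, d]; c & b2]
        _ = _ := by rw [← k]; exact tr[[β, f, d]; c & b2]) rfl
    replace : β * (d * β * d) * β * (f * (d * β * d) * f) = f * (d * β * d) * f * (β * (d * β * d) * β) := by
      calc _ = β * (d * β * d * (β * f * d * (β * f) * β * (β * f * d * (β * f)))) * β := tr[[β, f, d]; c & b2 & f2]
        _ = _ := by rw [this]; exact tr[[β, f, d]; c & b2 & f2]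
    refine ⟨h.conj_mem (gen.ge (mem_top t)) f hf, cmem (l1 tY) fW, by rw [← tβ]; simp only [conj_mul, c], ?_⟩
    have e' : t * (d * β * d) * t⁻¹ = d := by rw [e]; group
    generalize d * β * d = a at *
    rw [← e', ← tβ]; simp only [conj_mul, this]
  · have cf := cq f hf fW c f1 hf1.1 (m2 _ hf1) c1
    have sW := hs.2
    refine ⟨⟨?_, by repeat' first | assumption | apply mul_mem, ?_, ?_⟩, fun i => nd f hf k (h.cen hd hs.1 ns hf ?_)⟩
    · rw [show d * s * f * (d * s) = d * (s * f * s) * d from tr[[d, s, f]; sd]]; exact h.cnj d hd _ (h.cnj s hs.1 f hf)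
    · calc _ = d * s * (d * s * β * (d * s) * f) * (d * s) := tr[[d, s, β, f]; sd & d2 & s2]
        _ = _ := by rw [e1, ← cf, ← e1]; exact tr[[d, s, β, f]; sd & d2 & s2]
    · have := h.cl hd hβ.1 hf1.1 hf c1 c cf.symm j1 k
      calc _ = d * s * (d * s * β * (d * s) * d * (d * s * β * (d * s)) * (f * d * f)) * (d * s) :=
            tr[[d, s, β, f]; sd & d2 & s2]
        _ = _ := by rw [e1, this, ← e1]; exact tr[[d, s, β, f]; sd & d2 & s2]
    · calc _ = d * s * f * (d * s) * (d * s) := by rw [i]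
        _ = _ := tr[[d, s, f]; sd & d2 & s2]
theorem l2 (hc : IsConnectedSet (CommAdj D) D) : ∃ (F : Type) (_ : Field F) (_ : Fintype F),
    Fintype.card F = Nat.card (closure (Ec D b)) ∧
    Nonempty (closure (Ec D b ∪ {d}) ≃* Matrix.ProjectiveSpecialLinearGroup (Fin 2) F) := by
  have k := h.pk hb hd o le_rfl (Ec_self hb)
  obtain ⟨β, t, ⟨hβ, tY, t2, T, T'⟩, L⟩ := h.se hb hd o
  have T2 := fun g y => h.T2 gen hO hZ hb hd o (g := g) (y := y)
  have T1 := fun y y' => h.T1 gen hO hZ hb hd o (y := y) (y' := y')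
  set Y := closure (Ec D b ∪ {d})
  have m : ∀ y ∈ Ec D b, y ∈ Y := fun y hy => subset_closure (.inl hy)
  have dY := k.xX
  obtain ⟨oi, F, _, _, cF, ⟨f⟩⟩ | ⟨r, hr, L⟩ := L
  · have l : closure (Ec D b) ≤ Y := Subgroup.closure_mono Set.subset_union_left
    have z : ∀ z ∈ pCore 2 Y, ∀ g : Y, g * z = z * g := fun z hz g => Subtype.ext (T2 _ _ (k.tv z.2 (by
      rwa [mfun_coe, QuotientGroup.mk'_apply, QuotientGroup.eq_one_iff])) g.2)
    have pf : commutator Y = ⊤ := by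
      obtain ⟨e, he, eb⟩ := h.p hb
      have i : ∀ y (hy : y ∈ Ec D b), Abelianization.of (⟨y, m y hy⟩ : Y) = Abelianization.of ⟨d, dY⟩ := fun y hy => by
        obtain ⟨w, hw, e, l⟩ := h.mid hy.1 hd (h.Ec_od hb hy hd o).2
        have wY : w ∈ Y := (closure_le _).2 (by rintro _ (rfl | rfl); exacts [m _ hy, dY]) l
        rw [show (⟨d, dY⟩ : Y) = ⟨w, wY⟩ * ⟨y, m y hy⟩ * ⟨w, wY⟩⁻¹ from Subtype.ext (by simp [h.inv hw, e]),
          map_mul, map_mul, map_inv, mul_inv_cancel_comm]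
      have j : Abelianization.of (⟨d, dY⟩ : Y) = 1 := by
        have := i _ eb
        rwa [show (⟨e * b, m _ eb⟩ : Y) = ⟨e, m e he⟩ * ⟨b, k.dX⟩ from rfl, map_mul, i e he, i b (Ec_self hb),
          mul_eq_left] at this
      rw [← Abelianization.ker_of, eq_top_iff, ← closure_closure_coe_preimage, closure_le]
      rintro ⟨y, yY⟩ (hy | hy)
      exacts [(i y hy).trans j, (congrArg _ (Subtype.ext (show y = d from hy))).trans j]
    have hb' : pCore 2 Y = ⊥ := eq_bot_iff.2 fun x hx => by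
      have := cent_transfer (P := (mim (QuotientGroup.mk' (pCore 2 Y)) (closure (Ec D b))).comap (QuotientGroup.mk' _))
        (by
          have : ∀ x ∈ (mim (QuotientGroup.mk' (pCore 2 Y)) (closure (Ec D b))).comap (QuotientGroup.mk' _),
              ∃ u : Y, u.1 ∈ closure (Ec D b) ∧ ∃ z ∈ pCore 2 Y, x = u * z := fun x hx => by
            obtain ⟨u, hu, uY, e⟩ := mem_mim.1 hx
            exact ⟨⟨u, uY⟩, hu, _, QuotientGroup.eq.1 ((mfun_of_mem uY).symm.trans e), by simp⟩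
          intro x hx y hy
          obtain ⟨u, hu, z1, h1, rfl⟩ := this x hx
          obtain ⟨u', hu', z2, h2, rfl⟩ := this y hy
          have c : u * u' = u' * u := Subtype.ext (abel_closure (fun _ i _ j => Ec_comm i j) hu _ hu').symm
          exact (Commute.mul_left (Commute.mul_right c (z _ h2 u)) (Commute.symm (z _ h1 _))).eq) pf (z x hx)
      rw [index_comap_of_surjective _ (QuotientGroup.mk'_surjective _)] at this
      rw [pCore_eq Nat.prime_two] at hx
      exact (pcore_pi.elt hx).eq_one' (piNat_two_compl.2 (oi.of_dvd_nat (orderOf_dvd_of_pow_eq_one this)))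
    have inj : Function.Injective (QuotientGroup.mk' (pCore 2 Y)) := by
      rw [← MonoidHom.ker_eq_bot_iff, QuotientGroup.ker_mk', hb']
    exact ⟨F, _, _, by rw [cF, mim, card_map_of_injective inj, Nat.card_congr (subgroupOfEquivOfLe l).toEquiv],
      ⟨(MulEquiv.ofBijective _ ⟨inj, QuotientGroup.mk'_surjective _⟩).trans f⟩⟩
  · have nD := k.nD tY
    have e := T1 _ _ (h.cnj d hd β hβ.1) (mul_mem (mul_mem dY (m β hβ)) dY) (nDc' nD hd) (mul_mem (mul_mem (inv_mem tY) dY) tY)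
      (h.inv (nDc' nD hd) ▸ T)
    have tE : ∀ y ∈ Ec D b, t * y * t⁻¹ = y := fun y hy =>
      T1 _ _ (nDc nD hy.1) (cmem tY (m y hy)) hy.1 (m y hy) (by simpa only [h.inv hy.1] using T' y hy)
    obtain ⟨f, hf, c, n, j, tf⟩ := h.sz1 gen hO hZ hb hd o hc hβ tY t2 e (tE β hβ)
    have i : ∀ y, t * y * t⁻¹ = y → MulAut.conj t⁻¹ y = y := fun y e => by
      conv_lhs => rw [← e]
      simp [mul_assoc]
    refine (h.sz2 (MulAut.conj t⁻¹) hb hd o hβ hr hf c n j (fun y hy => by simpa using nDc' nD hy) (fun y hy => i y (tE y hy))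
      (by simp [e]) (i f tf) ?_ fun a ha ab ad => i a (by rw [h.cen_Y hb ha ab ad tY]; simp)).elim
    have i1 := T2 _ _ L dY; have i2 := T2 _ _ L (m r hr)
    have r2 := h.sq r hr.1
    rw [h.inv hr.1] at i1 i2
    calc _ = (r * (t * t))⁻¹ * (r * d * r) * (r * (t * t)) := by simp [mul_assoc, h.inv hr.1, tt' r2]
      _ = _ := by rw [mul_assoc, (Commute.mul_left (Commute.mul_left i2 i1) i2).eq, inv_mul_cancel_left]
end OC
end H13
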