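import Cfsg.Agent.H9.SE
import Cfsg.Agent.H9.SylowBasic
import Cfsg.Prelude.Def_RootSubgroups
/-! Root involutions, basics. `RI D`: involutions closed under conjugation by members, any two commute, have odd
product (`Od`), or `abab ∈ D` (`Fo`). Lemmas `L0`, `L1`, `string`, `L4`, `L5`, `opp`, `two_closure` (Baer-Suzuki). -/
set_option autoImplicit false
set_option linter.unusedSectionVars false
open Cfsg H18 Subgroup H9
open H5 (exists_sqrt eq_of_sq_eq inverts_pow eq_one_of_odd odd_order_of_mem piNat_two_compl)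

namespace H13
variable {G : Type*} [Group G] {D : Set G} {a b c d e e' f g p q r s t u v w x y z : G} {M : Subgroup G}

set_option quotPrecheck false in
/-- word identities by completion -/
scoped notation "wd" => (by grind -ring -linarith -lia (acSteps := 20000))

scoped infixr:35 " & " => And.intro
set_option quotPrecheck false in
/-- word identities by completion, from the listed equations only -/
scoped notation "wd[" h "]" => (by have hh := h; clear * - hh; grind -ring -linarith -lia (acSteps := 20000))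

structure RI (D : Set G) : Prop where
  sq : ∀ d ∈ D, d * d = 1
  ne : ∀ d ∈ D, d ≠ 1
  cnj : ∀ d ∈ D, ∀ e ∈ D, d * e * d ∈ D
  pair : ∀ a ∈ D, ∀ b ∈ D, a * b = b * a ∨ Odd (orderOf (a * b)) ∨ a * b * a * b ∈ D

def Od (a b : G) : Prop := a ≠ b ∧ Odd (orderOf (a * b))
abbrev Fo (D : Set G) (a b : G) : Prop := a * b * a * b ∈ D

theorem ri_of (h : IsRootInvolutionSet D) : RI D :=
  have sq : ∀ d ∈ D, d * d = 1 := fun d hd => mul_self_of_orderOf (h.orderOf_eq d hd)
  ⟨sq, fun d hd => ne_one_of_orderOf (h.orderOf_eq d hd),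
    fun d hd e he => by simpa [inv_eq_of_mul_self (sq d hd)] using h.conj_mem e he d,
    fun a ha b hb => (h.pair a ha b hb).imp_right (Or.imp_right fun k => by
      have := k.2; rwa [pow_two, ← mul_assoc] at this)⟩

theorem odd_sq (h : Odd (orderOf w)) : Odd (orderOf (w * w)) :=
  Odd.of_dvd_nat h (pow_two w ▸ orderOf_pow_dvd 2)
theorem odd_four (h : Odd (orderOf w)) (e : w * w * (w * w) = 1) : w = 1 :=
  eq_one_of_odd h (eq_one_of_odd (odd_sq h) e)
theorem comm_of_sq (h : Odd (orderOf w)) (e : z * (w * w) = w * w * z) : z * w = w * z := by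
  obtain ⟨n, k⟩ := exists_sqrt h
  rw [← (Commute.refl w).mul_pow] at k
  exact k ▸ (Commute.pow_right (show Commute z (w * w) from e) n).eq
theorem odd_comm (h : Odd (orderOf (a * b))) : Odd (orderOf (b * a)) := by
  rwa [show b * a = a⁻¹ * (a * b) * a by group, orderOf_conj'']
theorem Od.symm (h : Od a b) : Od b a := ⟨h.1.symm, odd_comm h.2⟩
theorem Od.conj (h : Od a b) (g : G) : Od (g * a * g⁻¹) (g * b * g⁻¹) :=
  ⟨fun e => h.1 (by simpa using e), by
    rw [show g * a * g⁻¹ * (g * b * g⁻¹) = g * (a * b) * g⁻¹ by group, orderOf_conj']; exact h.2⟩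
theorem od_conj : Od (g * a * g⁻¹) (g * b * g⁻¹) ↔ Od a b :=
  ⟨fun h => by simpa [mul_assoc] using h.conj g⁻¹, fun h => h.conj g⟩
theorem Od.cj (h : Od a b) (g2 : g * g = 1) : Od (g * a * g) (g * b * g) := by
  simpa [inv_eq_of_mul_self g2] using h.conj g
theorem od_irrefl : ¬ Od a a := fun h => h.1 rfl
/-- the 2-part of `r * w` -/
theorem two_part (r2 : r * r = 1) (c : r * w = w * r) (ho : Odd (orderOf w)) (h : Odd (orderOf (r * w))) : r = 1 :=
  eq_one_of_odd (piNat_two_compl.1 (PiElt.of_mem_zpowers (piNat_two_compl.2 h) (by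
    obtain ⟨k, hk⟩ := ho
    refine ⟨(orderOf w : ℤ), ?_⟩
    simp only [zpow_natCast, (show Commute r w from c).mul_pow, pow_orderOf_eq_one, mul_one]
    rw [hk, pow_succ, pow_mul, pow_two, r2, one_pow, one_mul]))) r2

namespace RI
variable (h : RI D)
include h
theorem inter (M : Subgroup G) : RI (D ∩ (M : Set G)) :=
  ⟨fun d hd => h.sq d hd.1, fun d hd => h.ne d hd.1, fun d hd e he => ⟨h.cnj d hd.1 e he.1,
    mul_mem (mul_mem hd.2 he.2) hd.2⟩, fun a ha b hb => (h.pair a ha.1 b hb.1).imp_right (Or.imp_right fun k =>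
    ⟨k, mul_mem (mul_mem (mul_mem ha.2 hb.2) ha.2) hb.2⟩)⟩
theorem inv (hd : d ∈ D) : d⁻¹ = d := inv_eq_of_mul_self (h.sq d hd)
theorem conj_mem' {T : Set G} (hT : T ⊆ D) (cn : ∀ d ∈ T, ∀ e ∈ T, d * e * d ∈ T) (hg : g ∈ closure T) :
    ∀ d ∈ T, g * d * g⁻¹ ∈ T := by
  induction hg using closure_induction'' with
  | mem x hx => exact fun d hd => (h.inv (hT hx)).symm ▸ cn x hx d hd
  | inv_mem x hx => exact fun d hd => by simpa [h.inv (hT hx)] using cn x hx d hd
  | one => simp
  | mul x y _ _ hx hy => exact fun d hd => by simpa [mul_assoc] using hx _ (hy d hd)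
theorem conj_mem (hg : g ∈ closure D) : ∀ d ∈ D, g * d * g⁻¹ ∈ D := h.conj_mem' subset_rfl h.cnj hg
theorem mem_nD (hg : g ∈ closure D) : g ∈ normalizer D := fun e =>
  ⟨h.conj_mem hg e, fun he => by simpa [mul_assoc] using h.conj_mem (inv_mem hg) _ he⟩
/-- members with product in `D` commute -/
theorem comm (ha : a ∈ D) (hb : b ∈ D) (hab : a * b ∈ D) : a * b = b * a := by
  have := h.sq a ha; have := h.sq b hb; have := h.sq _ hab; exact wd
theorem ne_of_mul (ha : a ∈ D) (hab : a * b ∈ D) : a ≠ b := fun e => h.ne _ hab (e ▸ h.sq a ha)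
theorem mul_symm (ha : a ∈ D) (hb : b ∈ D) (hab : a * b ∈ D) : b * a ∈ D := h.comm ha hb hab ▸ hab
theorem od_nc (ha : a ∈ D) (hb : b ∈ D) (o : Od a b) : a * b ≠ b * a := fun c => by
  have := h.sq a ha; have := h.sq b hb
  have : a * b = 1 := eq_one_of_odd o.2 wd
  exact o.1 wd
theorem br_symm (ha : a ∈ D) (hb : b ∈ D) (k : Fo D a b) : a * b * a * b = b * a * b * a := by
  have := h.sq a ha; have := h.sq b hb; have := h.sq _ k; exact wd
theorem fo_symm (ha : a ∈ D) (hb : b ∈ D) (k : Fo D a b) : Fo D b a := by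
  unfold Fo; rw [← h.br_symm ha hb k]; exact k
theorem fo_nc (ha : a ∈ D) (hb : b ∈ D) (k : Fo D a b) : a * b ≠ b * a := fun c => by
  have := h.sq a ha; have := h.sq b hb
  exact h.ne _ k wd
theorem fo_nod (ha : a ∈ D) (hb : b ∈ D) (k : Fo D a b) : ¬ Od a b := fun o => by
  have := h.sq a ha; have := h.sq b hb; have := h.sq _ k
  have : a * b = 1 := odd_four o.2 wd
  exact o.1 wd
theorem tri (ha : a ∈ D) (hb : b ∈ D) : a * b = b * a ∨ Od a b ∨ Fo D a b := by
  by_cases e : a = b
  · exact .inl (by rw [e])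
  · exact (h.pair a ha b hb).imp_right (Or.imp_left fun o => ⟨e, o⟩)
theorem fo_of (ha : a ∈ D) (hb : b ∈ D) (c : a * b ≠ b * a) (o : ¬ Od a b) : Fo D a b :=
  ((h.tri ha hb).resolve_left c).resolve_left o
theorem od_of (ha : a ∈ D) (hb : b ∈ D) (c : a * b ≠ b * a) (o : ¬ Fo D a b) : Od a b :=
  ((h.tri ha hb).resolve_left c).resolve_right o
theorem comm_of (ha : a ∈ D) (hb : b ∈ D) (c : ¬ Od a b) (o : ¬ Fo D a b) : a * b = b * a :=
  (h.tri ha hb).resolve_right (not_or.2 ⟨c, o⟩)
theorem fo_iff (ha : a ∈ D) (hb : b ∈ D) : Fo D a b ↔ orderOf (a * b) = 4 := by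
  have := h.sq a ha; have := h.sq b hb
  refine ⟨fun k => ?_, fun k => h.fo_of ha hb (fun c => ?_) fun o => absurd (k ▸ o.2) (by decide)⟩
  · have := h.sq _ k
    refine orderOf_eq_prime_pow (p := 2) (n := 1) (fun e => h.ne _ k ?_) ?_
    · rw [← e, pow_one, pow_two, mul_assoc]
    · rw [show 2 ^ (1 + 1) = 2 + 2 by rfl, pow_add, pow_two]; exact wd
  · have := orderOf_dvd_of_pow_eq_one (show (a * b) ^ 2 = 1 by rw [pow_two]; exact wd)
    rw [k] at this; omega
/-- an element centralizing `a` and `b a b` centralizes `b` -/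
theorem comm_of_od (ha : a ∈ D) (o : Od a b) (h1 : z * a = a * z) (h2 : z * (b * a * b) = b * a * b * z) :
    z * b = b * z := by
  have := h.sq a ha
  have := comm_of_sq (z := z) o.2 wd
  exact wd
theorem refl_mem (hd : d ∈ D) (he : e ∈ D) (n : ℕ) : d * (d * e) ^ n ∈ D := by
  induction n using Nat.strong_induction_on with | _ n ih =>
  match n with
  | 0 => simpa using hd
  | 1 => simpa [tt' (h.sq d hd)] using he
  | n + 2 =>
    have := h.cnj e he _ (h.cnj d hd _ (ih n (by omega)))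
    have c : (d * e) ^ n * (d * e) = d * e * (d * e) ^ n := (Commute.refl _).pow_left n
    have := h.sq d hd
    rwa [show e * (d * (d * (d * e) ^ n) * d) * e = d * (d * e) ^ (n + 2) by rw [pow_succ, pow_succ']; exact wd] at *
theorem mid (hd : d ∈ D) (he : e ∈ D) (ho : Odd (orderOf (d * e))) :
    ∃ w ∈ D, w * d * w = e ∧ w ∈ closure {d, e} := by
  obtain ⟨n, e'⟩ := exists_sqrt ho
  have k1 : d ∈ closure {d, e} := subset_closure (by simp)
  have k2 : e ∈ closure {d, e} := subset_closure (by simp)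
  exact ⟨_, h.refl_mem hd he n, by rw [mul_assoc, tt' (h.sq d hd), mul_assoc, e', tt' (h.sq d hd)],
    mul_mem k1 (pow_mem (mul_mem k1 k2) n)⟩
theorem L0 (hx : x ∈ D) (hy : y ∈ D) (e : x * y = r * w) (r2 : r * r = 1) (c : r * w = w * r)
    (ho : Odd (orderOf w)) : r = 1 ∨ w = 1 := by
  have := h.sq x hx; have := h.sq y hy
  rcases h.pair x hx y hy with k | k | k
  · exact .inr (eq_one_of_odd ho wd)
  · exact .inl (two_part r2 c ho (e ▸ k))
  · have := h.sq _ k
    have i : r * w * (r * w) * (r * w * (r * w)) = 1 := by rw [← e]; simpa only [mul_assoc] using this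
    exact .inr (odd_four ho (by clear * - i r2 c; exact wd))
theorem L1 (ha : a ∈ D) (hx : x ∈ D) (o : Od a x) (za : z * a = a * z) (zx : z * x = x * z) (k : z * a ∈ D) :
    z = 1 := by
  have := h.sq a ha; have := h.sq x hx; have := h.sq _ k
  refine (h.L0 k hx (mul_assoc z a x) wd wd o.2).resolve_right fun e => o.1 wd
/-- `e ∈ X_a`, `x ∈ A_a`: `e` and `x` do not commute -/
theorem X_nc (ha : a ∈ D) (hx : x ∈ D) (he : e ∈ D) (o : Od a x) (k : e * a ∈ D) : e * x ≠ x * e := fun c =>
  h.ne e he (h.L1 ha hx o (h.comm he ha k) c k)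
theorem X_fo (ha : a ∈ D) (hx : x ∈ D) (he : e ∈ D) (o : Od a x) (k : e * a ∈ D) (n : ¬ Od e x) : Fo D e x :=
  h.fo_of he hx (h.X_nc ha hx he o k) n
theorem nod_four (ha : a ∈ D) (hb : b ∈ D) (o : ¬ Od a b) : a * b * (a * b) * (a * b * (a * b)) = 1 := by
  have := h.sq a ha; have := h.sq b hb
  rcases h.tri ha hb with k | k | k
  · exact wd
  · exact absurd k o
  · have := h.sq _ k; exact wd
theorem string (ha : a ∈ D) (hb : b ∈ D) (hc : c ∈ D) (k1 : Fo D a b) (k2 : Fo D c b) (ac : a * c = c * a) :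
    ¬ Od (a * c) b := fun o => by
  have a2 := h.sq a ha; have b2 := h.sq b hb; have c2 := h.sq c hc
  have e1 := h.br_symm ha hb k1; have e2 := h.br_symm hc hb k2
  have hc' := h.cnj b hb c hc; have ha' := h.cnj b hb a ha
  have n : ¬ Od (b * c * b) a := fun o => h.ne c hc (h.L1 hc' ha o wd ac.symm wd)
  have n' : ¬ Od c (b * a * b) := fun o => n (by simpa [mul_assoc, tt' b2, b2] using o.cj b2)
  have f1 := h.nod_four ha hc' fun o => n o.symm
  have f2 := h.nod_four hc ha' n'
  have i1 : a * (b * a * b) = b * a * b * a := by simpa only [mul_assoc] using e1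
  have i2 : c * (b * c * b) = b * c * b * c := by simpa only [mul_assoc] using e2
  have i3 : b * a * b * (b * c * b) = b * c * b * (b * a * b) := by clear * - b2 ac; exact wd
  have k : a * c * b * (a * c * b) = a * (b * c * b) * (c * (b * a * b)) := by clear * - b2 i2 i3; exact wd
  have cm : Commute (a * (b * c * b)) (c * (b * a * b)) :=
    (Commute.mul_right ac i1).mul_left (Commute.mul_right i2.symm i3.symm)
  generalize a * (b * c * b) = X at *
  generalize c * (b * a * b) = Y at *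
  have : a * c * b = 1 := eq_one_of_odd o.2 (odd_four (odd_sq o.2) (by have i := cm.eq; rw [k]; clear * - i f1 f2; exact wd))
  exact o.1 (by clear * - this b2; exact wd)
/-- `e ∈ X_a ∩ V_x`, `x ∈ A_a`: then `e a ∈ A_x` -/
theorem X_od (ha : a ∈ D) (hx : x ∈ D) (he : e ∈ D) (o : Od a x) (k : e * a ∈ D) (f : Fo D e x) : Od (e * a) x := by
  have := h.sq a ha; have := h.sq e he; have := h.comm he ha k
  refine h.od_of k hx (h.X_nc ha hx k o (by rwa [tt'' (h.sq a ha)])) fun f' => h.string he hx k f f' wd ?_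
  rwa [tt' (h.sq e he)]
theorem L4 (ha : a ∈ D) (hb : b ∈ D) (he : e ∈ D) (o : Od a b) (c : e * a = a * e) (f : Fo D e b) :
    Fo D (e * b * e * b) a := by
  have a2 := h.sq a ha; have b2 := h.sq b hb; have e2 := h.sq e he; have s := h.br_symm he hb f
  refine h.fo_of f ha (fun c' => h.fo_nc he hb f (h.comm_of_od ha o c ?_)) fun o' =>
    h.ne e he (h.L1 f ha o' wd c ?_)
  · have : a * (b * e * b) = b * e * b * a := wd
    exact wd
  · rw [show e * (e * b * e * b) = b * e * b from wd]; exact h.cnj b hb e he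
theorem L5inj (ha : a ∈ D) (hx : x ∈ D) (o : Od a x) (he : e ∈ D) (k : e * a ∈ D) (f : Fo D e x)
    (he' : e' ∈ D) (k' : e' * a ∈ D) (q : e * x * e * x = e' * x * e' * x) : e = e' := by
  have a2 := h.sq a ha; have x2 := h.sq x hx; have e2 := h.sq e he; have e2' := h.sq e' he'
  have c := h.comm he ha k; have c' := h.comm he' ha k'
  have o' := h.X_od ha hx he o k f
  have zx : e' * e * x = x * (e' * e) := wd[q & x2 & e2 & e2']
  rcases h.tri he' he with n | n | n
  · have := h.L1 (z := e' * e) k hx o' wd[c & c' & n] zx (by rw [show e' * e * (e * a) = e' * a from wd[e2]]; exact k')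
    exact wd[this & e2']
  · exact absurd (h.L1 he' he n c'.symm c.symm (c' ▸ k')) (h.ne a ha)
  · have s := h.br_symm he' he n
    refine absurd (h.L1 k hx o' wd[s & c & c'] wd[zx] ?_) (h.ne _ n)
    rw [show e' * e * e' * e * (e * a) = e' * (e * a) * e' from wd[e2 & c']]; exact h.cnj _ he' _ k
theorem br_mul (he : e ∈ D) (hx : x ∈ D) : e * x * e * x * x ∈ D := by
  rw [tt'' (h.sq x hx)]; exact h.cnj e he x hx
theorem L5 [Finite G] (ha : a ∈ D) (hx : x ∈ D) (o : Od a x) (hb : b ∈ D) (k : b * a ∈ D) (f : Fo D b x) :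
    ∃ f ∈ D, f * x ∈ D ∧ Fo D f a ∧ f * a * f * a = b := by
  let S : G → G → Set G := fun a x => {e | e ∈ D ∧ e * a ∈ D ∧ Fo D e x}
  have m : ∀ {a x}, a ∈ D → x ∈ D → Od a x → Set.MapsTo (fun e => e * x * e * x) (S a x) (S x a) :=
    fun ha hx o e he => ⟨he.2.2, h.br_mul he.1 hx, h.L4 ha hx he.1 o (h.comm he.1 ha he.2.1) he.2.2⟩
  have i : ∀ {a x}, a ∈ D → x ∈ D → Od a x → Set.InjOn (fun e => e * x * e * x) (S a x) :=
    fun ha hx o e he e' he' q => h.L5inj ha hx o he.1 he.2.1 he.2.2 he'.1 he'.2.1 q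
  obtain ⟨e, he, q⟩ := (((Set.toFinite (S a x)).injOn_iff_bijOn_of_mapsTo ((m hx ha o.symm).comp (m ha hx o))).1
    ((i hx ha o.symm).comp (i ha hx o) (m ha hx o))).surjOn ⟨hb, k, f⟩
  obtain ⟨h1, h2, h3⟩ := m ha hx o he
  exact ⟨_, h1, h2, h3, q⟩
theorem opp (hp : p ∈ D) (hq : q ∈ D) (hd : d ∈ D) (hr : r ∈ D) (er : p * q * p * q = r) (e : r * d * r * d = p) :
    Od q d ∧ orderOf (q * d) = 3 := by
  have p2 := h.sq p hp; have q2 := h.sq q hq; have d2 := h.sq d hd; have r2 := h.sq r hr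
  have f : Fo D p q := by unfold Fo; rwa [er]
  have s := h.br_symm hp hq f
  have s' := h.br_symm hr hd (by unfold Fo; rwa [e])
  have pr : p * r = r * p := wd
  have qr : q * r = r * q := wd
  have pd : p * d = d * p := wd
  have dr : d * r = r * p * d := wd
  have qp : q * p = r * p * q := wd
  have o : Od q d := h.od_of hq hd (fun c => h.fo_nc hp hq f wd) fun f' => h.fo_nc hp hq f (by
    have s'' := h.br_symm hq hd f'
    have i1 : Commute (d * q * d) q := by unfold Commute SemiconjBy; exact wd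
    have i2 : Commute (d * q * d) (r * p) := by unfold Commute SemiconjBy; exact wd
    have i3 := (i1.mul_right i2).mul_right (i1.mul_right i2)
    rw [show q * (r * p) * (q * (r * p)) = r from wd] at i3
    have := (i3.mul_right i2).eq
    exact wd)
  have w1 : q * d * q * d * q * d * r = r * (q * d * q * d * q * d) := wd
  have ho : Odd (orderOf (q * d * q * d * q * d)) := Odd.of_dvd_nat o.2 (by
    rw [show q * d * q * d * q * d = (q * d) ^ 3 by simp [pow_succ, mul_assoc]]; exact orderOf_pow_dvd 3)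
  have k := (h.L0 (x := p * q * p) (y := d * (q * d * q) * d) (h.cnj p hp q hq) (h.cnj d hd _ (h.cnj q hq d hd))
    wd r2 w1.symm ho).resolve_left (h.ne r hr)
  haveI : Fact (Nat.Prime 3) := ⟨Nat.prime_three⟩
  exact ⟨o, orderOf_eq_prime (by simpa [pow_succ, mul_assoc] using k) fun e => o.1 wd[e & d2]⟩
/-- Baer-Suzuki -/
theorem two_closure [Finite G] {T : Set G} (hT : T ⊆ D) (cn : ∀ d ∈ T, ∀ e ∈ T, d * e * d ∈ T)
    (n : ∀ a ∈ T, ∀ b ∈ T, ¬ Od a b) : PiGrp {2} (closure T) := by
  haveI : Fact (Nat.Prime 2) := ⟨Nat.prime_two⟩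
  have := isPGroup_closure_of_pairs (G := closure T) (p := 2) (K := Subtype.val ⁻¹' T)
    (fun g x hx => h.conj_mem' hT cn g.2 _ hx) fun x hx y hy => isPGroup_closure_pair (k := 2)
      (Subtype.ext (h.sq _ (hT hx))) (Subtype.ext (h.sq _ (hT hy))) (Subtype.ext (by
        simpa [pow_succ, mul_assoc] using h.nod_four (hT hx) (hT hy) (n _ hx _ hy)))
  rw [closure_closure_coe_preimage] at this
  exact piGrp_of_isPGroup Nat.prime_two (this.of_equiv topEquiv)
omit h in
theorem nod_of_two (hM : PiGrp {2} M) (a2 : a * a = 1) (ha : a ∈ M) (hb : b ∈ M) : ¬ Od a b := fun o => by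
  have := (hM.elt (mul_mem ha hb)).eq_one' (piNat_two_compl.2 o.2)
  exact o.1 wd
end RI
end H13
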