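import Cfsg.Agent.H13.RI1
import Cfsg.Prelude.Def_QuasithinSetup
/-! Root involutions: classes with odd pairs (`RC`): `NA`, `L6`, `Tcomm`, `C_of_A`; invariance of odd components
(`comp_inv`), normal subgroups missing `D` (`nml_le`), `simple_quo`. -/
set_option autoImplicit false
set_option linter.unusedSectionVars false
open Cfsg H18 Subgroup H9 Relation
open H5 (exists_sqrt eq_of_sq_eq inverts_pow eq_one_of_odd odd_order_of_mem piNat_two_compl)
open scoped commutatorElement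

namespace H13
variable {G : Type*} [Group G] {D : Set G} {a b c d e e' f g n p q r s t u v w x y z : G} {M N : Subgroup G}

theorem nDc (hg : g ∈ normalizer D) (hd : d ∈ D) : g * d * g⁻¹ ∈ D := (hg d).1 hd
theorem nDc' (hg : g ∈ normalizer D) (hd : d ∈ D) : g⁻¹ * d * g ∈ D := by simpa using nDc (inv_mem hg) hd
theorem od_conj' : Od (g * a * g⁻¹) b ↔ Od a (g⁻¹ * b * g) := by
  rw [← od_conj (g := g) (b := g⁻¹ * b * g)]; simp [mul_assoc]
theorem od_cj (g2 : g * g = 1) : Od (g * a * g) b ↔ Od a (g * b * g) := by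
  simpa [inv_eq_of_mul_self g2] using od_conj' (g := g) (a := a) (b := b)
theorem od_self (g2 : g * g = 1) : Od g (g * b * g) ↔ Od g b := by
  rw [← od_cj g2, g2, one_mul]
theorem oadj_symm (h : OddAdj D a b) : OddAdj D b a := ⟨h.2.1, h.1, Od.symm h.2.2⟩
theorem ocon_symm (h : ReflTransGen (OddAdj D) a b) : ReflTransGen (OddAdj D) b a := by
  induction h with
  | refl => exact .refl
  | tail _ k i => exact .head (oadj_symm k) i
theorem ocon_conj (hg : g ∈ normalizer D) (h : ReflTransGen (OddAdj D) a b) :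
    ReflTransGen (OddAdj D) (g * a * g⁻¹) (g * b * g⁻¹) :=
  h.lift (fun a => g * a * g⁻¹) fun _ _ k => ⟨nDc hg k.1, nDc hg k.2.1, Od.conj k.2.2 g⟩

namespace RI
variable (h : RI D)
include h
theorem ocon_cj (ha : a ∈ D) (hd : d ∈ D) (o : Od a d) : ReflTransGen (OddAdj D) a (d * a * d) :=
  .tail (.single ⟨ha, hd, o⟩) ⟨hd, h.cnj d hd a ha, (od_self (h.sq d hd)).2 o.symm⟩
theorem comp_inv (ha : a ∈ D) (hx : x ∈ D) (o : Od a x) (hd : d ∈ D) : ReflTransGen (OddAdj D) a (d * a * d) := by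
  have d2 := h.sq d hd; have a2 := h.sq a ha
  have ha' := h.cnj d hd a ha; have hx' := h.cnj d hd x hx
  have k : ReflTransGen (OddAdj D) x (d * x * d) → ReflTransGen (OddAdj D) a (d * a * d) := fun k =>
    .tail (.head ⟨ha, hx, o⟩ k) ⟨hx', ha', (o.cj d2).symm⟩
  rcases h.tri ha hd with c | c | c
  · rw [show d * a * d = a from wd[c & d2]]
  · exact h.ocon_cj ha hd c
  by_cases o' : Od (d * a * d) x
  · exact .tail (.single ⟨ha, hx, o⟩) ⟨hx, ha', o'.symm⟩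
  have c' := h.fo_symm ha hd c
  have o2 := h.X_od ha hx ha' o c' (h.X_fo ha hx ha' o c' o')
  have s := h.br_symm hd ha c'
  have o3 := o2.cj d2
  rw [show d * (d * a * d * a) * d = d * a * d * a from wd[s & d2]] at o3
  exact k (.tail (.single ⟨hx, c', o2.symm⟩) ⟨c', hx', o3⟩)
theorem comp_inv' (ha : a ∈ D) (hx : x ∈ D) (o : Od a x) (hg : g ∈ closure D) :
    ReflTransGen (OddAdj D) a (g * a * g⁻¹) := by
  induction hg using closure_induction'' with
  | mem y hy => exact (h.inv hy).symm ▸ h.comp_inv ha hx o hy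
  | inv_mem y hy => simpa [h.inv hy] using h.comp_inv ha hx o hy
  | one => simpa using ReflTransGen.refl
  | mul y z hy _ i j => exact i.trans (by simpa [mul_assoc] using ocon_conj (h.mem_nD hy) j)
theorem conj_of_ocon (k : ReflTransGen (OddAdj D) a b) : ∃ g ∈ closure D, g * a * g⁻¹ = b := by
  induction k with
  | refl => exact ⟨1, one_mem _, by simp⟩
  | tail _ k i =>
    obtain ⟨g, hg, rfl⟩ := i
    obtain ⟨w, hw, e, -⟩ := h.mid k.1 k.2.1 k.2.2.2
    exact ⟨w * g, mul_mem (subset_closure hw) hg, by rw [← e, mul_inv_rev, h.inv hw]; group⟩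
/-- `X_a` lies in the odd component of `a` or is isolated -/
theorem X_comp (ha : a ∈ D) (hx : x ∈ D) (o : Od a x) (he : e ∈ D) (hy : y ∈ D) (o' : Od e y) (k : e * a ∈ D) :
    ReflTransGen (OddAdj D) a e := by
  have k' := h.mul_symm he ha k
  by_cases n : Od e x
  · exact .tail (.single ⟨ha, hx, o⟩) ⟨hx, he, n.symm⟩
  by_cases n' : Od a y
  · exact .tail (.single ⟨ha, hy, n'⟩) ⟨hy, he, o'.symm⟩
  have i := h.X_od ha hx he o k (h.X_fo ha hx he o k n)
  have j := h.X_od he hy ha o' k' (h.X_fo he hy ha o' k' n')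
  rw [← h.comm he ha k] at j
  exact .tail (.tail (.tail (.single ⟨ha, hx, o⟩) ⟨hx, k, i.symm⟩) ⟨k, hy, j⟩) ⟨hy, he, o'.symm⟩
/-- `C_D(d) = C_D(e)` gives `A_d ⊆ A_e` -/
theorem A_of_C (hd : d ∈ D) (he : e ∈ D) (k : ∀ c ∈ D, c * d = d * c ↔ c * e = e * c) (hx : x ∈ D) (o : Od d x) :
    Od e x := by
  refine h.od_of he hx (fun c => h.od_nc hd hx o ((k x hx).2 c.symm).symm) fun f => ?_
  have s := h.br_symm he hx f
  exact h.fo_nc f hd (h.L4 hd hx he o ((k e he).2 rfl) f) ((k _ f).2 wd[s])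
theorem nml_X [N.Normal] (hN : ∀ d ∈ D, d ∉ N) (hd : d ∈ D) (he : e ∈ D) (k : e * d ∈ D) (hx : x ∈ D)
    (hn : d * x ∈ N) : e * x = x * e := by
  have d2 := h.sq d hd; have k2 := h.sq _ k
  let φ := QuotientGroup.mk' N
  have i : φ (e * x) = φ (e * d) := by
    rw [show e * x = e * d * (d * x) from wd[d2], map_mul, show φ (d * x) = 1 from (QuotientGroup.eq_one_iff _).2 hn, mul_one]
  have i2 : φ (e * x) * φ (e * x) = 1 := by rw [i, ← map_mul, k2, map_one]
  refine h.comm_of he hx (fun o => hN _ k ((QuotientGroup.eq_one_iff _).1 ?_)) fun f =>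
    hN _ f ((QuotientGroup.eq_one_iff _).1 ?_)
  · exact i.symm.trans (eq_one_of_odd (Odd.of_dvd_nat o.2 (orderOf_map_dvd φ _)) i2)
  · rwa [← map_mul, ← mul_assoc] at i2
theorem nml_comm [N.Normal] (hN : ∀ d ∈ D, d ∉ N) (hd : d ∈ D) (he : e ∈ D) (k : e * d ∈ D) (hx : x ∈ D)
    (hn : d * x ∈ N) : d * x = x * d := by
  have i := h.nml_X hN hd he k hx hn
  have j := h.nml_X hN hd k (by rwa [tt'' (h.sq d hd)]) hx hn
  have := h.sq e he
  exact wd[i & j & this]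
variable [Finite G]
theorem nml_two [N.Normal] (nD : ∀ g : G, g ∈ normalizer D) (hN : ∀ d ∈ D, d ∉ N) (hd : d ∈ D) (he : e ∈ D)
    (k : e * d ∈ D) (hn : n ∈ N) : d * (n * d * n⁻¹) ∈ pCore 2 G := by
  have m : ∀ n ∈ N, d * (n * d * n⁻¹) ∈ N := fun n hn => by
    rw [show d * (n * d * n⁻¹) = d * n * d⁻¹ * n⁻¹ by rw [h.inv hd]; group]
    exact mul_mem (‹N.Normal›.conj_mem n hn d) (inv_mem hn)
  let T : Set G := {x | ∃ n ∈ N, n * d * n⁻¹ = x}
  have hT : T ⊆ D := by rintro _ ⟨n, -, rfl⟩; exact nDc (nD n) hd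
  have cm : ∀ a ∈ T, ∀ b ∈ T, a * b = b * a := by
    rintro _ ⟨n, hn, rfl⟩ _ ⟨n', hn', rfl⟩
    have := congrArg (fun x => n * x * n⁻¹) (h.nml_comm hN hd he k (nDc (nD _) hd) (m _ (mul_mem (inv_mem hn) hn')))
    simpa [mul_assoc] using this
  have pT := h.two_closure hT (fun a ha b hb => by rwa [cm a ha b hb, tt'' (h.sq a (hT ha))])
    fun a ha b hb o => h.od_nc (hT ha) (hT hb) o (cm a ha b hb)
  have nT : N ≤ N(closure T) := norm_closure (by
    rintro a ha _ ⟨n, hn, rfl⟩; exact ⟨a * n, mul_mem ha hn, by group⟩)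
  rw [pCore_eq Nat.prime_two]
  exact (nml_top (K := N)).pcore_le_pcore (le_pcore (nml_inf_of_norm nT) pT.inf_right ⟨m n hn,
    mul_mem (subset_closure ⟨1, one_mem _, by simp⟩) (subset_closure ⟨n, hn, rfl⟩)⟩)
theorem nml_le [N.Normal] (gen : closure D = ⊤) (X : ∀ d ∈ D, ∃ e ∈ D, e * d ∈ D) (hN : ∀ d ∈ D, d ∉ N) :
    N ≤ twoZCore G := fun n hn => by
  refine mem_center_iff.2 fun q => ?_
  obtain ⟨g, rfl⟩ := QuotientGroup.mk'_surjective _ q
  refine (show ⊤ ≤ (C1(QuotientGroup.mk' (pCore 2 G) n) : Subgroup _).comap (QuotientGroup.mk' _) from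
    gen ▸ (closure_le _).2 fun d hd => mem_C1.2 ?_) (mem_top g) _ rfl |>.symm
  obtain ⟨e, he, k⟩ := X d hd
  have := (QuotientGroup.eq_one_iff _).2 (h.nml_two (fun g => h.mem_nD (gen ▸ mem_top g)) hN hd he k hn)
  have d2 := congrArg (QuotientGroup.mk' (pCore 2 G)) (h.sq d hd)
  simp only [QuotientGroup.mk_mul, QuotientGroup.mk_inv, QuotientGroup.mk'_apply, QuotientGroup.mk_one] at *
  have i := inv_mul_cancel (n : G ⧸ pCore 2 G)
  exact wd[this & d2 & i]
end RI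

/-- a class of root involutions with odd pairs -/
structure RC (D : Set G) : Prop extends RI D where
  cls : ∀ a ∈ D, ∀ b ∈ D, ∃ g ∈ normalizer D, g * a * g⁻¹ = b
  odd : ∀ a ∈ D, ∃ x ∈ D, Od a x

theorem rc_of_con (h : RI D) (hc : IsConnectedSet (OddAdj D) D) (ha : a ∈ D) (hb : b ∈ D) (ne : a ≠ b) : RC D :=
  ⟨h, fun a ha b hb => let ⟨g, hg, e⟩ := h.conj_of_ocon (hc a ha b hb); ⟨g, h.mem_nD hg, e⟩, fun c hc' => by
    obtain ⟨y, hy, n⟩ : ∃ y ∈ D, c ≠ y := by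
      by_cases e : c = a
      exacts [⟨b, hb, e ▸ ne⟩, ⟨a, ha, e⟩]
    obtain ⟨x, k, -⟩ := (hc c hc' y hy).cases_head.resolve_left n
    exact ⟨x, k.2.1, k.2.2⟩⟩
theorem rc_of_cls (h : IsRootInvolutionClass D) (ha : a ∈ D) (hb : b ∈ D) (o : Od a b) : RC D :=
  have nD : ∀ g : G, g ∈ normalizer D := fun g => (ri_of h.1).mem_nD (h.1.generates ▸ mem_top g)
  ⟨ri_of h.1, fun a ha b hb => let ⟨g, e⟩ := h.2.2 a ha b hb; ⟨g, nD g, e.symm⟩, fun c hc =>
    let ⟨g, e⟩ := h.2.2 a ha c hc; ⟨_, nDc (nD g) hb, e ▸ o.conj g⟩⟩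

namespace RC
variable [Finite G] (h : RC D)
include h
theorem A_eq (ha : a ∈ D) (hb : b ∈ D) (k : ∀ z ∈ D, Od a z → Od b z) : ∀ z ∈ D, Od a z ↔ Od b z := by
  obtain ⟨g, hg, rfl⟩ := h.cls a ha b hb
  have := Set.eq_of_subset_of_ncard_le (s := {z | z ∈ D ∧ Od a z}) (t := {z | z ∈ D ∧ Od (g * a * g⁻¹) z})
    (fun z hz => ⟨hz.1, k z hz.1 hz.2⟩) (Set.ncard_le_ncard_of_injOn (fun z => g⁻¹ * z * g)
      (fun z hz => ⟨nDc' hg hz.1, od_conj'.1 hz.2⟩) fun _ _ _ _ e => by simpa using e)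
  exact fun z hz => ⟨k z hz, fun o => (this.ge ⟨hz, o⟩).2⟩
theorem X_all (hd : d ∈ D) (he : e ∈ D) (k : e * d ∈ D) : ∀ d ∈ D, ∃ e ∈ D, e * d ∈ D := fun a ha => by
  obtain ⟨g, hg, rfl⟩ := h.cls d hd a ha
  exact ⟨_, nDc hg he, by simpa [mul_assoc] using nDc hg k⟩
theorem NA (hf : f ∈ D) (ha : a ∈ D) (k : Fo D f a) : ∃ z ∈ D, Od (f * a * f * a) z ∧ ¬ Od f z := by
  by_contra! n
  have s := h.br_symm hf ha k; have a2 := h.sq a ha; have f2 := h.sq f hf
  have bf := h.A_eq k hf n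
  have ab : a * (f * a * f * a) ∈ D := by rw [show a * (f * a * f * a) = f * a * f from wd[s & a2]]; exact h.cnj f hf a ha
  have ba := h.A_eq k ha fun z hz o => h.od_of ha hz (h.X_nc k hz ha o ab) fun c => by
    obtain ⟨f', hf', -, c', e⟩ := h.L5 k hz o ha ab c
    exact h.fo_nod k hf' (h.fo_symm hf' k c') ((bf f' hf').2
      (h.opp ha hf hf' k s.symm (h.br_symm hf' k c' ▸ e)).1)
  unfold Fo at k
  generalize hb : f * a * f * a = b at *
  let T : Set G := {t | t ∈ D ∧ ∀ z ∈ D, Od b z ↔ Od t z}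
  have cj : ∀ g ∈ normalizer D, g * b * g⁻¹ ∈ T → ∀ s ∈ T, g * s * g⁻¹ ∈ T := fun g hg k s hs =>
    ⟨nDc hg hs.1, fun z hz => by rw [od_conj', ← hs.2 _ (nDc' hg hz), ← od_conj', k.2 z hz]⟩
  have pT := h.two_closure (T := T) (fun _ k => k.1) (fun t ht s hs => ⟨h.cnj t ht.1 s hs.1, fun z hz => by
    rw [od_cj (h.sq t ht.1), ← hs.2 _ (h.cnj t ht.1 z hz), ht.2 _ (h.cnj t ht.1 z hz), od_self (h.sq t ht.1), ht.2 z hz]⟩)
    fun t ht s hs o => od_irrefl ((hs.2 s hs.1).1 ((ht.2 s hs.1).2 o))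
  have := pT.solv.eq_bot_of_le_der ((closure_le _).2 fun t ht => by
    obtain ⟨g, hg, rfl⟩ := h.cls b k t ht.1
    have := commutator_mem_commutator (subset_closure (cj g hg ht f ⟨hf, bf⟩)) (subset_closure (cj g hg ht a ⟨ha, ba⟩))
    rw [← hb]
    simpa [commutatorElement_def, h.inv hf, h.inv ha, mul_assoc] using this)
  exact h.ne b k (eq_one_of_eq_bot this (subset_closure ⟨k, fun _ _ => Iff.rfl⟩))
theorem L6 (hf : f ∈ D) (ha : a ∈ D) (k : Fo D f a) :
    ∃ x ∈ D, Od a x ∧ orderOf (a * x) = 3 ∧ f * a * f * a * x * (f * a * f * a) * x = f := by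
  obtain ⟨z, hz, o, n⟩ := h.NA hf ha k
  have f2 := h.sq f hf
  have fb : f * (f * a * f * a) ∈ D := by rw [show f * (f * a * f * a) = a * f * a from wd[f2]]; exact h.cnj a ha f hf
  obtain ⟨x, hx, -, c, e⟩ := h.L5 k hz o hf fb (h.X_fo k hz hf o fb n)
  rw [h.br_symm hx k c] at e
  exact ⟨x, hx, (h.opp hf ha hx k rfl e).1, (h.opp hf ha hx k rfl e).2, e⟩
theorem Tcomm (hd : d ∈ D) (he : e ∈ D) (k : ∀ z ∈ D, Od d z ↔ Od e z) : d * e = e * d := by
  refine h.comm_of hd he (fun o => od_irrefl ((k e he).1 o)) fun c => ?_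
  obtain ⟨z, hz, o, n⟩ := h.NA hd he c
  have d2 := h.sq d hd; have e2 := h.sq e he
  have i : d * (d * e * d * e) = e * d * e := wd[d2]
  have db : d * (d * e * d * e) ∈ D := i ▸ h.cnj e he d hd
  have := h.X_od c hz hd o db (h.X_fo c hz hd o db n)
  rw [i, od_cj e2, k _ (h.cnj e he z hz), od_self e2, ← k z hz] at this
  exact n this
theorem C_of_A (hd : d ∈ D) (he : e ∈ D) (k : ∀ z ∈ D, Od d z ↔ Od e z) (hc : c ∈ D) (cd : c * d = d * c) :
    c * e = e * c := by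
  refine h.comm_of hc he (fun o => h.od_nc hd hc ((k c hc).2 o.symm) cd.symm) fun f => ?_
  obtain ⟨x, hx, o, -, i⟩ := h.L6 hc he f
  have de := h.Tcomm hd he k
  have dy : c * e * c * e * d = d * (c * e * c * e) := wd[de & cd]
  have y2 := h.sq _ f; have x2 := h.sq x hx
  generalize c * e * c * e = y at *
  have := h.comm_of_od hd ((k x hx).2 o) dy (by
    have : d * (x * y * x) = x * y * x * d := wd[i & y2 & dy & cd]
    simpa [mul_assoc, tt' x2, x2] using congrArg (fun t => x * t * x) this.symm)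
  exact h.ne c hc wd[this & i & x2 & y2]
theorem E_iff (hd : d ∈ D) (he : e ∈ D) :
    (∀ c ∈ D, c * d = d * c ↔ c * e = e * c) ↔ ∀ z ∈ D, Od d z ↔ Od e z :=
  ⟨fun k z hz => ⟨h.A_of_C hd he k hz, h.A_of_C he hd (fun c hc => (k c hc).symm) hz⟩, fun k c hc =>
    ⟨h.C_of_A hd he k hc, h.C_of_A he hd (fun c hc => (k c hc).symm) hc⟩⟩
theorem nml_cases [N.Normal] (gen : closure D = ⊤) (hd : d ∈ D) (he : e ∈ D) (k : e * d ∈ D) :
    N = ⊤ ∨ N ≤ twoZCore G ∧ ∀ d ∈ D, d ∉ N := by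
  by_cases n : ∀ d ∈ D, d ∉ N
  · exact .inr ⟨h.nml_le gen (h.X_all hd he k) n, n⟩
  · push Not at n
    obtain ⟨a, ha, n⟩ := n
    refine .inl (top_le_iff.1 (gen ▸ (closure_le _).2 fun b hb => ?_))
    obtain ⟨g, -, rfl⟩ := h.cls a ha b hb
    exact ‹N.Normal›.conj_mem a n g
theorem Z_ne (hd : d ∈ D) : twoZCore G ≠ ⊤ := fun e => by
  obtain ⟨x, hx, o⟩ := h.odd d hd
  have pQ : PiGrp {2} (pCore 2 G) := pCore_eq (G := G) Nat.prime_two ▸ pcore_pi
  have i := mem_center_iff.1 (show d ∈ twoZCore G from e ▸ mem_top d) (QuotientGroup.mk' _ x)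
  have d2 := congrArg (QuotientGroup.mk' (pCore 2 G)) (h.sq d hd)
  have x2 := congrArg (QuotientGroup.mk' (pCore 2 G)) (h.sq x hx)
  have : d * x * (d * x) ∈ pCore 2 G := (QuotientGroup.eq_one_iff _).1 (by
    simp only [QuotientGroup.mk_mul, QuotientGroup.mk'_apply, QuotientGroup.mk_one] at *
    exact wd[i & d2 & x2])
  have := eq_one_of_odd o.2 ((pQ.elt this).eq_one' (piNat_two_compl.2 (odd_sq o.2)))
  have x2 := h.sq x hx
  exact o.1 wd[this & x2]
theorem simple_quo (gen : closure D = ⊤) (hd : d ∈ D) (he : e ∈ D) (k : e * d ∈ D) :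
    IsSimpleGroup (G ⧸ twoZCore G) := by
  have := QuotientGroup.nontrivial_iff.2 (h.Z_ne hd)
  refine ⟨fun H hH => ?_⟩
  have su := QuotientGroup.mk'_surjective (twoZCore G)
  rcases h.nml_cases (N := H.comap (QuotientGroup.mk' _)) gen hd he k with n | n
  · exact .inr (comap_injective su (n.trans (comap_top _).symm))
  · refine .inl (eq_bot_iff.2 fun q hq => ?_)
    obtain ⟨g, rfl⟩ := su q
    exact (QuotientGroup.eq_one_iff _).2 (n.1 hq)
theorem perfect (gen : closure D = ⊤) (hd : d ∈ D) (he : e ∈ D) (k : e * d ∈ D) : commutator G = ⊤ := by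
  refine (h.nml_cases gen hd he k).resolve_right fun n => n.2 _ k ?_
  obtain ⟨g, -, i⟩ := h.cls d hd e he
  have := commutator_mem_commutator (mem_top g) (mem_top d)
  rwa [commutatorElement_def, i, h.inv hd] at this
end RC
end H13
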