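import Mathlib.Algebra.Group.Basic
import Mathlib.Data.List.Basic
/-! Word identities from commutation and involution relations between atoms: `tr[[a, b, c]; h1 & h2]` proves an
equation between products of the atoms from a conjunction of facts `x * y = y * x` and `x * x = 1`. -/
set_option autoImplicit false

namespace H13.Tr
variable {G : Type*} [Group G]

def at' (env : List G) (i : ℕ) : G := env.getD i 1
def ev (env : List G) : List ℕ → G
  | [] => 1
  | i :: l => at' env i * ev env l
theorem ev_append (env : List G) (l m : List ℕ) : ev env (l ++ m) = ev env l * ev env m := by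
  induction l with
  | nil => simp [ev]
  | cons i l h => simp [ev, h, mul_assoc]
def Ok (env : List G) : ℕ × Option ℕ → Prop
  | (i, none) => at' env i * at' env i = 1
  | (i, some j) => at' env i * at' env j = at' env j * at' env i

class At (env : List G) (x : G) (i : outParam ℕ) : Prop where out : at' env i = x
instance atZero (env : List G) (x : G) : At (x :: env) x 0 := ⟨rfl⟩
instance (priority := low) atSucc (env : List G) (x y : G) (i : ℕ) [h : At env x i] : At (y :: env) x (i + 1) := ⟨h.out⟩
class Rf (env : List G) (x : G) (l : outParam (List ℕ)) : Prop where out : ev env l = x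
instance (priority := high) rfAt (env : List G) (x : G) (i : ℕ) [h : At env x i] : Rf env x [i] :=
  ⟨by simp [ev, h.out]⟩
instance rfOne (env : List G) : Rf env 1 [] := ⟨rfl⟩
instance rfMul (env : List G) (x y : G) (l m : List ℕ) [h : Rf env x l] [k : Rf env y m] : Rf env (x * y) (l ++ m) :=
  ⟨by rw [ev_append, h.out, k.out]⟩
class Fc (env : List G) (P : Prop) (c : outParam (List (ℕ × Option ℕ))) : Prop where out : P → ∀ p ∈ c, Ok env p
instance fcAnd (env : List G) (P Q : Prop) (c d : List (ℕ × Option ℕ)) [h : Fc env P c] [k : Fc env Q d] :
    Fc env (P ∧ Q) (c ++ d) := ⟨fun a p hp => (List.mem_append.1 hp).elim (h.out a.1 p) (k.out a.2 p)⟩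
instance fcSq (env : List G) (x : G) (i : ℕ) [h : At env x i] : Fc env (x * x = 1) [(i, none)] :=
  ⟨fun a p hp => by rw [List.mem_singleton.1 hp]; simp only [Ok, h.out, a]⟩
instance fcComm (env : List G) (x y : G) (i j : ℕ) [h : At env x i] [k : At env y j] :
    Fc env (x * y = y * x) [(i, some j)] :=
  ⟨fun a p hp => by rw [List.mem_singleton.1 hp]; simp only [Ok, h.out, k.out, a]⟩

def del (c : List (ℕ × Option ℕ)) (x : ℕ) : List ℕ → Option (List ℕ)
  | [] => none
  | y :: l => if x = y then some l else
      if c.contains (x, some y) || c.contains (y, some x) then (del c x l).map (y :: ·) else none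
def red (c : List (ℕ × Option ℕ)) : List ℕ → List ℕ
  | [] => []
  | x :: l => if c.contains (x, none) then (del c x (red c l)).getD (x :: red c l) else x :: red c l
def eqv (c : List (ℕ × Option ℕ)) : List ℕ → List ℕ → Bool
  | [], m => m.isEmpty
  | x :: l, m => match del c x m with
    | some m' => eqv c l m'
    | none => false

variable {env : List G} {c : List (ℕ × Option ℕ)} (hc : ∀ p ∈ c, Ok env p)
include hc
theorem del_ev (x : ℕ) : ∀ l m : List ℕ, del c x l = some m → ev env l = at' env x * ev env m
  | [], _, h => by simp [del] at h
  | y :: l, m, h => by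
    unfold del at h
    split_ifs at h with e k
    · rw [← Option.some.inj h, e]; rfl
    · obtain ⟨m', h', rfl⟩ := Option.map_eq_some_iff.1 h
      have : at' env x * at' env y = at' env y * at' env x := by
        rcases Bool.or_eq_true_iff.1 k with k | k
        · exact hc _ (List.mem_of_elem_eq_true k)
        · exact (hc _ (List.mem_of_elem_eq_true k)).symm
      simp only [ev, del_ev x l m' h', ← mul_assoc, this]
theorem red_ev : ∀ l : List ℕ, ev env (red c l) = ev env l
  | [] => rfl
  | x :: l => by
    unfold red
    split_ifs with k
    · cases e : del c x (red c l) with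
      | none => simp [ev, red_ev l]
      | some m =>
        have : at' env x * at' env x = 1 := hc _ (List.mem_of_elem_eq_true k)
        simp only [Option.getD_some, ev, ← red_ev l, del_ev hc x _ _ e, ← mul_assoc, this, one_mul]
    · simp [ev, red_ev l]
theorem eqv_ev : ∀ l m : List ℕ, eqv c l m = true → ev env l = ev env m
  | [], m, h => by rw [List.isEmpty_iff.1 h]
  | x :: l, m, h => by
    unfold eqv at h
    split at h
    · next m' e => rw [del_ev hc x _ _ e, ← eqv_ev l m' h]; rfl
    · cases h
omit hc in
theorem main (env : List G) {P : Prop} {x y : G} {c : List (ℕ × Option ℕ)} {l m : List ℕ} (hP : P) [f : Fc env P c]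
    [h : Rf env x l] [k : Rf env y m] (e : eqv c (red c l) (red c m) = true) : x = y := by
  rw [← h.out, ← k.out, ← red_ev (f.out hP) l, eqv_ev (f.out hP) _ _ e, red_ev (f.out hP)]
end H13.Tr

namespace H13
set_option quotPrecheck false in
scoped notation "tr[" env ";" h "]" => H13.Tr.main env h (by decide)
end H13
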