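import Cfsg.Agent.H13.RI2
import Cfsg.Agent.H13.Tr
import Cfsg.Agent.H21.RED
/-! Root involutions acting with unique fixed points (`RT`): products `u` of two commuting members swapping the same
pair of points (`Ut`), `F1`, `F2`, and `star`: `C_D(s) = C_D(s^u)`. -/
set_option autoImplicit false
set_option linter.unusedSectionVars false
open Cfsg H18 Subgroup H9 H19 H21 MulAction
open H5 (exists_sqrt eq_of_sq_eq inverts_pow eq_one_of_odd odd_order_of_mem piNat_two_compl)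

namespace H13
variable {G Ω : Type*} [Group G] [MulAction G Ω] {D O : Set G} {a b c p : Ω}
variable {d e e' f g s t u v w w' x y z α β τ σ : G} {J M : Subgroup G}

variable (Ω) in
structure RT (D : Set G) : Prop extends RI D where
  fix : ∀ d ∈ D, ∃ a : Ω, d • a = a
  uniq : ∀ d ∈ D, ∀ a b : Ω, d • a = a → d • b = b → a = b

structure Ut (D : Set G) (u t : G) (a c : Ω) : Prop where
  tD : t ∈ D
  tu : t * u ∈ D
  u2 : u * u = 1
  u1 : u ≠ 1
  ua : u • a = a
  tc : t • c = c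
  ne : a ≠ c

def Rj (O : Set G) (J : Subgroup G) (w α : G) : Prop :=
  α ∈ closure O ∧ ∀ τ ∈ O, w * τ * w⁻¹ ∈ O ∧ τ * (w * τ * w⁻¹) * α ∈ J

theorem abel_closure (h : ∀ x ∈ O, ∀ y ∈ O, x * y = y * x) : Abel (closure O) :=
  (closure_le _).2 fun x hx => le_C1_iff.1 ((closure_le _).2 fun y hy => mem_C1.2 (h y hy x hx))
theorem sq_closure (h : ∀ x ∈ O, ∀ y ∈ O, x * y = y * x) (sq : ∀ x ∈ O, x * x = 1) (hx : x ∈ closure O) :
    x * x = 1 := by
  induction hx using closure_induction with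
  | mem x hx => exact sq x hx
  | one => simp
  | mul x y hx hy i j => have := comm_of_cent (abel_closure h) hx hy; exact wd[i & j & this]
  | inv x _ i => rw [← mul_inv_rev, i, inv_one]
theorem Rj.mul (h : ∀ x ∈ O, ∀ y ∈ O, x * y = y * x) (sq : ∀ x ∈ O, x * x = 1) (h1 : Rj O J w α) (h2 : Rj O J w' β) :
    Rj O J (w' * w) (α * β) := ⟨mul_mem h1.1 h2.1, fun τ hτ => by
  obtain ⟨i1, j1⟩ := h1.2 τ hτ
  obtain ⟨i2, j2⟩ := h2.2 _ i1
  rw [show w' * w * τ * (w' * w)⁻¹ = w' * (w * τ * w⁻¹) * w'⁻¹ by group]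
  generalize w * τ * w⁻¹ = τ1 at *
  generalize w' * τ1 * w'⁻¹ = τ2 at *
  have c1 := comm_of_cent (abel_closure h) h1.1 (subset_closure i1)
  have c2 := comm_of_cent (abel_closure h) h1.1 (subset_closure i2)
  have := sq _ i1
  exact ⟨i2, by rw [show τ * τ2 * (α * β) = τ * τ1 * α * (τ1 * τ2 * β) from wd[c1 & c2 & this]]; exact mul_mem j1 j2⟩⟩
theorem Rj.odd (h : ∀ x ∈ O, ∀ y ∈ O, x * y = y * x) (sq : ∀ x ∈ O, x * x = 1) (h1 : Rj O J w α) (ht : t ∈ O)
    (ho : Odd (orderOf w)) : α ∈ J := by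
  have k : ∀ n : ℕ, Rj O J (w ^ (n + 1)) (α ^ (n + 1)) := fun n => by
    induction n with
    | zero => simpa using h1
    | succ n i => rw [pow_succ' w, pow_succ α]; exact i.mul h sq h1
  obtain ⟨n, e⟩ := ho
  have := ((k (2 * n)).2 t ht).2
  rwa [← e, pow_orderOf_eq_one, e, pow_succ, pow_mul, pow_two, sq_closure h sq h1.1, one_pow, one_mul, one_mul, inv_one,
    mul_one, sq t ht, one_mul] at this
theorem cj_comm (u2 : u * u = 1) (h : x * (u * y * u) = u * y * u * x) : u * x * u * y = y * (u * x * u) := by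
  simpa [mul_assoc, tt' u2, u2] using congrArg (fun t => u * t * u) h
theorem odd_mul_comm (c : x * y = y * x) (hx : Odd (orderOf x)) (hy : Odd (orderOf y)) : Odd (orderOf (x * y)) :=
  Odd.of_dvd_nat (hx.mul hy) (Commute.orderOf_mul_dvd_mul_orderOf c)

theorem RI.mid_uniq (h : RI D) (hd : d ∈ D) (hw : w ∈ D) (hw' : w' ∈ D) (o : Od d (w * d * w))
    (e : w' * d * w' = w * d * w) : w' = w := by
  have k : ∀ {w}, w ∈ D → Od d (w * d * w) → Odd (orderOf (d * w)) := fun {w} hw o => by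
    have := h.sq w hw; have d2 := h.sq d hd
    refine (h.od_of hd hw (fun c => o.1 wd[c & this]) fun f => h.od_nc hd (h.cnj w hw d hd) o ?_).2
    have := h.br_symm hd hw f
    simpa only [mul_assoc] using this
  exact mul_left_cancel (eq_of_sq_eq (k hw' (e ▸ o)) (k hw o) (by simpa [mul_assoc] using e))
theorem RI.mid_comm (h : RI D) (hu : u ∈ normalizer D) (u2 : u * u = 1) (hd : d ∈ D) (o : Od d (u * d * u)) :
    ∃ w ∈ D, w * d * w = u * d * u ∧ w * u = u * w ∧ w ∈ closure {d, u * d * u} := by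
  have k : ∀ x ∈ D, u * x * u ∈ D := fun x hx => by simpa [inv_eq_of_mul_self u2] using nDc hu hx
  obtain ⟨w, hw, e, m⟩ := h.mid hd (k d hd) o.2
  have w2 := h.sq w hw
  have := h.mid_uniq hd hw (k w hw) (e ▸ o) (by
    rw [show u * w * u * d * (u * w * u) = u * (w * (u * d * u) * w) * u by group, ← e]
    simpa [mul_assoc, tt' w2, w2] using e.symm)
  exact ⟨w, hw, e, wd[this & u2], m⟩

namespace RT
variable [Finite G] (h : RT Ω D)
include h
theorem comm_fix (hd : d ∈ D) (ha : d • a = a) (e : g * d = d * g) : g • a = a :=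
  h.uniq d hd _ _ (comm_smul_fix ha e) ha
theorem notD (hab : a ≠ b) (ha : x • a = a) (hb : x • b = b) : x ∉ D := fun k => hab (h.uniq x k _ _ ha hb)
theorem move (hd : d ∈ D) (ha : d • a = a) (hab : b ≠ a) : d • b ≠ b := fun e => hab (h.uniq d hd _ _ e ha)
theorem od_move (hd : d ∈ D) (ha : d • a = a) (he : e ∈ D) (hv : e • a ≠ a) : Od d e :=
  h.od_of hd he (fun c => hv (h.comm_fix hd ha c.symm)) fun f => by
    have s := h.br_symm hd he f
    exact hv (h.comm_fix f (h.comm_fix hd ha wd[s]) wd[s])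
theorem od_ne (hd : d ∈ D) (ha : d • a = a) (he : e ∈ D) (hb : e • b = b) (hab : a ≠ b) : Od d e :=
  h.od_move hd ha he (h.move he hb hab)
theorem cj_fix (hd : d ∈ D) (ha : d • a = a) : (d * e * d) • a = a ↔ e • a = a := by
  rw [mul_smul, mul_smul, ha, smul_eq_iff_eq_inv_smul, h.inv hd, ha]
variable (nD : ∀ g : G, g ∈ normalizer D)
include nD
theorem cen (hd : d ∈ D) (he : e ∈ D) (c : d * e = e * d) (n : d ≠ e) (ha : d • a = a) (k : g * (d * e) = d * e * g) :
    g • a = a := by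
  by_contra m
  have d2 := h.sq d hd; have e2 := h.sq e he
  have o := h.od_ne hd ha (nDc (nD g) hd) (conj_smul_fix ha g) (Ne.symm m)
  have i : d * e * (g * d * g⁻¹) = g * d * g⁻¹ * (d * e) := by
    rw [← conj_eq_self_of_C1 (mem_C1.2 k), conj_mul, conj_mul, show d * e * d = d * (d * e) from wd[c]]
  have f2 := h.sq _ (nDc (nD g) hd)
  have hf := nDc (nD g) hd
  generalize g * d * g⁻¹ = f at *
  rcases h.L0 he hf (r := d * e) (w := d * f) wd[c & d2] wd[c & d2 & e2]
    (Commute.mul_right (show d * e * d = d * (d * e) from wd[c]) i) o.2 with k | k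
  · exact n wd[k & e2]
  · exact o.1 wd[k & f2]
theorem zo : ZO Ω D := ⟨h.sq, h.ne, h.cnj, h.fix, h.uniq, fun _ hd _ he c n _ ha _ hg => h.cen nD hd he c n ha (mem_C1.1 hg)⟩
omit h in
theorem cD (u2 : u * u = 1) (hs : s ∈ D) : u * s * u ∈ D := by simpa [inv_eq_of_mul_self u2] using nDc (nD u) hs
omit nD in
theorem ut_comm (U : Ut D u t a c) : t * u = u * t := by
  have := h.sq _ U.tD; have := h.sq _ U.tu; have := U.u2; exact wd
theorem ut_cen (U : Ut D u t a c) (k : g * u = u * g) : g • c = c := by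
  have t2 := h.sq _ U.tD; have i := h.ut_comm U
  exact h.cen nD U.tD U.tu wd[i] (fun e => U.u1 (left_eq_mul.1 e)) U.tc (by rwa [tt' t2])
omit nD in
theorem ut_move (U : Ut D u t a c) (hs : s ∈ D) (sa : s • a = a) : u * s ≠ s * u := fun k =>
  U.u1 (h.L1 U.tD hs (h.od_ne U.tD U.tc hs sa U.ne.symm) (h.ut_comm U).symm k (h.ut_comm U ▸ U.tu))
omit h nD in
theorem ut_fix (U : Ut D u t a c) (sa : s • a = a) : (u * s * u) • a = a := by rw [mul_smul, mul_smul, U.ua, sa, U.ua]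
theorem F1 (U : Ut D u t a c) (hs : s ∈ D) (sa : s • a = a) : s * (u * s * u) = u * s * u * s := by
  have hs' := cD nD U.u2 hs
  have sa' := ut_fix U sa
  refine h.comm_of hs hs' (fun o => ?_) fun f => ?_
  · obtain ⟨w, hw, e, k, -⟩ := h.mid_comm (nD u) U.u2 hs o
    refine h.notD U.ne (h.uniq _ hs' _ _ ?_ sa') (h.ut_cen nD U k) hw
    rw [← e, mul_smul, mul_smul, ← mul_smul w w, h.sq w hw, one_smul, sa]
  · have i := h.br_symm hs hs' f; have := U.u2
    exact h.notD U.ne (by simp only [mul_smul, U.ua, sa]) (h.ut_cen nD U wd[i & this]) f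
theorem ut_next (U : Ut D u t a c) (hs : s ∈ D) (sa : s • a = a) : Ut D (s * (u * s * u)) s c a := by
  have i := h.F1 nD U hs sa; have s2 := h.sq s hs; have u2 := U.u2
  exact ⟨hs, by rw [tt' s2]; exact cD nD u2 hs, wd[i & s2 & u2], fun e => h.ut_move U hs sa wd[e & s2 & u2],
    h.ut_cen nD U wd[i & u2], sa, U.ne.symm⟩
theorem F2 (U : Ut D u t a c) (hs : s ∈ D) (sa : s • a = a) (he : e ∈ D) (k : e * s ∈ D) :
    e * (u * s * u) = u * s * u * e := by
  have hs' := cD nD U.u2 hs; have he' := cD nD U.u2 he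
  have es := h.comm he hs k
  have ea := h.comm_fix hs sa es
  have i1 := h.F1 nD U hs sa; have i2 := h.F1 nD U he ea
  have i3 := h.F1 nD U k (by rw [mul_smul, sa, ea])
  refine h.comm_of he hs' (fun o => h.ne s hs (h.L1 he hs' o es.symm i1 (es ▸ k))) fun f => ?_
  refine h.ut_move U f (by simp only [mul_smul, U.ua, sa, ea]) ?_
  have u2 := U.u2; have s2 := h.sq s hs; have e2 := h.sq e he
  have j1 : u * (e * s) * u = u * e * u * (u * s * u) := wd[u2]
  have j2 : u * e * u * (u * s * u) = u * s * u * (u * e * u) := wd[u2 & es]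
  have j3 : e * (u * s * u) * e * (u * s * u) = u * e * u * s * (u * e * u) * s := by
    have s2' := h.sq _ hs'; have e2' := h.sq _ he'
    rw [j1] at i3
    generalize u * s * u = s' at *
    generalize u * e * u = e' at *
    exact wd[i1 & i2 & i3 & j2 & es & s2 & e2 & s2' & e2']
  calc u * (e * (u * s * u) * e * (u * s * u)) = u * e * u * s * (u * e * u) * s * u := wd[u2]
    _ = _ := by rw [j3]
omit nD in
theorem ut_mk (hτ : τ ∈ D) (hσ : σ ∈ D) (k : τ * σ = σ * τ) (e : τ • a = σ • a) (tc : τ • c = c) (n : a ≠ c)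
    (n' : τ * σ ≠ 1) : Ut D (τ * σ) τ a c := by
  have t2 := h.sq τ hτ; have s2 := h.sq σ hσ
  exact ⟨hτ, by rwa [tt' t2], wd[t2 & s2 & k], n', by rw [mul_smul, ← e, ← mul_smul, t2, one_smul], tc, n⟩
theorem F12 (hτ : τ ∈ D) (hσ : σ ∈ D) (k : τ * σ = σ * τ) (e : τ • a = σ • a) (tc : τ • c = c) (n : a ≠ c)
    (hs : s ∈ D) (sa : s • a = a) (hy : y = s ∨ y ∈ D ∧ y * s ∈ D) : Commute y (τ * σ * s * (τ * σ)) := by
  by_cases n' : τ * σ = 1
  · rw [n', one_mul, mul_one]; exact hy.elim (fun e => e ▸ Commute.refl _) fun k => h.comm k.1 hs k.2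
  · have U := h.ut_mk hτ hσ k e tc n n'
    exact hy.elim (fun e => by rw [e]; exact h.F1 nD U hs sa) fun k => h.F2 nD U hs sa k.1 k.2
end RT

/-- the members `τ` with `τ u ∈ D` moving `a` as `t` does -/
def Os (D : Set G) (u t : G) (a : Ω) : Set G := {τ | τ ∈ D ∧ τ * u ∈ D ∧ τ • a = t • a}

namespace RT
variable [Finite G] (h : RT Ω D) (nD : ∀ g : G, g ∈ normalizer D) (U : Ut D u t a c)
include h nD U
theorem Os_ut (hτ : τ ∈ Os D u t a) : Ut D u τ a c := by
  have := h.sq _ hτ.1; have := h.sq _ hτ.2.1; have := U.u2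
  exact ⟨hτ.1, hτ.2.1, U.u2, U.u1, U.ua, h.ut_cen nD U wd, U.ne⟩
theorem Os_comm (τ : G) (hτ : τ ∈ Os D u t a) (σ : G) (hσ : σ ∈ Os D u t a) : τ * σ = σ * τ := by
  have i := h.ut_comm (h.Os_ut nD U hτ); have j := h.ut_comm (h.Os_ut nD U hσ)
  refine h.comm_of hτ.1 hσ.1 (fun o => U.u1 (h.L1 hτ.1 hσ.1 o i.symm j.symm (i ▸ hτ.2.1))) fun f => ?_
  have k := swap_back (h.sq τ hτ.1) hτ.2.2
  have k' := swap_back (h.sq σ hσ.1) hσ.2.2
  exact h.notD (h.move U.tD U.tc U.ne).symm (by simp only [mul_smul, k, k', hσ.2.2]) (by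
    simp only [mul_smul, k', hτ.2.2]) f
theorem Os_v (hs : s ∈ D) (sa : s • a = a) (hτ : τ ∈ Os D u t a) :
    s * (u * s * u) * τ * (s * (u * s * u)) ∈ Os D u t a := by
  have V := h.ut_next nD U hs sa
  have i := h.F1 nD U hs sa; have u2 := U.u2
  have vu : s * (u * s * u) * u = u * (s * (u * s * u)) := wd[i & u2]
  generalize s * (u * s * u) = v at *
  have W := h.ut_next nD V hτ.1 (h.Os_ut nD U hτ).tc
  refine ⟨cD nD V.u2 hτ.1, ?_, ?_⟩
  · rw [show v * τ * v * u = v * (τ * u) * v from wd[vu]]; exact cD nD V.u2 hτ.2.1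
  · rw [← hτ.2.2, ← tt' (h.sq τ hτ.1) (v * τ * v), mul_smul, W.ua]
theorem Jlem (hs : s ∈ D) (sa : s • a = a) (hv : v = s * (u * s * u)) (hτ : τ ∈ Os D u t a) (hσ : σ ∈ Os D u t a)
    (hy : y = s ∨ y ∈ D ∧ y * s ∈ D) : τ * (v * τ * v) * (σ * (v * σ * v)) ∈ (C1(y) : Subgroup G) := by
  have Uτ := h.Os_ut nD U hτ; have Uσ := h.Os_ut nD U hσ
  have c0 := h.Os_comm nD U τ hτ σ hσ
  have c1 := h.Os_comm nD U _ (h.Os_v nD U hs sa hτ) σ hσ
  have tu := h.ut_comm Uτ; have su := h.ut_comm Uσ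
  have t2 := h.sq _ U.tD; have u2 := U.u2; have τ2 := h.sq _ hτ.1; have σ2 := h.sq _ hσ.1
  have v2 := (h.ut_next nD U hs sa).u2
  have k0 := h.F12 nD hτ.1 hτ.1 rfl rfl Uτ.tc U.ne hs sa hy
  have k1 := h.F12 nD hτ.1 hτ.2.1 wd[tu] (by rw [mul_smul, U.ua]) Uτ.tc U.ne hs sa hy
  have k2 := h.F12 nD hτ.1 hσ.1 c0 (hτ.2.2.trans hσ.2.2.symm) Uτ.tc U.ne hs sa hy
  have k3 := h.F12 nD hτ.1 hσ.2.1 wd[tu & c0] (by rw [mul_smul, U.ua, hτ.2.2, hσ.2.2]) Uτ.tc U.ne hs sa hy
  rw [τ2, one_mul, mul_one] at k0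
  rw [tt' τ2] at k1
  have := ((k2.mul_right k3).mul_right k0).mul_right k1
  rw [← hv] at c1 v2
  rw [mem_C1, show τ * (v * τ * v) * (σ * (v * σ * v)) = τ * σ * v * (τ * σ) * v by
    rw [mul_assoc τ, ← mul_assoc _ σ, c1]; simp [mul_assoc, tt' v2], hv,
    show τ * σ * (s * (u * s * u)) * (τ * σ) * (s * (u * s * u)) = τ * σ * s * (τ * σ) *
      (τ * (σ * u) * s * (τ * (σ * u))) * s * (u * s * u) from wd[tu & su & c0 & τ2 & σ2]]
  exact this.eq.symm
theorem Rv (hs : s ∈ D) (sa : s • a = a) (hv : v = s * (u * s * u)) (hy : y = s ∨ y ∈ D ∧ y * s ∈ D)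
    (hJ : closure (Os D u t a) ⊓ C1(y) ≤ J) : Rj (Os D u t a) J v (t * (v * t * v)) := by
  have ht : t ∈ Os D u t a := ⟨U.tD, U.tu, rfl⟩
  have k : ∀ τ ∈ Os D u t a, v * τ * v ∈ Os D u t a := fun τ hτ => hv ▸ h.Os_v nD U hs sa hτ
  have m : ∀ τ ∈ Os D u t a, τ * (v * τ * v) ∈ closure (Os D u t a) := fun τ hτ =>
    mul_mem (subset_closure hτ) (subset_closure (k τ hτ))
  refine ⟨m t ht, fun τ hτ => ?_⟩
  rw [inv_eq_of_mul_self (hv ▸ (h.ut_next nD U hs sa).u2)]
  exact ⟨k τ hτ, hJ ⟨mul_mem (m τ hτ) (m t ht), h.Jlem nD U hs sa hv hτ ht hy⟩⟩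
theorem starF (hs : s ∈ D) (sa : s • a = a) (hf : f ∈ D) (c1 : f * (u * s * u) = u * s * u * f) : ¬ Fo D s f := fun k => by
  have fa := h.comm_fix (cD nD U.u2 hs) (ut_fix U sa) c1
  have ga : (s * f * s * f) • a = a := by simp only [mul_smul, sa, fa]
  have b := h.br_symm hs hf k
  have oc := h.Os_comm nD U
  have sq : ∀ x ∈ Os D u t a, x * x = 1 := fun x hx => h.sq x hx.1
  have R1 := h.Rv nD U hs sa rfl (.inr ⟨k, b ▸ h.br_mul hf hs⟩) inf_le_right
  have R2 := h.Rv nD U hf fa rfl (.inr ⟨k, h.br_mul hs hf⟩) inf_le_right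
  obtain ⟨-, i⟩ := (((R2.mul oc sq R1).mul oc sq R2).mul oc sq R1).2 t ⟨U.tD, U.tu, rfl⟩
  have z := sq_closure oc sq (mul_mem R2.1 R1.1)
  rw [← mul_assoc _ _ (t * _)] at z
  have V := h.ut_next nD U k ga
  have i1 := h.F1 nD U hs sa; have i2 := h.F1 nD U hf fa; have u2 := U.u2
  have c2 := cj_comm u2 c1
  have e : u * (s * f * s * f) * u = u * s * u * (u * f * u) * (u * s * u) * (u * f * u) := wd[u2]
  have e' : s * (u * s * u) * (f * (u * f * u) * (s * (u * s * u) * (f * (u * f * u)))) =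
      s * f * s * f * (u * (s * f * s * f) * u) := by
    rw [e]
    generalize u * s * u = s' at *
    generalize u * f * u = f' at *
    exact tr[[s, s', f, f']; i1 & i2 & c1 & c2]
  rw [z, mul_one, e', inv_eq_of_mul_self V.u2] at i
  exact h.ut_move (h.ut_next nD V U.tD U.tc) k ga (mem_C1.1 i)
theorem star1 (X : ∀ d ∈ D, ∃ e ∈ D, e * d ∈ D) (hs : s ∈ D) (sa : s • a = a) (hx : x ∈ D)
    (c1 : x * (u * s * u) = u * s * u * x) : s * x = x * s := by
  refine h.comm_of hs hx (fun o => ?_) (h.starF nD U hs sa hx c1)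
  have u2 := U.u2; have s2 := h.sq s hs; have x2 := h.sq x hx
  have hs' := cD nD u2 hs; have hx' := cD nD u2 hx
  have xa := h.comm_fix hs' (ut_fix U sa) c1
  have c2 := cj_comm u2 c1
  have i2 := h.F1 nD U hx xa
  have k : ∀ e ∈ D, e * s ∈ D → Od e x ∧ e * (u * x * u) = u * x * u * e := fun e he k => by
    have es := h.comm he hs k
    have es' := h.F2 nD U hs sa he k
    have o' : Od e x := h.od_of he hx (h.X_nc hs hx he o k) fun f =>
      h.starF nD U hs sa f tr[[e, x, u * s * u]; es' & c1] (h.fo_symm f hs (h.L4 hs hx he o es f))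
    refine ⟨o', h.comm_of he hx' (fun o => h.ne s hs (h.L1 he hx' o es.symm c2.symm (es ▸ k))) fun f => ?_⟩
    have f' := h.fo_symm he hx' f
    have b := h.br_symm hx' he f'
    exact h.starF nD U hx xa f' (by generalize u * x * u = x' at *; exact wd[b])
      (h.fo_symm f' hx (h.L4 hx he hx' o'.symm i2.symm f'))
  obtain ⟨e, he, es⟩ := X s hs
  have ec := h.comm he hs es
  have ea := h.comm_fix hs sa ec
  have e2 := h.sq e he
  obtain ⟨o1, c3⟩ := k e he es
  obtain ⟨o2, -⟩ := k _ es (by rwa [tt'' s2])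
  have i1 := h.F1 nD U hs sa; have i3 := h.F1 nD U he ea
  have i4 := h.F2 nD U hs sa he es
  have i5 := h.F2 nD U he ea hs (ec ▸ es)
  have c4 := cj_comm u2 c3
  have oc := h.Os_comm nD U
  have sq : ∀ x ∈ Os D u t a, x * x = 1 := fun x hx => h.sq x hx.1
  have ht : t ∈ Os D u t a := ⟨U.tD, U.tu, rfl⟩
  have ab := abel_closure oc
  set E := closure (Os D u t a)
  let J := (E ⊓ C1(u * s * u)) ⊔ (E ⊓ C1(x))
  have R1 := h.Rv nD U hs' (ut_fix U sa) (v := s * (u * s * u)) (J := J) wd[i1 & u2] (.inl rfl) le_sup_left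
  have R2 := h.Rv nD U (cD nD u2 he) (ut_fix U ea) (v := e * (u * e * u)) (J := J) wd[i3 & u2] (.inr ⟨hs', by
    rw [show u * s * u * (u * e * u) = u * (e * s) * u from wd[u2 & ec]]; exact cD nD u2 es⟩) le_sup_left
  have R3 := h.Rv nD U hx xa rfl (J := J) (.inl rfl) le_sup_right
  have od : ∀ y, Od y x → y * x * (u * (y * x) * u) = u * (y * x) * u * (y * x) →
      Odd (orderOf (y * x * (u * (y * x) * u))) := fun y o c => odd_mul_comm c o.2 (by
    have := orderOf_conj' u (y * x); rw [inv_eq_of_mul_self u2] at this; exact this ▸ o.2)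
  have m1 : u * (s * x) * u = u * s * u * (u * x * u) := wd[u2]
  have m2 : u * (e * x) * u = u * e * u * (u * x * u) := wd[u2]
  have m3 : u * (e * s * x) * u = u * e * u * (u * s * u) * (u * x * u) := wd[u2]
  have p1 := od s o; have p2 := od e o1; have p3 := od _ o2
  rw [m1] at p1; rw [m2] at p2; rw [m3] at p3
  have V := h.ut_next nD U hx xa
  have W := h.ut_next nD V U.tD U.tc
  have Θu : t * (x * (u * x * u) * t * (x * (u * x * u))) * u = u * (t * (x * (u * x * u) * t * (x * (u * x * u)))) := by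
    have := h.ut_comm U
    have vu : x * (u * x * u) * u = u * (x * (u * x * u)) := wd[i2 & u2]
    generalize x * (u * x * u) = v at *
    exact tr[[t, u, v]; this & vu]
  have Θv : t * (x * (u * x * u) * t * (x * (u * x * u))) * (x * (u * x * u)) =
      x * (u * x * u) * (t * (x * (u * x * u) * t * (x * (u * x * u)))) := by
    have := h.F1 nD V U.tD U.tc; have v2 := V.u2
    generalize x * (u * x * u) = v at *
    exact wd[this & v2]
  have o' : Od (u * x * u) (u * s * u) := (o.cj u2).symm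
  generalize hs0 : u * s * u = s' at *
  generalize he0 : u * e * u = e' at *
  generalize hx0 : u * x * u = x' at *
  have q1 := (R3.mul oc sq R1).odd oc sq ht (by
    rw [show s * s' * (x * x') = s * x * (s' * x') from tr[[s, s', x, x']; c1]]
    exact p1 tr[[s, s', x, x']; i1 & i2 & c1 & c2])
  have q2 := (R3.mul oc sq R2).odd oc sq ht (by
    rw [show e * e' * (x * x') = e * x * (e' * x') from tr[[e, e', x, x']; c4]]
    exact p2 tr[[e, e', x, x']; i3 & i2 & c3 & c4])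
  have q3 := ((R3.mul oc sq R1).mul oc sq R2).odd oc sq ht (by
    rw [show e * e' * (s * s' * (x * x')) = e * s * x * (e' * s' * x') from tr[[s, s', e, e', x, x']; c1 & c4 & i5]]
    exact p3 tr[[s, s', e, e', x, x']; i1 & i2 & i3 & i4 & i5 & c1 & c2 & c3 & c4])
  have a1 := comm_of_cent ab R1.1 R3.1; have a2 := comm_of_cent ab R2.1 R3.1; have a3 := comm_of_cent ab R1.1 R2.1
  have z1 := sq_closure oc sq R1.1; have z2 := sq_closure oc sq R2.1; have z3 := sq_closure oc sq R3.1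
  generalize t * (s * s' * t * (s * s')) = θ1 at *
  generalize t * (e * e' * t * (e * e')) = θ2 at *
  generalize t * (x * x' * t * (x * x')) = θ at *
  have q := mul_mem (mul_mem q1 q2) q3
  rw [show θ * θ1 * (θ * θ2) * (θ * θ1 * θ2) = θ from tr[[θ, θ1, θ2]; a1 & a2 & a3 & z1 & z2 & z3]] at q
  obtain ⟨j, hj, j', hj', e⟩ := (mem_sup_of_cent (cent_mono ab inf_le_left inf_le_left)).1 q
  have j1 := hs0 ▸ mem_C1.1 hj.2; have j2 := mem_C1.1 hj'.2; have j3 := comm_of_cent ab hj.1 hj'.1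
  have j4 := sq_closure oc sq hj.1; have j5 := sq_closure oc sq hj'.1
  have n1 : θ * x * θ = j * x * j := by rw [e]; exact tr[[j, j', x]; j2 & j3 & j5]
  have n2 : θ * x * θ * s' = s' * (θ * x * θ) := by rw [n1]; exact tr[[j, x, s']; j1 & c1]
  have n3 := h.F1 nD W hx xa
  have n4 : θ * x * θ * (θ * x' * θ) = x * x' := wd[Θv & z3]
  have n5 : θ * x' * θ = u * (θ * x * θ) * u := by rw [← hx0]; exact tr[[θ, u, x]; Θu]
  have hξ := cD nD z3 hx
  have hξ' := cD nD z3 hx'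
  have ξ2 := h.sq _ hξ; have x2' := h.sq _ hx'
  have n6 := h.F1 nD U hξ (ut_fix W xa)
  rw [← n5] at n6
  refine h.ut_move W hx xa ?_
  have := h.L1 (z := x * (θ * x * θ)) hx' hs' o' (by
    generalize θ * x * θ = ξ at *; generalize θ * x' * θ = ξ' at *; exact wd[n3 & n4 & n6 & i2 & ξ2 & x2 & x2'])
    tr[[x, θ * x * θ, s']; n2 & c1] (by
    rw [show x * (θ * x * θ) * x' = θ * x' * θ by
      generalize θ * x * θ = ξ at *; generalize θ * x' * θ = ξ' at *; exact wd[n3 & n4 & n6 & i2 & ξ2 & x2 & x2']]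
    exact hξ')
  exact wd[this & z3 & x2]
theorem star (X : ∀ d ∈ D, ∃ e ∈ D, e * d ∈ D) (hs : s ∈ D) (sa : s • a = a) (hx : x ∈ D) :
    x * s = s * x ↔ x * (u * s * u) = u * s * u * x := by
  have u2 := U.u2
  refine ⟨fun k => (h.star1 nD U X (cD nD u2 hs) (ut_fix U sa) hx ?_).symm, fun k => (h.star1 nD U X hs sa hx k).symm⟩
  rwa [show u * (u * s * u) * u = s from wd[u2]]
end RT
end H13
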