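import Cfsg.Agent.H13.RI3
/-! Root involutions with unique fixed points: the case of an even number of members at a point cannot occur in a
simple minimal configuration (`TM.false`). -/
set_option autoImplicit false
set_option linter.unusedSectionVars false
open Cfsg H18 Subgroup H9 H19 H21 MulAction
open H5 (exists_sqrt eq_of_sq_eq inverts_pow eq_one_of_odd odd_order_of_mem piNat_two_compl)

namespace H13
variable {G Ω : Type*} [Group G] [MulAction G Ω] {D O T T' Λ Λ' : Set G} {a b c p : Ω}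
variable {d e e' f g s t u v w w' x y z τ σ : G} {J M : Subgroup G}

def Oc (D : Set G) (s : G) (p : Ω) : Set G := {y | y ∈ D ∧ y * s = s * y ∧ y • p = s • p}
def Pt (D : Set G) (b : Ω) : Prop := ∃ d ∈ D, d • b = b
variable (Ω) in
structure TC (D : Set G) : Prop where
  t1 : ∀ y ∈ D, ∀ z ∈ D, ∀ b : Ω, y • b = b → z • b = b → y * z = z * y
  t3 : ∀ y ∈ closure D, y * y = 1 → (∀ b : Ω, Pt D b → y • b = b) ∨ ∃ z ∈ D, ∀ b : Ω, Pt D b → y • b = z • b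
variable (Ω) in
structure TM (D : Set G) : Prop extends RT Ω D where
  simple : IsSimpleGroup G
  nD : ∀ g : G, g ∈ normalizer D
  X : ∀ d ∈ D, ∃ e ∈ D, e * d ∈ D
  all : ∀ a : Ω, Pt D a
  ev : ∀ a : Ω, Even (Sw D a a).ncard
  two : Nontrivial Ω
  ih : ∀ M : Subgroup G, M ≠ ⊤ → ∀ d ∈ D, d ∈ M → ∀ e ∈ D, e ∈ M → e * d ∈ D → ∀ a : Ω, d • a = a → ∀ x ∈ D, x ∈ M →
    x • a ≠ a → TC Ω (D ∩ (M : Set G))
structure Cl (D T : Set G) (a p : Ω) : Prop where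
  sub : T ⊆ D
  fix : ∀ y ∈ T, y • a = a
  comm : ∀ y ∈ T, ∀ z ∈ T, y * z = z * y
  cl : ∀ y ∈ T, Oc D y p ⊆ T
def SpP (T : Set G) (p : Ω) : Set G := {x | ∃ y ∈ T, ∃ z ∈ T, z • p = y • p ∧ x = y * z}
structure MxC (D Λ : Set G) : Prop where
  sub : Λ ⊆ D
  comm : ∀ y ∈ Λ, ∀ z ∈ Λ, y * z = z * y
  max : ∀ d ∈ D, (∀ y ∈ Λ, d * y = y * d) → d ∈ Λ

theorem exists_MxC [Finite G] (h1 : T ⊆ D) (h2 : ∀ y ∈ T, ∀ z ∈ T, y * z = z * y) : ∃ Λ, T ⊆ Λ ∧ MxC D Λ := by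
  obtain ⟨Λ, k, m⟩ := (Set.toFinite {Λ : Set G | Λ ⊆ D ∧ ∀ y ∈ Λ, ∀ z ∈ Λ, y * z = z * y}).exists_le_maximal ⟨h1, h2⟩
  refine ⟨Λ, k, m.1.1, m.1.2, fun d hd c => m.2 (y := insert d Λ) ⟨Set.insert_subset hd m.1.1, ?_⟩
    (Set.subset_insert _ _) (Set.mem_insert _ _)⟩
  rintro y (rfl | hy) z (rfl | hz)
  exacts [rfl, c z hz, (c y hy).symm, m.1.2 y hy z hz]
theorem two_of_comm [Finite G] (h : ∀ x ∈ O, ∀ y ∈ O, x * y = y * x) (sq : ∀ x ∈ O, x * x = 1) :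
    PiGrp {2} (closure O) :=
  piGrp_of_elt fun x hx => piElt_of_pow_eq_one Nat.prime_two (pow_two x ▸ sq_closure h sq hx)
theorem mem_N_closure [Finite G] (h : ∀ s ∈ O, g * s * g⁻¹ ∈ closure O) : g ∈ N(closure O) :=
  mem_N_of_cj_le (by rw [cj_closure]; exact (closure_le _).2 (by rintro _ ⟨s, hs, rfl⟩; exact h s hs))
theorem ncard_fibres {α β : Type*} [Finite α] (A : Set α) (f : α → β) (k : ℕ)
    (h : ∀ a ∈ A, {x | x ∈ A ∧ f x = f a}.ncard = k) : A.ncard = (f '' A).ncard * k := by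
  classical
  lift A to Finset α using A.toFinite
  rw [← Finset.coe_image, Set.ncard_coe_finset, Set.ncard_coe_finset, Finset.card_eq_sum_card_image f,
    Finset.sum_const_nat]
  intro b hb
  obtain ⟨a, ha, rfl⟩ := Finset.mem_image.1 hb
  rw [← h a ha, ← Set.ncard_coe_finset]; simp
theorem odd_part {m n i j : ℕ} (hm : Odd m) (hn : Odd n) (e : m * 2 ^ i = n * 2 ^ j) : m = n :=
  Nat.dvd_antisymm ((Nat.coprime_two_right.2 hm).pow_right j |>.dvd_of_dvd_mul_right (e ▸ dvd_mul_right _ _))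
    ((Nat.coprime_two_right.2 hn).pow_right i |>.dvd_of_dvd_mul_right (e ▸ dvd_mul_right _ _))

namespace TM
variable [Finite G] (h : TM Ω D)
include h
theorem finite : Finite Ω := by
  choose f h1 h2 using h.all
  exact Finite.of_injective f fun a b e => h.uniq _ (h1 a) _ _ (h2 a) (e ▸ h2 b)
theorem faith (k : ∀ b : Ω, x • b = b) : x = 1 := by
  have := h.simple
  obtain ⟨a, b, n⟩ := h.two.1
  obtain ⟨d, hd, da⟩ := h.all a
  refine ((MonoidHom.normal_ker (toPermHom G Ω)).eq_bot_or_eq_top.resolve_right fun e => ?_).le (Equiv.ext k)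
  exact h.move hd da n.symm (Equiv.ext_iff.1 (MonoidHom.mem_ker.1 (e.ge (mem_top d))) b)
section
variable (hs : s ∈ D) (sa : s • a = a) (hτ : τ ∈ D) (tc : τ • c = c) (n : a ≠ c)
include hs sa hτ tc n
theorem Oc_map (hσ : σ ∈ Oc D τ a) : τ * σ * s * (τ * σ) ∈ Oc D s c := by
  by_cases e : τ * σ = 1
  · rw [e, one_mul, mul_one]; exact ⟨hs, rfl, rfl⟩
  have U := h.ut_mk hτ hσ.1 hσ.2.1.symm hσ.2.2.symm tc n e
  refine ⟨RT.cD h.nD U.u2 hs, (h.F1 h.nD U hs sa).symm, ?_⟩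
  rw [← tt' (h.sq s hs) (τ * σ * s * (τ * σ)), mul_smul, (h.ut_next h.nD U hs sa).ua]
theorem Oc_inj : Set.InjOn (fun σ => τ * σ * s * (τ * σ)) (Oc D τ a) := fun σ hσ σ' hσ' e => by
  refine (h.zo h.nD).K_inj (h.move hτ tc n).symm ⟨hs, sa⟩ ⟨hσ.1, hσ.2.2⟩ ⟨hσ'.1, hσ'.2.2⟩ ?_
  have i := hσ.2.1; have j := hσ'.2.1; have t2 := h.sq τ hτ
  calc σ * s * σ = τ * (τ * σ * s * (τ * σ)) * τ := tr[[τ, σ, s]; i & t2]
    _ = _ := by rw [show τ * σ * s * (τ * σ) = _ from e]; exact tr[[τ, σ', s]; j & t2]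
theorem Oc_bij : Set.BijOn (fun σ => τ * σ * s * (τ * σ)) (Oc D τ a) (Oc D s c) := by
  have m : Set.MapsTo _ _ _ := fun σ => h.Oc_map hs sa hτ tc n (σ := σ)
  have m' : Set.MapsTo _ _ _ := fun σ => h.Oc_map hτ tc hs sa n.symm (σ := σ)
  refine ⟨m, h.Oc_inj hs sa hτ tc n, fun y hy => ?_⟩
  obtain ⟨x, hx, e⟩ := (((Set.toFinite _).injOn_iff_bijOn_of_mapsTo (m.comp m')).1
    ((h.Oc_inj hs sa hτ tc n).comp (h.Oc_inj hτ tc hs sa n.symm) m')).surjOn hy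
  exact ⟨_, m' hx, e⟩
end
theorem Oc_E (hs : s ∈ D) (sa : s • a = a) (n : a ≠ c) (hy : y ∈ Oc D s c) (hx : x ∈ D) :
    x * s = s * x ↔ x * y = y * x := by
  obtain ⟨τ, hτ, tc⟩ := h.all c
  obtain ⟨σ, hσ, rfl⟩ := (h.Oc_bij hs sa hτ tc n).surjOn hy
  by_cases e : τ * σ = 1
  · simp [e]
  exact h.star h.nD (h.ut_mk hτ hσ.1 hσ.2.1.symm hσ.2.2.symm tc n e) h.X hs sa hx
theorem Oc_sub (hs : s ∈ D) (sa : s • a = a) (n : a ≠ c) (hy : y ∈ Oc D s c) : Oc D y c ⊆ Oc D s c := fun z hz =>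
  ⟨hz.1, (h.Oc_E hs sa n hy hz.1).2 hz.2.1, hz.2.2.trans hy.2.2⟩
theorem Oc_pow (hs : s ∈ D) (sa : s • a = a) (n : a ≠ c) : ∃ j, (Oc D s c).ncard = 2 ^ j := by
  obtain ⟨τ, hτ, tc⟩ := h.all c
  have τ2 := h.sq τ hτ
  let S := (τ * ·) '' Oc D τ a
  have sq : ∀ x ∈ S, x * x = 1 := by
    rintro _ ⟨σ, hσ, rfl⟩; have := h.sq σ hσ.1; have i := hσ.2.1; exact tr[[τ, σ]; τ2 & this & i]
  have pS := two_of_comm (O := S) (by
    rintro _ ⟨σ, hσ, rfl⟩ _ ⟨ρ, hρ, rfl⟩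
    have i := hσ.2.1; have j := hρ.2.1; have k := (h.Oc_E hτ tc n.symm hσ hρ.1).1 j
    exact tr[[τ, σ, ρ]; i & j & k]) sq
  have k : ∀ k ∈ closure S, ∀ y ∈ Oc D s c, k * y * k⁻¹ ∈ Oc D s c := fun k hk => by
    have m : ∀ x ∈ S, ∀ y ∈ Oc D s c, x * y * x ∈ Oc D s c := by
      rintro _ ⟨σ, hσ, rfl⟩ y hy
      exact h.Oc_sub hs sa n hy (h.Oc_map hy.1 (h.comm_fix hs sa hy.2.1) hτ tc n hσ)
    induction hk using closure_induction'' with
    | mem x hx => exact (inv_eq_of_mul_self (sq x hx)).symm ▸ m x hx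
    | inv_mem x hx => simpa [inv_eq_of_mul_self (sq x hx)] using m x hx
    | one => simp
    | mul x y _ _ hx hy => exact fun d hd => by simpa [mul_assoc] using hx _ (hy d hd)
  rw [show Oc D s c = {x | ∃ k ∈ closure S, k * s * k⁻¹ = x} from Set.ext fun y => ⟨fun hy =>
    let ⟨σ, hσ, e⟩ := (h.Oc_bij hs sa hτ tc n).surjOn hy
    ⟨_, subset_closure ⟨σ, hσ, rfl⟩, by rwa [inv_eq_of_mul_self (sq _ ⟨σ, hσ, rfl⟩)]⟩,
    fun ⟨k', hk, e⟩ => e ▸ k k' hk s ⟨hs, rfl, rfl⟩⟩, ncard_cls]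
  exact pS.relIndex.eq_pow relIndex_ne_zero
theorem Oc_ne (hs : s ∈ D) (sa : s • a = a) (n : a ≠ c) : ∃ y ∈ Oc D s c, y ≠ s := by
  have s2 := h.sq s hs
  obtain ⟨τ, hτ, tc⟩ := h.all c
  have m : s ∈ Sw D c (s • c) := ⟨hs, rfl⟩
  have e := h.ev c
  rw [← (h.zo h.nD).ncard_Sw (h.move hs sa n.symm).symm ⟨hτ, tc⟩ m, ← Set.ncard_sdiff_singleton_add_one m,
    Nat.even_add_one, Nat.not_even_iff_odd] at e
  obtain ⟨y, hy, k⟩ := exists_cent_of_odd e (two_zpowers s2) fun x hx y hy => by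
    rcases mem_zpowers_inv s2 hx with rfl | rfl
    · simpa using hy
    · refine ⟨(h.zo h.nD).back (by simpa only [swap_back s2 rfl] using Sw_conj (h.nD x) hy.1), fun e => hy.2 ?_⟩
      simpa [mul_inv_eq_iff_eq_mul] using e
  exact ⟨y, ⟨hy.1.1, mem_C1.1 (C_zpowers (x := s) ▸ k), hy.1.2⟩, hy.2⟩
theorem cl_of (h1 : Λ ⊆ D) (h2 : ∀ y ∈ Λ, y • a = a) (h3 : ∀ y ∈ Λ, ∀ z ∈ Λ, y * z = z * y) (n : a ≠ p) :
    Cl D {y | ∃ s ∈ Λ, y ∈ Oc D s p} a p :=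
  ⟨fun _ ⟨_, _, k⟩ => k.1, fun _ ⟨s, hs, k⟩ => h.comm_fix (h1 hs) (h2 s hs) k.2.1, fun y ⟨s, hs, k⟩ z ⟨r, hr, l⟩ =>
    (h.Oc_E (h1 hr) (h2 r hr) n l k.1).1 ((h.Oc_E (h1 hs) (h2 s hs) n k (h1 hr)).1 (h3 r hr s hs)).symm,
    fun y ⟨s, hs, k⟩ z hz => ⟨s, hs, h.Oc_sub (h1 hs) (h2 s hs) n k hz⟩⟩
theorem Sp_sq (k : Cl D T a p) (x : G) (hx : x ∈ SpP T p) : x * x = 1 := by
  obtain ⟨y, hy, z, hz, -, rfl⟩ := hx
  have i := k.comm y hy z hz; have y2 := h.sq y (k.sub hy); have z2 := h.sq z (k.sub hz)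
  exact tr[[y, z]; i & y2 & z2]
omit h in
theorem Sp_C (k : Cl D T a p) (hy : y ∈ T) (hx : x ∈ SpP T p) : y * x = x * y := by
  obtain ⟨r, hr, z, hz, -, rfl⟩ := hx
  exact (Commute.mul_right (k.comm y hy r hr) (k.comm y hy z hz)).eq
theorem Sp_two (k : Cl D T a p) : PiGrp {2} (closure (SpP T p)) := two_of_comm (by
  rintro _ ⟨r, hr, z, hz, -, rfl⟩ x hx
  exact (Commute.mul_left (Sp_C k hr hx) (Sp_C k hz hx)).eq) (h.Sp_sq k)
theorem Sp_cj (k : Cl D T a p) (k' : Cl D T' p a) (n : a ≠ p) (hu : u ∈ SpP T' a) (hy : y ∈ T) :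
    u * y * u ∈ Oc D y p := by
  obtain ⟨r, hr, z, hz, e, rfl⟩ := hu
  exact h.Oc_map (k.sub hy) (k.fix y hy) (k'.sub hr) (k'.fix r hr) n ⟨k'.sub hz, k'.comm z hz r hr, e⟩
theorem Sp_N (k : Cl D T a p) (k' : Cl D T' p a) (n : a ≠ p) : closure (SpP T' a) ≤ N(closure (SpP T p)) :=
  (closure_le _).2 fun u hu => mem_N_closure (by
    rintro _ ⟨y, hy, z, hz, e, rfl⟩
    have i := h.Sp_cj k k' n hu hy; have j := h.Sp_cj k k' n hu hz
    have u2 := h.Sp_sq k' u hu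
    exact subset_closure ⟨_, k.cl y hy i, _, k.cl z hz j, by rw [i.2.2, j.2.2, e], by
      rw [inv_eq_of_mul_self u2]; exact tr[[u, y, z]; u2]⟩)
theorem T_N (k : Cl D T a p) (k' : Cl D T' p a) (n : a ≠ p) (hy : y ∈ T) : y ∈ N(closure (SpP T p ∪ SpP T' a)) :=
  mem_N_closure (by
    rintro u (hu | hu)
    · rw [Sp_C k hy hu, mul_inv_cancel_right]; exact subset_closure (.inl hu)
    · have i := h.Sp_cj k k' n hu hy
      have u2 := h.Sp_sq k' u hu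
      rw [h.inv (k.sub hy), show y * u * y = y * (u * y * u) * u from tr[[u, y]; u2]]
      exact mul_mem (subset_closure (.inl ⟨y, hy, _, k.cl y hy i, i.2.2, rfl⟩)) (subset_closure (.inr hu)))
theorem proper (h1 : Λ ⊆ D) (h2 : ∀ y ∈ Λ, y • a = a) (h3 : ∀ y ∈ Λ, ∀ z ∈ Λ, y * z = z * y)
    (k1 : Λ' ⊆ D) (k2 : ∀ y ∈ Λ', y • p = p) (k3 : ∀ y ∈ Λ', ∀ z ∈ Λ', y * z = z * y) (n : a ≠ p) (hs : s ∈ Λ) :
    closure (Λ ∪ Λ') ≠ ⊤ := fun e => by
  have := h.simple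
  have k := h.cl_of h1 h2 h3 n; have k' := h.cl_of k1 k2 k3 n.symm
  have s1 : Λ ⊆ {y | ∃ s ∈ Λ, y ∈ Oc D s p} := fun y hy => ⟨y, hy, h1 hy, rfl, rfl⟩
  have s2 : Λ' ⊆ {y | ∃ s ∈ Λ', y ∈ Oc D s a} := fun y hy => ⟨y, hy, k1 hy, rfl, rfl⟩
  generalize {y | ∃ s ∈ Λ, y ∈ Oc D s p} = T at *
  generalize {y | ∃ s ∈ Λ', y ∈ Oc D s a} = T' at *
  have pQ := (h.Sp_two k).sup_norm' (h.Sp_two k') (h.Sp_N k k' n)
  rw [← Subgroup.closure_union] at pQ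
  rcases (norm_top_iff.1 (e.ge.trans ((closure_le _).2 (Set.union_subset (fun y hy => h.T_N k k' n (s1 hy))
    fun y hy => Set.union_comm (SpP T p) _ ▸ h.T_N k' k n.symm (s2 hy))))).eq_bot_or_eq_top with i | i
  · obtain ⟨y, hy, ne⟩ := h.Oc_ne (h1 hs) (h2 s hs) n
    have := eq_one_of_eq_bot i (subset_closure (.inl ⟨s, s1 hs, y, k.cl s (s1 hs) hy, hy.2.2, rfl⟩))
    have s2 := h.sq s (h1 hs)
    exact ne wd[this & s2]
  · obtain ⟨x, hx, xp⟩ := h.all p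
    exact RI.nod_of_two (i ▸ pQ) (h.sq x hx) (mem_top x) (mem_top s) (h.od_ne hx xp (h1 hs) (h2 s hs) n.symm)
theorem fixlem (U : Ut D u t a c) (hs : s ∈ D) (sa : s • a = a) (up : u • p = p) : (s * (u * s * u)) • p = p := by
  have V := h.ut_next h.nD U hs sa
  by_contra m
  have pa : a ≠ p := fun e => m (by rw [← e, mul_smul, RT.ut_fix U sa, sa])
  have pc : p ≠ c := fun e => m (e ▸ V.ua)
  obtain ⟨τ, hτ, tp⟩ := h.all p
  have U' : Ut D u t p c := ⟨U.tD, U.tu, U.u2, U.u1, up, U.tc, pc⟩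
  obtain ⟨e, he, es⟩ := h.X s hs
  have ec := h.comm he hs es
  have ea := h.comm_fix hs sa ec
  have i1 := h.F1 h.nD U hs sa; have i2 := h.F2 h.nD U hs sa he es; have i3 := h.F1 h.nD U' hτ tp
  have hs' := RT.cD h.nD U.u2 hs; have hτ' := RT.cD h.nD U.u2 hτ
  have pr := h.proper (Λ := {s, u * s * u, e}) (Λ' := {τ, u * τ * u}) (s := s) (by simp [Set.subset_def, *])
    (by simp [sa, ea, RT.ut_fix U sa]) (by simp [ec, i1, i2]) (by simp [Set.subset_def, *])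
    (by simp [tp, RT.ut_fix U' tp]) (by simp [i3]) pa (by simp)
  set M := closure ({s, u * s * u, e} ∪ {τ, u * τ * u} : Set G)
  have m1 : s ∈ M := subset_closure (by simp)
  have m2 : u * s * u ∈ M := subset_closure (by simp)
  have m3 : τ ∈ M := subset_closure (by simp)
  have m4 : u * τ * u ∈ M := subset_closure (by simp)
  have u2 := U.u2; have s2 := h.sq s hs
  have hx := h.cnj s hs τ hτ
  have xp : (s * τ * s) • s • p = s • p := by simpa [h.inv hs] using conj_smul_fix tp s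
  obtain ⟨g, hg, -, gu, gM⟩ := h.mid_comm (h.nD u) u2 hx (h.od_ne hx xp (RT.cD h.nD u2 hx) (b := u • s • p)
    (by simpa [inv_eq_of_mul_self u2] using conj_smul_fix xp u) fun e => m (by
      rw [mul_smul, mul_smul, mul_smul, up, ← e, ← mul_smul, s2, one_smul]))
  replace gM : g ∈ M := (closure_le _).2 (Set.pair_subset (mul_mem (mul_mem m1 m3) m1) (by
    rw [show u * (s * τ * s) * u = u * s * u * (u * τ * u) * (u * s * u) from tr[[u, s, τ]; u2]]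
    exact mul_mem (mul_mem m2 m4) m2)) gM
  rcases (h.ih M pr s hs m1 e he (subset_closure (by simp)) es a sa τ hτ m3 (h.move hτ tp pa)).t3 _
    (mul_mem (subset_closure ⟨hs, m1⟩) (subset_closure ⟨hs', m2⟩)) V.u2 with k | ⟨z, hz, k⟩
  · exact m (k p ⟨τ, ⟨hτ, m3⟩, tp⟩)
  · exact h.notD U.ne ((k a ⟨s, ⟨hs, m1⟩, sa⟩).symm.trans (by rw [mul_smul, RT.ut_fix U sa, sa]))
      ((k c ⟨g, ⟨hg, gM⟩, h.ut_cen h.nD U gu⟩).symm.trans V.ua) hz.1
section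
variable (m : MxC D Λ) (ht : t ∈ Λ) (he : e ∈ Λ) (et : e * t ∈ D) (tc : t • c = c)
include m ht tc
theorem Mx_fix (hy : y ∈ Λ) : y • c = c := h.comm_fix (m.sub ht) tc (m.comm y hy t ht)
theorem Mx_Oc (hy : y ∈ Λ) (n : c ≠ p) : Oc D y p ⊆ Λ := fun z hz => m.max z hz.1 fun x hx =>
  ((h.Oc_E (m.sub hy) (h.Mx_fix m ht tc hy) n hz (m.sub hx)).1 (m.comm x hx y hy)).symm
include he et
theorem Mx_TC (hσ : σ ∈ D) (σp : σ • p = p) (n : c ≠ p) : TC Ω (D ∩ (closure (Λ ∪ {σ}) : Set G)) :=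
  h.ih _ (h.proper m.sub (fun _ => h.Mx_fix m ht tc) m.comm (by simpa) (by simpa) (by simp) n ht) t (m.sub ht)
    (subset_closure (.inl ht)) e (m.sub he) (subset_closure (.inl he)) et c tc σ hσ (subset_closure (.inr rfl))
    (h.move hσ σp n)
theorem Mx_mem (hσ : σ ∈ D) (σp : σ • p = p) (n : c ≠ p) (hd : d ∈ D ∩ (closure (Λ ∪ {σ}) : Set G)) (dc : d • c = c) :
    d ∈ Λ := m.max d hd.1 fun y hy => (h.Mx_TC m ht he et tc hσ σp n).t1 d hd y ⟨m.sub hy, subset_closure (.inl hy)⟩ c dc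
      (h.Mx_fix m ht tc hy)
theorem Mx_act (n : c ≠ p) (hy : y ∈ closure Λ) : y • p = p ∨ ∃ d ∈ Λ, d • p = y • p := by
  obtain ⟨σ, hσ, σp⟩ := h.all p
  have P : Pt (D ∩ (closure (Λ ∪ {σ}) : Set G)) p := ⟨σ, ⟨hσ, subset_closure (.inr rfl)⟩, σp⟩
  refine ((h.Mx_TC m ht he et tc hσ σp n).t3 y (Subgroup.closure_mono (fun x hx =>
    (⟨m.sub hx, subset_closure (.inl hx)⟩ : x ∈ D ∩ (closure (Λ ∪ {σ}) : Set G))) hy)
    (sq_closure m.comm (fun x hx => h.sq x (m.sub hx)) hy)).imp (fun k => k p P) fun ⟨z, hz, k⟩ =>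
    ⟨z, h.Mx_mem m ht he et tc hσ σp n hz ?_, (k p P).symm⟩
  exact (k c ⟨t, ⟨m.sub ht, subset_closure (.inl ht)⟩, tc⟩).symm.trans
    ((closure_le St(c)).2 (fun x hx => h.Mx_fix m ht tc hx) hy)
theorem Mx_count (n : c ≠ p) : Odd ((· • p) '' Λ).ncard ∧ ∃ j, Λ.ncard = ((· • p) '' Λ).ncard * 2 ^ j := by
  have := h.finite
  obtain ⟨σ, hσ, σp⟩ := h.all p
  have np : p ∉ (· • p) '' Λ := fun ⟨y, hy, e⟩ => h.move (m.sub hy) (h.Mx_fix m ht tc hy) n.symm e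
  constructor
  · have o : orbit (closure Λ) p = insert p ((· • p) '' Λ) := Set.ext fun q => ⟨fun ⟨y, e⟩ =>
      (h.Mx_act m ht he et tc n y.2).imp (fun k => e.symm.trans k) fun ⟨d, hd, k⟩ => ⟨d, hd, k.trans e⟩, by
        rintro (rfl | ⟨y, hy, rfl⟩)
        exacts [mem_orbit_self _, ⟨⟨y, subset_closure hy⟩, rfl⟩]⟩
    obtain ⟨j, e⟩ := (two_of_comm m.comm fun x hx => h.sq x (m.sub hx)).relIndex (A := St(p)) |>.eq_pow relIndex_ne_zero
    have i : (St(p) : Subgroup G).relIndex (closure Λ) = _ := index_stabilizer (closure Λ) p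
    rw [o, Set.ncard_insert_of_notMem np, e] at i
    have := (Set.ncard_pos).2 (⟨_, t, ht, rfl⟩ : ((· • p) '' Λ).Nonempty)
    rcases j with _ | j
    · omega
    · exact ⟨2 ^ j - 1, by have := Nat.one_le_two_pow (n := j); omega⟩
  · obtain ⟨j, e⟩ := h.Oc_pow hσ σp n.symm
    refine ⟨j, ncard_fibres _ _ _ fun y hy => ?_⟩
    rw [← e, ← (h.Oc_bij hσ σp (m.sub hy) (h.Mx_fix m ht tc hy) n.symm).ncard_eq]
    congr 1
    exact Set.ext fun z => ⟨fun k => ⟨m.sub k.1, m.comm z k.1 y hy, k.2⟩, fun k => ⟨h.Mx_Oc m ht tc hy n k, k.2.2⟩⟩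
end
theorem false : False := by
  have := h.finite
  obtain ⟨u, ⟨t, a, c, U⟩, mx⟩ := Set.exists_max_image {u : G | ∃ t, ∃ a c : Ω, Ut D u t a c}
    (fun u => {p : Ω | u • p = p}.ncard) (Set.toFinite _) (by
    obtain ⟨a, p, n⟩ := h.two.1
    obtain ⟨d, hd, da⟩ := h.all a
    obtain ⟨y, hy, ne⟩ := h.Oc_ne hd da n
    have := h.sq d hd
    exact ⟨_, d, p, a, h.ut_mk hd hy.1 hy.2.1.symm hy.2.2.symm da n.symm fun e => ne wd[e & this]⟩)
  obtain ⟨c', hc'⟩ : ∃ c' : Ω, u • c' ≠ c' := by by_contra! k; exact U.u1 (h.faith k)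
  have key : ∀ {u' t' : G} {a' b' : Ω}, Ut D u' t' a' b' → (∀ p : Ω, u • p = p → u' • p = p) → u' • c' ≠ c' :=
    fun U' k e => hc' ((Set.eq_of_subset_of_ncard_le (s := {p : Ω | u • p = p}) k (mx _ ⟨_, _, _, U'⟩)).ge e)
  have cc' : c ≠ c' := fun e => hc' (e ▸ h.ut_cen h.nD U rfl)
  obtain ⟨e, he, et⟩ := h.X t U.tD
  have tu := h.ut_comm U; have t2 := h.sq t U.tD; have u2 := U.u2
  have o1 : t * u ∈ Oc D t a := ⟨U.tu, tr[[t, u]; tu], by rw [mul_smul, U.ua]⟩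
  have c1 := h.comm he U.tD et
  have c2 := (h.Oc_E U.tD U.tc U.ne.symm o1 he).1 c1
  obtain ⟨Λ, sub, m⟩ := exists_MxC (D := D) (T := {t, t * u, e}) (by simp [Set.subset_def, U.tD, U.tu, he])
    (by simp [c1, c2, o1.2.1])
  have ht : t ∈ Λ := sub (by simp)
  have htu : t * u ∈ Λ := sub (by simp)
  have he' : e ∈ Λ := sub (by simp)
  obtain ⟨o2, j, e1⟩ := h.Mx_count m ht he' et U.tc U.ne.symm
  obtain ⟨o3, j', e2⟩ := h.Mx_count m ht he' et U.tc cc'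
  have cnt := odd_part o2 o3 (e1.symm.trans e2)
  obtain ⟨s, hs, sa⟩ := h.all a
  have TX := h.Mx_TC m ht he' et U.tc hs sa U.ne.symm
  set X := closure (Λ ∪ {s})
  have ΛX : ∀ y ∈ Λ, y ∈ D ∩ (X : Set G) := fun y hy => ⟨m.sub hy, subset_closure (.inl hy)⟩
  have sX : s ∈ D ∩ (X : Set G) := ⟨hs, subset_closure (.inr rfl)⟩
  have uX : u ∈ X := tt' t2 u ▸ mul_mem (ΛX t ht).2 (ΛX _ htu).2
  obtain ⟨w, hw, ew, wX⟩ := h.mid U.tD hs (h.od_ne U.tD U.tc hs sa U.ne.symm).2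
  replace wX : w ∈ X := (closure_le _).2 (Set.pair_subset (ΛX t ht).2 sX.2) wX
  have w2 := h.sq w hw
  have wc : w • c = a := h.uniq s hs _ _ (by simpa [h.inv hw, ew] using conj_smul_fix U.tc w) sa
  have wa := swap_back w2 wc
  have L : ∀ y ∈ Λ, w * y * w ∈ D ∩ (X : Set G) ∧ (w * y * w) • a = a := fun y hy =>
    ⟨⟨h.cnj w hw y (m.sub hy), mul_mem (mul_mem wX (ΛX y hy).2) wX⟩, by
      rw [mul_smul, mul_smul, wa, h.Mx_fix m ht U.tc hy, wc]⟩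
  have Q : ∀ y ∈ D, y • a = a → ∀ v, v = y * (u * y * u) → v * t * v ∈ Λ ∧ (v * t * v) • a = t • a ∧
      Ut D (t * (v * t * v)) t a c ∧ ∀ p : Ω, u • p = p → (t * (v * t * v)) • p = p := fun y hy ya v hv => by
    have V := hv ▸ h.ut_next h.nD U hy ya
    have W := h.ut_next h.nD V U.tD U.tc
    have i : (v * t * v) • a = t • a := by rw [← tt' t2 (v * t * v), mul_smul, W.ua]
    exact ⟨h.Mx_Oc m ht U.tc ht U.ne.symm ⟨RT.cD h.nD V.u2 U.tD, (h.F1 h.nD V U.tD U.tc).symm, i⟩, i, W,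
      fun p up => h.fixlem V U.tD U.tc (hv ▸ h.fixlem U hy ya up)⟩
  have inj : ∀ y ∈ D ∩ (X : Set G), y • a = a → ∀ z ∈ D ∩ (X : Set G), z • a = a → ∀ v, v = y * (u * y * u) →
      ∀ v', v' = z * (u * z * u) → (t * (v * t * v)) • c' = (t * (v' * t * v')) • c' → y • c = z • c := by
    intro y hy ya z hz za v hv v' hv' k
    obtain ⟨i1, i2, -, i3⟩ := Q y hy.1 ya v hv
    obtain ⟨j1, j2, -, j3⟩ := Q z hz.1 za v' hv'
    have τ2 := h.sq _ (m.sub i1)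
    have tτ := m.comm _ i1 t ht
    have fx : ∀ p : Ω, (t * (v * t * v)) • p = (t * (v' * t * v')) • p → (v * t * v * (v' * t * v')) • p = p :=
      fun p k => by
        rw [mul_smul t, mul_smul t, smul_left_cancel_iff] at k
        rw [mul_smul, ← k, ← mul_smul, τ2, one_smul]
    have eq : v * t * v * (v' * t * v') = 1 := by_contra fun ne => key (h.ut_mk (m.sub i1) (m.sub j1)
      (m.comm _ i1 _ j1) (i2.trans j2.symm) (h.Mx_fix m ht U.tc i1) U.ne ne)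
      (fun p up => fx p ((i3 p up).trans (j3 p up).symm)) (fx c' k)
    by_contra ne
    have yz := TX.t1 y hy z hz a ya za
    have y2 := h.sq y hy.1; have z2 := h.sq z hz.1
    have Pa : Pt (D ∩ (X : Set G)) a := ⟨s, sX, sa⟩
    have Pc : Pt (D ∩ (X : Set G)) c := ⟨t, ΛX t ht, U.tc⟩
    obtain ⟨d, hd, k⟩ := (TX.t3 (y * z) (mul_mem (subset_closure hy) (subset_closure hz))
      tr[[y, z]; yz & y2 & z2]).resolve_left fun k => ne (by
        rw [← tt' y2 z, mul_smul y, k c Pc])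
    have da : d • a = a := by rw [← k a Pa, mul_smul, za, ya]
    have d2 := h.sq d hd.1
    have cX : ∀ y ∈ D ∩ (X : Set G), u * y * u ∈ D ∩ (X : Set G) := fun y hy =>
      ⟨RT.cD h.nD u2 hy.1, mul_mem (mul_mem uX hy.2) uX⟩
    have βc : (d * (y * z)) • c = c := by rw [mul_smul, k c Pc, ← mul_smul, d2, one_smul]
    have βX : d * (y * z) ∈ X := mul_mem hd.2 (mul_mem hy.2 hz.2)
    have βt : ∀ r ∈ Λ, d * (y * z) * r * (d * (y * z))⁻¹ ∈ (C1(t) : Subgroup G) := fun r hr => mem_C1.2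
      (TX.t1 _ ⟨nDc (h.nD _) (m.sub hr), mul_mem (mul_mem βX (ΛX r hr).2) (inv_mem βX)⟩ t (ΛX t ht) c
        (by simpa [βc] using conj_smul_fix (h.Mx_fix m ht U.tc hr) (d * (y * z))) U.tc)
    have q := mul_mem (mul_mem (βt t ht) (βt _ htu)) (mem_C1.2 tu.symm)
    have a1 := TX.t1 d hd y hy a da ya; have a2 := TX.t1 d hd z hz a da za
    have b := fun x hx xa y hy ya => TX.t1 x hx _ (cX y hy) a xa (RT.ut_fix U ya)
    have b' := fun x hx xa y hy ya => TX.t1 _ (cX x hx) _ (cX y hy) a (RT.ut_fix U xa) (RT.ut_fix U ya)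
    have b1 := b y hy ya d hd da; have b2 := b z hz za d hd da; have b3 := b z hz za y hy ya
    have b4 := b' d hd da y hy ya; have b5 := b' d hd da z hz za; have b6 := b' y hy ya z hz za
    rw [conj_mul, tt' t2, mul_inv_rev, mul_inv_rev, h.inv hd.1, h.inv hy.1, h.inv hz.1,
      show d * (y * z) * u * (z * y * d) * u = d * (y * z) * (u * z * u * (u * y * u) * (u * d * u)) from
        tr[[d, y, z, u]; u2], show d * (y * z) * (u * z * u * (u * y * u) * (u * d * u)) =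
        d * (u * d * u) * (y * (u * y * u) * (z * (u * z * u))) from
        tr[[d, y, z, u * d * u, u * y * u, u * z * u]; b1 & b2 & b3 & b4 & b5 & b6], ← hv, ← hv'] at q
    have v2 : v * v = 1 := hv ▸ (h.ut_next h.nD U hy.1 ya).u2
    have v2' : v' * v' = 1 := hv' ▸ (h.ut_next h.nD U hz.1 za).u2
    have q' : v * v' ∈ (C1(t) : Subgroup G) := mem_C1.2 wd[eq & v2 & v2' & t2]
    exact h.move U.tD U.tc U.ne (h.ut_cen h.nD (h.ut_next h.nD U hd.1 da)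
      (mem_C1.1 ((mul_mem_cancel_right q').1 q)).symm)
  choose! f f1 f2 using fun q (k : q ∈ (· • a) '' Λ) => k
  have := Set.ncard_le_ncard_of_injOn (s := (· • a) '' Λ) (t := (· • c') '' Λ \ {t • c'})
    (fun q => (t * (w * f q * w * (u * (w * f q * w) * u) * t * (w * f q * w * (u * (w * f q * w) * u)))) • c')
    (fun q hq => by
      obtain ⟨i1, -, W, i3⟩ := Q _ (L _ (f1 q hq)).1.1 (L _ (f1 q hq)).2 _ rfl
      refine ⟨(h.Mx_act m ht he' et U.tc cc' (mul_mem (subset_closure ht) (subset_closure i1))).resolve_left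
        (key W i3), fun e => h.move (m.sub i1) (h.Mx_fix m ht U.tc i1) cc'.symm ?_⟩
      rwa [Set.mem_singleton_iff, mul_smul, smul_left_cancel_iff] at e)
    (fun q hq r hr e => by
      have := inj _ (L _ (f1 q hq)).1 (L _ (f1 q hq)).2 _ (L _ (f1 r hr)).1 (L _ (f1 r hr)).2 _ rfl _ rfl e
      rw [mul_smul, mul_smul, mul_smul, mul_smul, smul_left_cancel_iff, wc] at this
      exact (f2 q hq).symm.trans (this.trans (f2 r hr)))
  have i := Set.ncard_sdiff_singleton_add_one (s := (· • c') '' Λ) (a := t • c') ⟨t, ht, rfl⟩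
  omega
end TM
end H13
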