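import Cfsg.Agent.H13.RI4
import Cfsg.Agent.H19.ZDB
import Cfsg.Agent.H9.Bender
/-! Root involutions with unique fixed points and a four-group in `D ∪ 1`: `tt` (members at one point commute, every
involution of `⟨D⟩` acts trivially or like a member), `RT.bender`, `bender_of_discon` (disconnected commuting graph). -/
set_option autoImplicit false
set_option linter.unusedSectionVars false
open Cfsg H18 Subgroup H9 H19 H21 MulAction Relation
open H5 (exists_sqrt eq_of_sq_eq inverts_pow eq_one_of_odd odd_order_of_mem piNat_two_compl even_of_inv)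

namespace H13
universe u v

def TT (G : Type u) [Group G] : Prop := ∀ (Ω : Type v) [MulAction G Ω] (D : Set G) (a : Ω) (d e x : G), RT Ω D →
  d ∈ D → e ∈ D → e * d ∈ D → d • a = a → x ∈ D → x • a ≠ a → TC Ω D

section
variable {G : Type u} {Ω : Type v} [Group G] [MulAction G Ω] {D : Set G} {M N : Subgroup G} {a b : Ω} {d e n x y : G}

theorem RI.sub (h : RI D) (M : Subgroup G) : RI (M.subtype ⁻¹' D) :=
  ⟨fun x hx => Subtype.ext (h.sq x hx), fun x hx e => h.ne x hx (congrArg Subtype.val e),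
    fun x hx y hy => h.cnj x hx y hy, fun x hx y hy => (h.pair x hx y hy).imp Subtype.ext
      (Or.imp_left fun o => by rwa [← Subgroup.orderOf_coe])⟩
theorem RI.map {Q : Type*} [Group Q] (h : RI D) (f : G →* Q) (hN : ∀ d ∈ D, f d ≠ 1) : RI (f '' D) := by
  refine ⟨?_, ?_, ?_, ?_⟩
  · rintro _ ⟨y, hy, rfl⟩; rw [← map_mul, h.sq y hy, map_one]
  · rintro _ ⟨y, hy, rfl⟩; exact hN y hy
  · rintro _ ⟨y, hy, rfl⟩ _ ⟨z, hz, rfl⟩; exact ⟨_, h.cnj y hy z hz, by simp⟩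
  · rintro _ ⟨y, hy, rfl⟩ _ ⟨z, hz, rfl⟩
    exact (h.pair y hy z hz).imp (fun c => by rw [← map_mul, c, map_mul]) (Or.imp
      (fun o => map_mul f y z ▸ o.of_dvd_nat (orderOf_map_dvd f _)) fun k => ⟨_, k, by simp⟩)
theorem TT.sub (ih : TT.{u, v} M) (h : RT Ω D) (hd : d ∈ D) (dM : d ∈ M) (he : e ∈ D) (eM : e ∈ M) (ed : e * d ∈ D)
    (da : d • a = a) (hx : x ∈ D) (xM : x ∈ M) (xa : x • a ≠ a) : TC Ω (D ∩ (M : Set G)) := by
  have k := ih Ω (M.subtype ⁻¹' D) a ⟨d, dM⟩ ⟨e, eM⟩ ⟨x, xM⟩ ⟨h.toRI.sub M, fun x hx => h.fix x hx,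
    fun x hx => h.uniq x hx⟩ hd he ed da hx xa
  have P : ∀ b : Ω, Pt (D ∩ (M : Set G)) b → Pt (M.subtype ⁻¹' D) b := fun b ⟨y, hy, e⟩ => ⟨⟨y, hy.2⟩, hy.1, e⟩
  refine ⟨fun y hy z hz b yb zb => congrArg Subtype.val (k.t1 ⟨y, hy.2⟩ hy.1 ⟨z, hz.2⟩ hz.1 b yb zb), fun v hv v2 => ?_⟩
  rw [show D ∩ (M : Set G) = M.subtype '' (M.subtype ⁻¹' D) by rw [Set.image_preimage_eq_inter_range]; simp,
    ← MonoidHom.map_closure] at hv
  obtain ⟨v, hv, rfl⟩ := hv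
  exact (k.t3 v hv (Subtype.ext v2)).imp (fun i b hb => i b (P b hb)) fun ⟨z, hz, i⟩ =>
    ⟨z, ⟨hz, z.2⟩, fun b hb => i b (P b hb)⟩
variable [Finite G]
theorem RT.rc (h : RT Ω D) (nD : ∀ g : G, g ∈ normalizer D) (hd : d ∈ D) (da : d • a = a) (hx : x ∈ D) (xa : x • a ≠ a) :
    RC D := ⟨h.toRI, fun y hy z hz => by
  obtain ⟨g, -, rfl⟩ := (h.zo nD).conj ⟨hd, da⟩ hx xa hy
  obtain ⟨k, -, rfl⟩ := (h.zo nD).conj ⟨hd, da⟩ hx xa hz
  exact ⟨k * g⁻¹, nD _, by group⟩, fun y hy => by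
  by_cases e : y • a = a
  exacts [⟨x, hx, h.od_move hy e hx xa⟩, ⟨d, hd, (h.od_move hd da hy e).symm⟩]⟩
theorem RT.nml_fix [N.Normal] (h : RT Ω D) (nD : ∀ g : G, g ∈ normalizer D) (X : ∀ d ∈ D, ∃ e ∈ D, e * d ∈ D)
    (all : ∀ b : Ω, Pt D b) (hN : ∀ d ∈ D, d ∉ N) : ∀ n ∈ N, ∀ b : Ω, n • b = b := fun n hn b => by
  obtain ⟨y, hy, yb⟩ := all b
  obtain ⟨e, he, k⟩ := X y hy
  have := h.nml_comm hN hy he k (nDc (nD n) hy) (by
    rw [show y * (n * y * n⁻¹) = y * n * y⁻¹ * n⁻¹ by rw [h.inv hy]; group]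
    exact mul_mem (‹N.Normal›.conj_mem n hn y) (inv_mem hn))
  exact h.uniq _ (nDc (nD n) hy) _ _ (conj_smul_fix yb n) (h.comm_fix hy yb this.symm)
theorem RT.quo [N.Normal] (h : RT Ω D) (hK : ∀ n ∈ N, ∀ b : Ω, n • b = b) (hN : ∀ d ∈ D, d ∉ N) :
    letI := qact N hK; RT Ω (QuotientGroup.mk' N '' D) :=
  letI := qact N hK
  ⟨h.toRI.map _ fun d hd e => hN d hd ((QuotientGroup.eq_one_iff d).1 e), by rintro _ ⟨y, hy, rfl⟩; exact h.fix y hy,
    by rintro _ ⟨y, hy, rfl⟩; exact h.uniq y hy⟩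
theorem TT.quo [N.Normal] (ih : TT.{u, v} (G ⧸ N)) (h : RT Ω D) (X : ∀ d ∈ D, ∃ e ∈ D, e * d ∈ D)
    (hK : ∀ n ∈ N, ∀ b : Ω, n • b = b) (hN : ∀ d ∈ D, d ∉ N) (hd : d ∈ D) (he : e ∈ D) (ed : e * d ∈ D)
    (da : d • a = a) (hx : x ∈ D) (xa : x • a ≠ a) : TC Ω D := by
  letI := qact N hK
  have k := ih Ω _ a d e x (h.quo hK hN) ⟨d, hd, rfl⟩ ⟨e, he, rfl⟩ ⟨_, ed, rfl⟩ da ⟨x, hx, rfl⟩ xa
  have P : ∀ b : Ω, Pt D b → Pt (QuotientGroup.mk' N '' D) b := fun b ⟨y, hy, e⟩ => ⟨_, ⟨y, hy, rfl⟩, e⟩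
  refine ⟨fun y hy z hz b yb zb => ?_, fun v hv v2 => ?_⟩
  · have c := k.t1 _ ⟨y, hy, rfl⟩ _ ⟨z, hz, rfl⟩ b yb zb
    have y2 := (h.quo hK hN).sq _ ⟨y, hy, rfl⟩; have z2 := (h.quo hK hN).sq _ ⟨z, hz, rfl⟩
    have i : QuotientGroup.mk' N (y * z) * QuotientGroup.mk' N (y * z) = 1 := by rw [map_mul]; exact wd[c & y2 & z2]
    refine h.comm_of hy hz (fun o => h.od_nc hy hz o ?_) fun f => hN _ f ((QuotientGroup.eq_one_iff _).1 ?_)
    · obtain ⟨e, he, k⟩ := X y hy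
      exact h.nml_comm hN hy he k hz ((QuotientGroup.eq_one_iff _).1
        (eq_one_of_odd (o.2.of_dvd_nat (orderOf_map_dvd (QuotientGroup.mk' N) _)) i))
    · rwa [← map_mul, ← mul_assoc] at i
  · refine (k.t3 (QuotientGroup.mk' N v) (by
      rw [← MonoidHom.map_closure]; exact mem_map_of_mem _ hv)
      (by rw [← map_mul, v2, map_one])).imp (fun i b hb => i b (P b hb)) ?_
    rintro ⟨_, ⟨z, hz, rfl⟩, i⟩
    exact ⟨z, hz, fun b hb => i b (P b hb)⟩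
theorem faith_of_simple [IsSimpleGroup G] (xa : x • a ≠ a) (k : ∀ b : Ω, y • b = b) : y = 1 :=
  ((MonoidHom.normal_ker (toPermHom G Ω)).eq_bot_or_eq_top.resolve_right fun e =>
    xa (Equiv.ext_iff.1 (MonoidHom.mem_ker.1 (e.ge (mem_top x))) a)).le (Equiv.ext k)
theorem TT.core (ih : ∀ (G' : Type u) [Group G'] [Finite G'], Nat.card G' < Nat.card G → TT.{u, v} G') (h : RT Ω D)
    (gen : closure D = ⊤) (all : ∀ b : Ω, Pt D b) (hd : d ∈ D) (he : e ∈ D) (ed : e * d ∈ D) (da : d • a = a)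
    (hx : x ∈ D) (xa : x • a ≠ a) : TC Ω D := by
  have nD : ∀ g, g ∈ normalizer D := fun g => h.mem_nD (gen.ge (mem_top g))
  have rc := h.rc nD hd da hx xa
  have X := rc.X_all hd he ed
  by_cases s : IsSimpleGroup G
  swap
  · have : Nontrivial G := ⟨d, 1, h.ne d hd⟩
    obtain ⟨N, hN, n1, n2⟩ : ∃ N : Subgroup G, N.Normal ∧ N ≠ ⊥ ∧ N ≠ ⊤ := by
      by_contra! k; exact s ⟨fun N hN => or_iff_not_imp_left.2 (k N hN)⟩
    have k := ((rc.nml_cases gen hd he ed).resolve_left n2).2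
    exact (ih (G ⧸ N) (by
      rw [card_eq_card_quotient_mul_card_subgroup N]; exact lt_mul_of_one_lt_right Nat.card_pos (one_lt_card n1))).quo h X (h.nml_fix nD X all k) k hd he ed da hx xa
  have z := h.zo nD
  by_cases odd : ∀ b : Ω, Odd (Sw D b b).ncard
  swap
  · obtain ⟨b, ev⟩ := not_forall.1 odd
    refine (TM.false ⟨h, s, nD, X, all, fun c => ?_, ⟨_, _, xa⟩, fun M hM d hd dM e he eM ed a da x hx xM xa =>
      (ih M (card_lt_top hM)).sub h hd dM he eM ed da hx xM xa⟩).elim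
    by_cases n : b = c
    · exact n ▸ Nat.not_odd_iff_even.1 ev
    obtain ⟨y, hy, yb⟩ := all b
    obtain ⟨y', hy', yc⟩ := all c
    obtain ⟨w, hw, -⟩ := z.exists_swap ⟨hy, yb⟩ ⟨hy', yc⟩ n
    rw [← z.ncard_Sw (Ne.symm n) ⟨hy', yc⟩ (z.back hw), show Sw D c b = Sw D b c from Set.ext fun _ => ⟨z.back, z.back⟩,
      z.ncard_Sw n ⟨hy, yb⟩ hw]
    exact Nat.not_odd_iff_even.1 ev
  have mv : ∀ b : Ω, ∃ y ∈ D, y • b ≠ b := fun b => by
    by_cases n : b = a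
    exacts [⟨x, hx, n ▸ xa⟩, ⟨d, hd, h.move hd da n⟩]
  have inv : ∀ y : G, y * y = 1 → y ≠ 1 → y ∈ D := fun y y2 y1 => by
    obtain ⟨f, hf, fy, -⟩ := z.cover nD odd y2 a
    obtain ⟨b, fb⟩ := h.fix f hf
    have yb := h.comm_fix hf fb (mem_C1.1 fy).symm
    by_cases uq : ∀ c : Ω, y • c = c → c = b
    · obtain ⟨w, -, wb⟩ := mv b
      obtain ⟨t, ht, k⟩ := z.uv nD odd y2 yb uq wb
      have := faith_of_simple xa k; have t2 := h.sq t ht
      exact (show t = y from wd[this & y2]) ▸ ht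
    · push Not at uq
      obtain ⟨c, yc, n⟩ := uq
      exact absurd (faith_of_simple xa (z.crit noU nD odd (gen.ge (mem_top y)) y2 n yc yb)) y1
  have zd : ZD Ω D := ⟨h.sq, h.ne, h.cnj, h.fix, h.uniq, fun y hy w hw c n => by
    have y2 := h.sq y hy; have w2 := h.sq w hw
    exact inv _ wd[c & y2 & w2] fun e => n wd[e & w2]⟩
  refine ⟨fun y hy w hw b yb wb => ?_, fun y _ y2 => ?_⟩
  · obtain ⟨e, he, k⟩ := X y hy
    obtain ⟨r, -, rb⟩ := mv b
    have c := h.comm he hy k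
    have := (Bd.mk (fun x _ => inv x) ⟨e, mem_top _, y, mem_top _, ⟨he, h.comm_fix hy yb c⟩, ⟨hy, yb⟩, h.ne_of_mul he k, c⟩
      (fun l => rb (l (mem_top r))) : H19.Bd D ⊤ b).comm zd ⟨mem_top _, yb⟩ (h.sq y hy) ⟨mem_top _, wb⟩
      (piElt_of_pow_eq_one Nat.prime_two (pow_two w ▸ h.sq w hw))
    rw [O_eq_bot_of_simple (by simpa using even_of_inv (mem_top y) (h.sq y hy) (h.ne y hy)), mem_bot] at this
    exact (commutatorElement_eq_one_iff_commute.1 this).eq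
  · by_cases y1 : y = 1
    · exact .inl fun b _ => by rw [y1, one_smul]
    · exact .inr ⟨y, inv y y2 y1, fun _ _ => rfl⟩
end

theorem tt (G : Type u) [Group G] [Finite G] : TT.{u, v} G := by
  induction hn : Nat.card G using Nat.strong_induction_on generalizing G with | _ n ih =>
  subst hn
  intro Ω _ D a d e x h hd he ed da hx xa
  by_cases gen : closure D = ⊤
  swap
  · have := (ih _ (card_lt_top gen) _ rfl).sub h hd (subset_closure hd) he (subset_closure he) ed da hx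
      (subset_closure hx) xa
    rwa [Set.inter_eq_left.2 Subgroup.subset_closure] at this
  let S : SubMulAction G Ω := ⟨{a | Pt D a}, fun g _ ⟨d, hd, e⟩ =>
    ⟨_, nDc (h.mem_nD (gen.ge (mem_top g))) hd, conj_smul_fix e g⟩⟩
  have k := TT.core (Ω := S) (a := ⟨a, d, hd, da⟩) (fun G' _ _ l => ih _ l G' rfl) ⟨h.toRI, fun y hy =>
    let ⟨b, hb⟩ := h.fix y hy; ⟨⟨b, y, hy, hb⟩, Subtype.ext hb⟩, fun y hy b c e1 e2 => Subtype.ext (h.uniq y hy _ _
    (congrArg Subtype.val e1) (congrArg Subtype.val e2))⟩ gen (fun ⟨_, y, hy, e⟩ => ⟨y, hy, Subtype.ext e⟩) hd he ed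
    (Subtype.ext da) hx fun e => xa (congrArg Subtype.val e)
  have P : ∀ b (hb : Pt D b), Pt D (⟨b, hb⟩ : S) := fun b ⟨y, hy, e⟩ => ⟨y, hy, Subtype.ext e⟩
  exact ⟨fun y hy z hz b yb zb => k.t1 y hy z hz ⟨b, y, hy, yb⟩ (Subtype.ext yb) (Subtype.ext zb), fun v hv v2 =>
    (k.t3 v hv v2).imp (fun i b hb => congrArg Subtype.val (i ⟨b, hb⟩ (P b hb))) fun ⟨z, hz, i⟩ =>
    ⟨z, hz, fun b hb => congrArg Subtype.val (i ⟨b, hb⟩ (P b hb))⟩⟩

variable {G : Type u} {Ω : Type v} [Group G] [MulAction G Ω] [Finite G] {D : Set G} {a : Ω} {d e g x y : G}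

theorem RT.tc (h : RT Ω D) (hd : d ∈ D) (he : e ∈ D) (ed : e * d ∈ D) (da : d • a = a) (hx : x ∈ D) (xa : x • a ≠ a) :
    TC Ω D := tt G Ω D a d e x h hd he ed da hx xa
theorem RT.sa [IsSimpleGroup G] (h : RT Ω D) (gen : closure D = ⊤) (all : ∀ b : Ω, Pt D b) (hd : d ∈ D) (he : e ∈ D)
    (ed : e * d ∈ D) (da : d • a = a) (hx : x ∈ D) (xa : x • a ≠ a) :
    SA G Ω ∧ ∀ y : G, y * y = 1 → y ≠ 1 → y ∈ D := by
  have inv : ∀ y : G, y * y = 1 → y ≠ 1 → y ∈ D := fun y y2 y1 => by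
    rcases (h.tc hd he ed da hx xa).t3 y (gen.ge (mem_top y)) y2 with k | ⟨z, hz, k⟩
    · exact absurd (faith_of_simple xa fun b => k b (all b)) y1
    · have := faith_of_simple (y := z⁻¹ * y) xa fun b => by rw [mul_smul, k b (all b), inv_smul_smul]
      exact inv_mul_eq_one.1 this ▸ hz
  exact ⟨⟨fun u u2 u1 => h.fix u (inv u u2 u1), fun u u2 u1 => h.uniq u (inv u u2 u1), fun b =>
    let ⟨y, hy, e⟩ := all b; ⟨y, h.sq y hy, h.ne y hy, e⟩⟩, inv⟩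
theorem RT.bender (h : RT Ω D) (gen : closure D = ⊤) (all : ∀ b : Ω, Pt D b) (hd : d ∈ D) (he : e ∈ D)
    (ed : e * d ∈ D) (da : d • a = a) (hx : x ∈ D) (xa : x • a ≠ a) : IsBender (G ⧸ twoZCore G) := by
  have nD : ∀ g, g ∈ normalizer D := fun g => h.mem_nD (gen.ge (mem_top g))
  have rc := h.rc nD hd da hx xa
  have := rc.simple_quo gen hd he ed
  have k := ((rc.nml_cases gen hd he ed).resolve_left (rc.Z_ne hd)).2
  have hK := h.nml_fix nD (rc.X_all hd he ed) all k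
  letI := qact _ hK
  exact isBender_of_se ((RT.sa (G := G ⧸ twoZCore G) (a := a) (d := d) (e := e) (x := x) (h.quo hK k) (by
    rw [← MonoidHom.map_closure, gen]; exact map_top_of_surjective _ (QuotientGroup.mk'_surjective _))
    (fun b => let ⟨y, hy, e⟩ := all b; ⟨_, ⟨y, hy, rfl⟩, e⟩) ⟨d, hd, rfl⟩ ⟨e, he, rfl⟩ ⟨_, ed, rfl⟩ da ⟨x, hx, rfl⟩
    xa).1.se_top fun e => xa (e.ge (mem_top (x : G ⧸ twoZCore G))))

theorem ccon_symm (h : ReflTransGen (CommAdj D) x y) : ReflTransGen (CommAdj D) y x := by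
  induction h with
  | refl => exact .refl
  | tail _ k i => exact .head ⟨k.2.1, k.1, k.2.2.1.symm, k.2.2.2.symm⟩ i
theorem ccon_conj (hg : g ∈ normalizer D) (h : ReflTransGen (CommAdj D) x y) :
    ReflTransGen (CommAdj D) (g * x * g⁻¹) (g * y * g⁻¹) :=
  h.lift (fun a => g * a * g⁻¹) fun _ _ k => ⟨nDc hg k.1, nDc hg k.2.1, fun e => k.2.2.1 (by simpa using e), by
    rw [conj_mul, conj_mul, k.2.2.2]⟩
theorem RI.ccon_comm (hx : x ∈ D) (hy : y ∈ D) (c : x * y = y * x) : ReflTransGen (CommAdj D) x y := by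
  by_cases e : x = y
  exacts [e ▸ .refl, .single ⟨hx, hy, e, c⟩]
theorem RI.ccon (h : RI D) (hx : x ∈ D) (hy : y ∈ D) (n : ¬ Od x y) : ReflTransGen (CommAdj D) x y := by
  rcases h.tri hx hy with c | c | c
  · exact RI.ccon_comm hx hy c
  · exact absurd c n
  · have s := h.br_symm hx hy c
    exact (RI.ccon_comm hx c wd[s]).trans (RI.ccon_comm c hy wd[s])
/-- the action on the components of the commuting graph -/
theorem RI.rt_comp (h : RI D) (nD : ∀ g : G, g ∈ normalizer D) (hd : d ∈ D) :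
    RT (G ⧸ normalizer (elemComponentOf (CommAdj D) D d)) D ∧
      ∀ y ∈ D, y ∈ normalizer (elemComponentOf (CommAdj D) D d) ↔ ReflTransGen (CommAdj D) d y := by
  set H := normalizer (elemComponentOf (CommAdj D) D d)
  have two := Nat.prime_two
  have k1 : ∀ g x, ReflTransGen (CommAdj D) d x → ReflTransGen (CommAdj D) d (g * x * g⁻¹) → g ∈ H :=
    fun g x i j y => ⟨fun k => ⟨nDc (nD g) k.1, j.trans (ccon_conj (nD g) ((ccon_symm i).trans k.2))⟩, fun k =>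
      ⟨(nD g y).2 k.1, i.trans (by simpa [mul_assoc] using ccon_conj (nD g⁻¹) ((ccon_symm j).trans k.2))⟩⟩
  have k2 : ∀ (M : Subgroup G), d ∈ M → ∀ y ∈ D, y ∈ M → ∃ g ∈ M, ReflTransGen (CommAdj D) (g * d * g⁻¹) y :=
    fun M dM y hy yM => by
      obtain ⟨P, hP, l⟩ := exists_sylow_le two (two_zpowers (h.sq y hy)) (zpowers_le.2 yM)
      obtain ⟨g, hg, l'⟩ := sylow_le_cj two hP (two_zpowers (h.sq d hd)) (zpowers_le.2 dM)
      exact ⟨g, hg, h.ccon (nDc (nD g) hd) hy (RI.nod_of_two hP.pi (h.sq _ (nDc (nD g) hd))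
        (l' (conj_mem_cj (mem_zpowers d))) (l (mem_zpowers y)))⟩
  have k3 : ∀ y ∈ D, y ∈ H ↔ ReflTransGen (CommAdj D) d y := fun y hy => ⟨fun m => by
    obtain ⟨g, hg, i⟩ := k2 H (k1 d d .refl (by simpa using .refl)) y hy m
    exact ((hg d).1 ⟨hd, .refl⟩).2.trans i, fun i => k1 y y i (by simpa using i)⟩
  refine ⟨⟨h, fun y hy => ?_, fun y hy a b => ?_⟩, k3⟩
  · obtain ⟨g, -, i⟩ := k2 ⊤ (mem_top d) y hy (mem_top y)
    exact ⟨g, coset_fix.2 ((k3 _ (nDc' (nD g) hy)).2 (by simpa [mul_assoc] using ccon_conj (nD g⁻¹) i))⟩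
  · induction a using QuotientGroup.induction_on with | _ g =>
    induction b using QuotientGroup.induction_on with | _ g' =>
    exact fun i j => QuotientGroup.eq.2 (k1 _ _ ((k3 _ (nDc' (nD g') hy)).1 (coset_fix.1 j))
      (by simpa [mul_assoc] using (k3 _ (nDc' (nD g) hy)).1 (coset_fix.1 i)))
theorem bender_of_discon (h : RI D) (gen : closure D = ⊤) (hd : d ∈ D) (he : e ∈ D) (ed : e * d ∈ D)
    (n : ¬ IsConnectedSet (CommAdj D) D) : IsBender (G ⧸ twoZCore G) := by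
  have nD : ∀ g, g ∈ normalizer D := fun g => h.mem_nD (gen.ge (mem_top g))
  obtain ⟨r, k⟩ := h.rt_comp nD hd
  obtain ⟨x, hx, nx⟩ : ∃ x ∈ D, ¬ ReflTransGen (CommAdj D) d x := by
    by_contra! c; exact n fun a ha b hb => (ccon_symm (c a ha)).trans (c b hb)
  have da := (k d hd).2 .refl
  refine r.bender (a := ((1 : G) : G ⧸ _)) gen (fun b => ?_) hd he ed (coset_fix.2 (by simpa using da)) hx
    fun e => nx ((k x hx).1 (by simpa using coset_fix.1 e))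
  induction b using QuotientGroup.induction_on with | _ g =>
  exact ⟨_, nDc (nD g) hd, coset_fix.2 (by simpa [mul_assoc] using da)⟩
end H13
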