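import Cfsg.Agent.H13.RI5
/-! Odd transpositions (`OT`): for `G = ⟨E_d, x⟩` with `O₂(G) = 1`, `E_d ∪ 1` is a group (`S51.mul`), `C_D(d) = E_d`
(`S51.cent`) and `G` is `L₂(q)` or `Sz(q)` (`S51.iso`). -/
set_option autoImplicit false
set_option linter.unusedSectionVars false
open Cfsg H18 Subgroup H9 H19 H21 MulAction Relation
open H5 (eq_one_of_odd A1 Suz prank_of_pair even_of_inv)

namespace H13
variable {G : Type*} [Group G] {D : Set G} {a b c d e g n t t' u v x y z : G} {N : Subgroup G}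

structure OT (D : Set G) : Prop extends RI D where
  nF : ∀ a ∈ D, ∀ b ∈ D, ¬ Fo D a b
def Ec (D : Set G) (d : G) : Set G := {t | t ∈ D ∧ ∀ c ∈ D, c * d = d * c ↔ c * t = t * c}

theorem ot_of (h : IsOddTranspositionSet D) : OT D :=
  ⟨ri_of h.1, fun a ha b hb k => h.2 a ha b hb (((ri_of h.1).fo_iff ha hb).1 k)⟩
theorem Ec_eq : sameCommutingClass D d = Ec D d := Set.ext fun _ => and_congr_right fun _ => by
  simp only [Set.ext_iff, commutingMembers, Set.mem_ofPred_eq, and_congr_right_iff]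
theorem Ec_self (hd : d ∈ D) : d ∈ Ec D d := ⟨hd, fun _ _ => Iff.rfl⟩
theorem Ec_comm (ht : t ∈ Ec D d) (ht' : t' ∈ Ec D d) : t * t' = t' * t := (ht'.2 t ht.1).1 ((ht.2 t ht.1).2 rfl)
theorem Ec_conj (hg : g ∈ normalizer D) (ht : t ∈ Ec D d) : g * t * g⁻¹ ∈ Ec D (g * d * g⁻¹) :=
  have k : ∀ c y : G, c * (g * y * g⁻¹) = g * y * g⁻¹ * c ↔ g⁻¹ * c * g * y = y * (g⁻¹ * c * g) := fun c y => by
    rw [← mul_left_cancel_iff (a := g⁻¹), ← mul_right_cancel_iff (a := g)]; simp [mul_assoc]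
  ⟨nDc hg ht.1, fun c hc => by rw [k, k, ht.2 _ (nDc' hg hc)]⟩
theorem Ec_trans (ht : t ∈ Ec D d) (hc : c ∈ Ec D t) : c ∈ Ec D d := ⟨hc.1, fun y hy => (ht.2 y hy).trans (hc.2 y hy)⟩
theorem Ec_symm (hd : d ∈ D) (ht : t ∈ Ec D d) : d ∈ Ec D t := ⟨hd, fun y hy => (ht.2 y hy).symm⟩
theorem central_inv [Finite G] (hO : pCore 2 G = ⊥) (z2 : z * z = 1) (k : C1(z) = (⊤ : Subgroup G)) : z = 1 := by
  rw [pCore_eq Nat.prime_two] at hO
  exact eq_one_of_eq_bot hO (le_pcore ⟨le_top, k.ge.trans C1_le_N_zpowers⟩ (two_zpowers z2) (mem_zpowers z))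
theorem RI.nml_two' [Finite G] [N.Normal] (h : RI D) (nD : ∀ g : G, g ∈ normalizer D) (hd : d ∈ D)
    (cm : ∀ n ∈ N, d * (n * d * n⁻¹) = n * d * n⁻¹ * d) (hn : n ∈ N) : d * (n * d * n⁻¹) ∈ pCore 2 G := by
  let T : Set G := {x | ∃ n ∈ N, n * d * n⁻¹ = x}
  have hT : T ⊆ D := by rintro _ ⟨n, -, rfl⟩; exact nDc (nD n) hd
  have pT := two_of_comm (O := T) (by
    rintro _ ⟨n, hn, rfl⟩ _ ⟨n', hn', rfl⟩
    simpa [mul_assoc] using congrArg (fun x => n * x * n⁻¹) (cm _ (mul_mem (inv_mem hn) hn'))) fun a ha => h.sq a (hT ha)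
  have nT : N ≤ N(closure T) := norm_closure (by
    rintro a ha _ ⟨n, hn, rfl⟩; exact ⟨a * n, mul_mem ha hn, by group⟩)
  rw [pCore_eq Nat.prime_two]
  refine (nml_top (K := N)).pcore_le_pcore (le_pcore (nml_inf_of_norm nT) pT.inf_right ⟨?_,
    mul_mem (subset_closure ⟨1, one_mem _, by simp⟩) (subset_closure ⟨n, hn, rfl⟩)⟩)
  rw [show d * (n * d * n⁻¹) = d * n * d⁻¹ * n⁻¹ by rw [h.inv hd]; group]
  exact N.mul_mem (‹N.Normal›.conj_mem n hn d) (inv_mem hn)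

namespace OT
variable (h : OT D)
include h
theorem od (ha : a ∈ D) (hb : b ∈ D) (n : a * b ≠ b * a) : Od a b := h.od_of ha hb n (h.nF a ha b hb)
theorem cm (ha : a ∈ D) (hb : b ∈ D) (n : ¬ Od a b) : a * b = b * a := h.comm_of ha hb n (h.nF a ha b hb)
theorem Ec_od (hd : d ∈ D) (ht : t ∈ Ec D d) (hx : x ∈ D) (o : Od d x) : Od t x :=
  h.od ht.1 hx fun c => h.od_nc hd hx o ((ht.2 x hx).2 c.symm).symm
/-- a member commuting with the product of two commuting members commutes with both -/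
theorem comm_mul (ha : a ∈ D) (hb : b ∈ D) (c : a * b = b * a) (n : a * b ≠ 1) (hy : y ∈ D)
    (k : y * (a * b) = a * b * y) : y * a = a * y := h.cm hy ha fun o => by
  have a2 := h.sq a ha; have b2 := h.sq b hb; have y2 := h.sq y hy
  rcases h.L0 hb hy (r := a * b) (w := a * y) tr[[a, b, y]; c & a2] tr[[a, b]; c & a2 & b2]
    (Commute.mul_right (show a * b * a = a * (a * b) from tr[[a, b]; c]) k.symm) o.symm.2 with i | i
  exacts [n i, o.1 wd[i & y2]]
theorem Ec_u (ht : t ∈ Ec D d) (ht' : t' ∈ Ec D d) (n : t * t' ≠ 1) (hy : y ∈ D) :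
    y * d = d * y ↔ y * (t * t') = t * t' * y :=
  ⟨fun c => (Commute.mul_right ((ht.2 y hy).1 c) ((ht'.2 y hy).1 c)).eq, fun c =>
    (ht.2 y hy).2 (h.comm_mul ht.1 ht'.1 (Ec_comm ht ht') n hy c)⟩
theorem X_Ec [Finite G] (r : RC D) (ha : a ∈ D) (hy : y ∈ D) (k : y * a ∈ D) : y ∈ Ec D a :=
  ⟨hy, (r.E_iff ha hy).2 (r.A_eq ha hy fun _ hz o => h.od hy hz (h.X_nc ha hz hy o k))⟩
end OT

structure S51 (D : Set G) (d x : G) : Prop extends OT D where
  rc : RC D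
  nD : ∀ g : G, g ∈ normalizer D
  hO : pCore 2 G = ⊥
  hd : d ∈ D
  hx : x ∈ D
  o : Od d x
  gen : closure (Ec D d ∪ {x}) = ⊤

namespace S51
variable [Finite G] (h : S51 D d x)
include h
theorem cent1 (z2 : z * z = 1) (k : ∀ t ∈ Ec D d, t * z = z * t) (k' : x * z = z * x) : z = 1 :=
  central_inv h.hO z2 (top_le_iff.1 (h.gen.ge.trans ((closure_le _).2 (by
    rintro y (hy | rfl); exacts [mem_C1.2 (k y hy), mem_C1.2 k']))))
theorem genD : closure D = ⊤ := top_le_iff.1 (h.gen.ge.trans (Subgroup.closure_mono (by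
  rintro y (hy | rfl); exacts [hy.1, h.hx])))
theorem comm_u (u2 : u * u = 1) (uD : u ∉ D) (k : ∀ t ∈ Ec D d, t * u = u * t)
    (k' : ∀ y ∈ D, y * u = u * y → y * d = d * y) : x * (u * x * u) = u * x * u * x :=
  h.cm h.hx (RT.cD h.nD u2 h.hx) fun o => by
    obtain ⟨r, hr, e, c, -⟩ := h.mid_comm (h.nD u) u2 h.hx o
    have r2 := h.sq r hr
    have := h.cent1 (z := r * u) tr[[r, u]; c & r2 & u2] (fun t ht => (Commute.mul_right
      ((ht.2 r hr).1 (k' r hr c)).symm (k t ht)).eq) (by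
      calc x * (r * u) = r * (r * x * r) * u := tr[[r, u, x]; r2]
        _ = _ := by rw [e]; exact tr[[r, u, x]; u2])
    exact uD ((show r = u from wd[this & u2]) ▸ hr)
theorem mul (ht : t ∈ Ec D d) (ht' : t' ∈ Ec D d) (ne : t * t' ≠ 1) : t * t' ∈ Ec D d := by
  suffices t * t' ∈ D from ⟨this, fun c hc => h.Ec_u ht ht' ne hc⟩
  by_contra nm
  let U : Set G := {u | u ∉ D ∧ u ≠ 1 ∧ ∃ t ∈ Ec D d, ∃ t' ∈ Ec D d, u = t * t'}
  have U1 : ∀ u ∈ U, u * u = 1 := by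
    rintro _ ⟨-, -, a, ha, b, hb, rfl⟩
    have := Ec_comm ha hb; have a2 := h.sq a ha.1; have b2 := h.sq b hb.1
    exact tr[[a, b]; this & a2 & b2]
  have U2 : ∀ u ∈ U, ∀ y ∈ D, y * d = d * y ↔ y * u = u * y := by
    rintro _ ⟨-, n, a, ha, b, hb, rfl⟩ y hy; exact h.Ec_u ha hb n hy
  have U3 : ∀ u ∈ U, ∀ t ∈ Ec D d, t * u = u * t := fun u hu t ht => (U2 u hu t ht.1).1 (Ec_comm ht (Ec_self h.hd))
  have U4 := fun u hu => h.comm_u (U1 u hu) hu.1 (U3 u hu) fun y hy => (U2 u hu y hy).2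
  have x2 := h.sq x h.hx
  let V : Set G := {v | ∃ u ∈ U, x * (u * x * u) = v}
  have V1 : ∀ v ∈ V, v * v = 1 ∧ x * v = v * x ∧ ∀ t ∈ Ec D d, v * t * v ∈ Ec D d := by
    rintro _ ⟨u, hu, rfl⟩
    have i := U4 u hu; have u2 := U1 u hu
    have v2 : x * (u * x * u) * (x * (u * x * u)) = 1 := wd[i & u2 & x2]
    have vu : x * (u * x * u) * u = u * (x * (u * x * u)) := wd[i & u2]
    refine ⟨v2, wd[i], fun t ht => ⟨RT.cD h.nD v2 ht.1, fun c hc => ?_⟩⟩
    generalize x * (u * x * u) = v at *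
    have k : ∀ y, c * (v * y * v) = v * y * v * c ↔ v * c * v * y = y * (v * c * v) := fun y =>
      ⟨cj_comm v2, fun e => (cj_comm v2 e.symm).symm⟩
    rw [k, ← ht.2 _ (RT.cD h.nD v2 hc), U2 u hu _ (RT.cD h.nD v2 hc), ← k, U2 u hu c hc,
      show v * u * v = u from tr[[v, u]; vu & v2]]
  have V2 : ∀ v ∈ V, ∀ t ∈ Ec D d, v * t * v * t ∉ D := by
    rintro v hv t ht m
    obtain ⟨v2, xv, k⟩ := V1 v hv
    obtain ⟨u, hu, ev⟩ := hv
    have t2 := h.sq t ht.1; have m2 := h.sq _ m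
    have m' : v * t * v * t ∈ Ec D d := ⟨m, fun c hc => h.Ec_u (k t ht) ht (h.ne _ m) hc⟩
    have hb := h.cnj t ht.1 x h.hx
    have hb' := h.cnj t ht.1 _ (RT.cD h.nD (U1 u hu) h.hx)
    have i := U4 u hu
    have bz : t * x * t * (t * v * t) = t * v * t * (t * x * t) := tr[[t, x, v]; t2 & xv]
    have vz : v * (t * v * t) = t * v * t * v := wd[m2 & t2 & v2]
    have c := h.cm hb (RT.cD h.nD v2 hb) fun o => by
      rcases h.L0 hb' (RT.cD h.nD v2 hb) (r := t * v * t) (w := t * x * t * (v * (t * x * t) * v))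
        (by rw [← mul_assoc (t * v * t)]; congr 1; rw [← ev]; exact tr[[t, x, u * x * u]; t2 & x2 & i])
        tr[[t, v]; t2 & v2] tr[[t * x * t, v, t * v * t]; bz & vz] o.2 with j | j
      · exact h.ne _ m (by rw [mul_assoc v, mul_assoc v, j, mul_one]; exact wd[j & t2])
      · have := h.sq _ hb; exact o.1 wd[j & this]
    refine h.od_nc h.hx m (h.Ec_od h.hd m' h.hx h.o).symm (h.comm_of_od h.hx (h.Ec_od h.hd m' h.hx h.o).symm rfl ?_)
    rw [show v * t * v * t * x * (v * t * v * t) = t * v * t * v * x * (v * t * v * t) by rw [← vz]; simp [mul_assoc],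
      show t * v * t * v * x * (v * t * v * t) = t * (v * (t * x * t) * v) * t from tr[[t, x, v]; v2 & xv]]
    exact (cj_comm t2 c.symm).symm
  have nm' : (closure (U ∪ V)).Normal := norm_top_iff.1 (h.gen.ge.trans ((closure_le _).2 (by
    rintro y (hy | rfl)
    · refine mem_N_closure ?_
      rintro s (hs | hs)
      · rw [U3 s hs y hy, mul_inv_cancel_right]; exact subset_closure (.inl hs)
      · obtain ⟨v2, -, k⟩ := V1 s hs
        rw [h.inv hy.1, show y * s * y = s * (s * y * s * y) from tr[[s, y]; v2]]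
        refine mul_mem (subset_closure (.inr hs)) ?_
        by_cases e : s * y * s * y = 1
        exacts [e ▸ one_mem _, subset_closure (.inl ⟨V2 s hs y hy, e, _, k y hy, y, hy, rfl⟩)]
    · refine mem_N_closure ?_
      rintro s (hs | hs)
      · have := U1 s hs
        rw [h.inv h.hx, show y * s * y = y * (s * y * s) * s from tr[[s, y]; this]]
        exact mul_mem (subset_closure (.inr ⟨s, hs, rfl⟩)) (subset_closure (.inl hs))
      · rw [(V1 s hs).2.1, mul_inv_cancel_right]; exact subset_closure (.inr hs))))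
  have nT : ∀ n ∈ closure (U ∪ V), ∀ t ∈ Ec D d, n * t * n⁻¹ ∈ Ec D d := fun n hn => by
    have m : ∀ s ∈ U ∪ V, s * s = 1 ∧ ∀ t ∈ Ec D d, s * t * s ∈ Ec D d := by
      rintro s (hs | hs)
      · exact ⟨U1 s hs, fun t ht => by rwa [← U3 s hs t ht, tt'' (U1 s hs)]⟩
      · exact ⟨(V1 s hs).1, (V1 s hs).2.2⟩
    induction hn using closure_induction'' with
    | mem s hs => exact (inv_eq_of_mul_self (m s hs).1).symm ▸ (m s hs).2
    | inv_mem s hs => simpa [inv_eq_of_mul_self (m s hs).1] using (m s hs).2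
    | one => simp
    | mul x y _ _ hx hy => exact fun d hd => by simpa [mul_assoc] using hx _ (hy d hd)
  have hu : t * t' ∈ U := ⟨nm, ne, t, ht, t', ht', rfl⟩
  refine ne (h.cent1 (U1 _ hu) (U3 _ hu) ?_)
  obtain ⟨g, -, e⟩ := h.rc.cls d h.hd x h.hx
  have := h.nml_two' (N := closure (U ∪ V)) h.nD h.hx (fun n hn => by
    have := Ec_conj (h.nD g) (nT _ (nm'.conj_mem' n hn g) d (Ec_self h.hd))
    rw [show g * (g⁻¹ * n * g * d * (g⁻¹ * n * g)⁻¹) * g⁻¹ = n * (g * d * g⁻¹) * n⁻¹ by group, e] at this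
    exact Ec_comm (Ec_self h.hx) this) (subset_closure (.inl hu))
  rw [h.hO, mem_bot, inv_eq_of_mul_self (U1 _ hu)] at this
  have u2 := U1 _ hu
  generalize t * t' = u at *
  exact wd[this & u2 & x2]
variable (ht : t ∈ Ec D d) (ne : t ≠ d)
include ht ne
theorem cent (hy : y ∈ D) (c : y * d = d * y) : y ∈ Ec D d := by
  by_contra ny
  have y2 := h.sq y hy; have d2 := h.sq d h.hd; have t2 := h.sq t ht.1
  have k : ∀ a ∈ Ec D d, y * x * y * (a * x * a) = a * x * a * (y * x * y) := fun a ha => by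
    have ay := ((ha.2 y hy).1 c).symm; have a2 := h.sq a ha.1
    have n1 : a * y ≠ 1 := fun e => ny ((show a = y from wd[e & y2]) ▸ ha)
    have := h.comm_u (u := a * y) tr[[a, y]; ay & a2 & y2] (fun m => ny (Ec_trans ha (h.X_Ec h.rc ha.1 hy (ay ▸ m))))
      (fun s hs => (Commute.mul_right (Ec_comm hs ha) ((hs.2 y hy).1 c).symm).eq)
      fun r hr e => (ha.2 r hr).2 (h.comm_mul ha.1 hy ay n1 hr e)
    rw [show a * y * x * (a * y) = a * (y * x * y) * a from tr[[a, y, x]; ay]] at this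
    exact (cj_comm a2 this).symm
  have td := Ec_comm ht (Ec_self h.hd)
  have m := h.mul ht (Ec_self h.hd) fun e => ne wd[e & d2]
  have o := (h.Ec_od h.hd m h.hx h.o).cj d2
  rw [show d * (t * d) * d = t * d from tr[[t, d]; td & d2]] at o
  have := h.comm_of_od (h.cnj d h.hd x h.hx) o.symm (k d (Ec_self h.hd)) (by
    rw [show t * d * (d * x * d) * (t * d) = t * x * t from tr[[t, d, x]; td & d2]]; exact k t ht)
  have my := ((m.2 y hy).1 c)
  refine h.od_nc m.1 h.hx (h.Ec_od h.hd m h.hx h.o) ?_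
  generalize t * d = r at *
  simpa only [show y * r * y = r from tr[[y, r]; my & y2]] using cj_comm y2 this.symm
theorem mulD (ha : a ∈ D) (hb : b ∈ D) (c : a * b = b * a) (n : a ≠ b) : a * b ∈ D := by
  obtain ⟨g, -, rfl⟩ := h.rc.cls d h.hd a ha
  have := nDc (h.nD g) (h.mul (Ec_self h.hd) (h.cent ht ne (nDc' (h.nD g) hb) (by
    simpa [mul_assoc] using congrArg (fun x => g⁻¹ * x * g) c.symm)) fun e => n (by
      have i := h.sq d h.hd
      rw [show d = g⁻¹ * b * g from wd[e & i]]; group)).1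
  simpa [mul_assoc] using this
theorem iso : (∃ (F : Type) (_ : Field F) (_ : Fintype F), CharP F 2 ∧ 4 ≤ Fintype.card F ∧
      Fintype.card F = Nat.card (closure (Ec D d)) ∧ Nonempty (G ≃* Matrix.ProjectiveSpecialLinearGroup (Fin 2) F)) ∨
    Lie.IsoSuzuki G ∧ ∃ s ∈ D, ∃ t ∈ D, orderOf (s * t) = 5 := by
  obtain ⟨r, m⟩ := h.rt_comp h.nD h.hd
  set a := QuotientGroup.mk (s := normalizer (elemComponentOf (CommAdj D) D d)) 1
  have fx : ∀ y ∈ D, y • a = a ↔ y ∈ Ec D d := fun y hy => by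
    rw [coset_fix, inv_one, one_mul, mul_one, m y hy]
    refine ⟨fun k => ?_, fun k => RI.ccon_comm h.hd hy (Ec_comm (Ec_self h.hd) k)⟩
    clear hy
    induction k with
    | refl => exact Ec_self h.hd
    | tail _ j i => exact h.cent ht ne j.2.1 ((i.2 _ j.2.1).2 j.2.2.2.symm)
  have xa : x • a ≠ a := fun e => h.od_nc h.hd h.hx h.o (Ec_comm (Ec_self h.hd) ((fx x h.hx).1 e))
  have da := (fx d h.hd).2 (Ec_self h.hd)
  have inv := fun y => master noU ⟨h.sq, h.ne, h.cnj, r.fix, r.uniq, fun _ ha _ hb => h.mulD ht ne ha hb⟩ ⟨h.hd, da⟩ h.hx xa y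
    (h.genD.ge (mem_top y))
  have sa : SA G (G ⧸ normalizer (elemComponentOf (CommAdj D) D d)) := ⟨fun u u2 u1 => r.fix u (inv u u2 u1),
    fun u u2 u1 => r.uniq u (inv u u2 u1), fun b => by
      induction b using QuotientGroup.induction_on with | _ g =>
      exact ⟨_, conj_sq (h.sq d h.hd) g, conj_ne (h.ne d h.hd) g, by simpa [a] using conj_smul_fix da g⟩⟩
  have d2 := h.sq d h.hd
  have td := Ec_comm ht (Ec_self h.hd)
  have rk := prank_of_pair (mem_top t) (mem_top d) (h.ne t ht.1) (h.ne d h.hd) ne (h.sq t ht.1) d2 td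
  have := nml_top_iff.1 (pcore_nml (π := {2}ᶜ) (H := (⊤ : Subgroup G)))
  obtain ⟨Q, τ, A, -⟩ := sa.A1_of_cent (M := ⊤) ⟨d2, h.ne d h.hd, da⟩ (mem_top d) rk (fun l => xa (l (mem_top x))) (by
    refine fun n hn => mem_C1.2 ?_
    have nO : ∀ y ∈ D, y ∉ O[{2}ᶜ]((⊤ : Subgroup G)) := fun y hy k =>
      h.ne y hy (eq_one_of_odd (H5.odd_order_of_mem odd_O k) (h.sq y hy))
    have := h.nml_two h.nD nO h.hd ht.1 (h.mulD ht ne ht.1 h.hd td ne) hn
    rw [h.hO, mem_bot] at this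
    exact mul_inv_eq_iff_eq_mul.1 (by rw [← tt' d2 (n * d * n⁻¹), this, mul_one]))
  obtain ⟨K, V, W, Q₀, s, S⟩ := A.exists_suz
  have EQ : ∀ y ∈ Ec D d, y ∈ Q₀ := fun y hy => S.mem₀ ⟨mem_top _, (fx y hy.1).2 hy⟩ (h.sq y hy.1)
  have e0 : Q₀ = closure (Ec D d) := le_antisymm (fun y hy => by
    by_cases e : y = 1
    · exact e ▸ one_mem _
    · exact subset_closure ((fx y (inv y (S.sq₀ hy) e)).1 (S.leQ₀H hy).2)) ((closure_le _).2 EQ)
  obtain ⟨k, hk, ex⟩ := A.inv_form (mem_top x) (h.sq x h.hx) fun l => xa l.2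
  have gen : Q₀ ⊔ zpowers τ = ⊤ := by
    have : cj k⁻¹ (Q₀ ⊔ zpowers τ) = ⊤ := top_le_iff.1 (h.gen.ge.trans ((closure_le _).2 (by
      rintro y (hy | rfl)
      · exact mem_cj.2 (mem_sup_left (by simpa using conj_mem S.nQ₀ hk (EQ y hy)))
      · exact mem_cj.2 (mem_sup_right (by simp [ex, mul_assoc])))))
    simpa using this
  have gen' : Q ⊔ zpowers τ = ⊤ := top_le_iff.1 (gen.ge.trans (sup_le_sup_right S.leQ₀ _))
  have h2 := S.rank_iff.1 rk
  have φ : G ≃* ↥(Q ⊔ zpowers τ) := ((MulEquiv.subgroupCongr gen').trans topEquiv).symm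
  obtain ⟨c, ⟨i, j⟩ | ⟨i, j, l⟩ | ⟨-, -, -, ω, -, ζ, hζ, n, -⟩⟩ := concl S h2
  · obtain ⟨F, _, _, e, ⟨f⟩⟩ := isoPSL_of S i j
    obtain ⟨n, -, hn⟩ := S.exists_pow
    refine .inl ⟨F, _, _, charP_of_card (e.trans hn), ?_, e0 ▸ e, ⟨φ.trans f⟩⟩
    rw [hn] at h2; rw [e, hn]
    rcases n with _ | _ | n
    · omega
    · omega
    · exact Nat.pow_le_pow_right (n := 2) (i := 2) two_pos (by omega)
  · obtain ⟨F, _, _, m, h1, h2, ⟨f⟩⟩ := isoSuzuki_of pillarA S h2 c j i l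
    exact .inr ⟨⟨F, _, _, m, h1, h2, ⟨φ.trans f⟩⟩, s, inv s S.ss S.s_ne, τ, inv τ A.tt A.t_ne, l⟩
  · exact absurd (mem_C1.1 ((gen.ge.trans (sup_le (le_C1_iff.2 (S.W_cent₀ hζ)) (zpowers_le.2
      (mem_C1_comm.1 (S.V_le_C1t (S.leW hζ)))))) (mem_top ω))).symm n
end S51
end H13
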