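import Cfsg.Agent.H13.RI7
/-! Root involutions with `E_d ∪ 1` a group: natural modules `RI.nm`, `RC.U1`, and the uniqueness of the common
neighbour `RS.U` (`d ∈ X_a ∩ X_b`, `ab` of order four implies `(ab)² ∈ E_d`). -/
set_option autoImplicit false
set_option linter.unusedSectionVars false
open Cfsg H18 Subgroup H9 Relation
open H5 (eq_one_of_odd)

namespace H13
variable {G : Type*} [Group G] {D : Set G} {a b c d e f f' g p r s t u v w x y z : G}

theorem Ec_eq' (hd : d ∈ D) (ht : t ∈ Ec D d) : Ec D t = Ec D d :=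
  Set.ext fun _ => ⟨Ec_trans ht, Ec_trans (Ec_symm hd ht)⟩
namespace RI
variable (h : RI D)
include h
theorem X_nod (ha : a ∈ D) (hb : b ∈ D) (hd : d ∈ D) (k1 : a * d ∈ D) (k2 : b * d ∈ D) : ¬ Od a b := fun o =>
  h.X_nc ha hb hd o (h.mul_symm ha hd k1) (h.comm hb hd k2).symm
theorem br3 (ha : a ∈ D) (hx : x ∈ D) (o3 : orderOf (a * x) = 3) : a * x * a = x * a * x := by
  have := pow_orderOf_eq_one (a * x)
  rw [o3, pow_three] at this
  have a2 := h.sq a ha; have x2 := h.sq x hx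
  exact wd[this & a2 & x2]
theorem brl (ha : a ∈ D) (hb : b ∈ D) (k : Fo D a b) : a * b * a * b * a ∈ D := by
  rw [h.br_symm ha hb k]; exact h.br_mul hb ha
theorem nm (ha : a ∈ D) (hx : x ∈ D) (o : Od a x) (br : a * x * a = x * a * x) (hb : b ∈ D) (k : b * a ∈ D) (f : Fo D b x) :
    a * x * a * b * (a * x * a) = b * x * b * x ∧ b * x * b * x * a * (b * x * b * x) * a = b := by
  have a2 := h.sq a ha; have x2 := h.sq x hx; have b2 := h.sq b hb
  have c := h.comm hb ha k; have s := h.br_symm hb hx f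
  have c1 : b * (x * b * x) = x * b * x * b := by simpa only [mul_assoc] using s
  have c2 : b * (a * (x * b * x) * a) = a * (x * b * x) * a * b := by
    generalize x * b * x = b' at *; exact tr[[a, b, b']; c & c1]
  have e1 : a * x * a * b * (a * x * a) = a * (x * b * x) * a := tr[[a, b, x]; c & a2]
  have c3 : x * (a * (x * b * x) * a) * x = a * (x * b * x) * a := by
    calc _ = x * a * x * b * (x * a * x) := by simp only [mul_assoc]
      _ = _ := by rw [← br, e1]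
  have e2 : b * x * b * x * a * (b * x * b * x) * a = x * b * x * (a * (x * b * x) * a) := by
    calc _ = b * (x * b * x) * a * (b * (x * b * x)) * a := by simp only [mul_assoc]
      _ = _ := by generalize x * b * x = b' at *; exact tr[[a, b, b']; c & c1 & b2]
  have l := h.L4 ha hx hb o c f
  have := h.L5inj ha hx o hb k f l (h.br_mul f ha) (by
    rw [e2]
    calc _ = b * (x * b * x) := by simp only [mul_assoc]
      _ = x * b * x * (a * (x * b * x) * a) * (b * (x * (a * (x * b * x) * a) * x)) := by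
        rw [c3]; have : a * (x * b * x) * a * (a * (x * b * x) * a) = 1 := tr[[a, b, x]; a2 & x2 & b2]
        generalize a * (x * b * x) * a = b'' at *
        generalize x * b * x = b' at *
        exact tr[[b'', b, b']; c2 & c1 & this]
      _ = _ := tr[[a, b, x]; x2])
  refine ⟨?_, this.symm⟩
  rw [e1, e2] at *
  calc _ = x * b * x * (x * b * x * (a * (x * b * x) * a)) := tr[[a, b, x]; x2 & b2]
    _ = _ := by rw [← this, ← s]
theorem Ecj' (ha : a ∈ D) (ht : t ∈ Ec D d) : a * t * a ∈ Ec D (a * d * a) := by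
  simpa only [h.inv ha] using Ec_conj (h.mem_nD (subset_closure ha)) ht
theorem Ec_od' (hd : d ∈ D) (ht : t ∈ Ec D d) (hx : x ∈ D) (o : Od d x) : Od t x := h.A_of_C hd ht.1 ht.2 hx o
theorem Ec_fo (hd : d ∈ D) (ht : t ∈ Ec D d) (hx : x ∈ D) (k : Fo D d x) : Fo D t x :=
  h.fo_of ht.1 hx (fun c => h.fo_nc hd hx k ((ht.2 x hx).2 c.symm).symm) fun o =>
    h.fo_nod hd hx k (h.Ec_od' ht.1 (Ec_symm hd ht) hx o)
theorem hom (hr : r ∈ D) (hv : v ∈ D) (k : Fo D r v) (hf : f ∈ Ec D r) (hf' : f' ∈ Ec D r) :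
    f * f' * v * (f * f') * v = f * v * f * v * (f' * v * f' * v) := by
  have s := h.br_symm hr hv k; have v2 := h.sq v hv
  have i := h.Ecj' hv hf
  have c : f' * (v * f * v) = v * f * v * f' :=
    ((hf'.2 _ i.1).1 ((i.2 r hr).1 (by simpa only [mul_assoc] using s)).symm).symm
  calc _ = f * (f' * (v * f * v)) * (v * f' * v) := tr[[f, f', v]; v2]
    _ = _ := by rw [c]; simp only [mul_assoc]
theorem fo_cj (hg : g ∈ D) (k : Fo D a b) : Fo D (g * a * g) (g * b * g) := by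
  have g2 := h.sq g hg
  unfold Fo; rw [show g * a * g * (g * b * g) * (g * a * g) * (g * b * g) = g * (a * b * a * b) * g from tr[[g, a, b]; g2]]
  exact h.cnj g hg _ k
theorem X_cj (hg : g ∈ D) (k : a * b ∈ D) : g * a * g * (g * b * g) ∈ D := by
  have g2 := h.sq g hg
  rw [show g * a * g * (g * b * g) = g * (a * b) * g from tr[[g, a, b]; g2]]; exact h.cnj g hg _ k
end RI

variable [Finite G]
theorem RC.U1 (h : RC D) (ha : a ∈ D) (hf : f ∈ D) (hd : d ∈ D) (F : Fo D f a) (k1 : d * a ∈ D) (k2 : d * f ∈ D)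
    (n : d ≠ f * a * f * a) : d * (f * a * f * a) ∈ D := by
  obtain ⟨x, hx, o, o3, i⟩ := h.L6 hf ha F
  have s := h.br_symm hf ha F
  have a2 := h.sq a ha; have x2 := h.sq x hx; have f2 := h.sq f hf; have d2 := h.sq d hd; have z2 := h.sq _ F
  have xf : f * x ∈ D := i ▸ h.br_mul F hx
  have F' := h.X_fo ha hx hd o k1 (h.X_nod hd hx hf k2 (h.mul_symm hf hx xf))
  obtain ⟨-, j⟩ := h.nm ha hx o (h.br3 ha hx o3) hd k1 F'
  have c1 := h.comm hd ha k1; have c2 := h.comm hd hf k2; have c3 := h.comm hf hx xf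
  have c4 : d * (f * a * f * a) = f * a * f * a * d := tr[[a, d, f]; c1 & c2]
  have c5 : f * (f * a * f * a) = f * a * f * a * f := wd[s & f2]
  have e1 : a * f * a = f * (f * a * f * a) := tr[[a, f]; f2]
  have g2 := h.sq _ F'
  have c6 : d * x * d * x * f = f * (d * x * d * x) := tr[[d, x, f]; c2 & c3]
  have c7 : d * (d * x * d * x) = d * x * d * x * d := by have := h.br_symm hd hx F'; exact wd[this & d2]
  have hv : d * (d * x * d * x) * f ∈ D := by
    rw [show d * (d * x * d * x) * f = x * (d * f) * x from tr[[d, x, f]; d2 & c3]]; exact h.cnj x hx _ k2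
  generalize d * x * d * x = g at *
  generalize f * a * f * a = z at *
  have e2 : a * g * a = g * d := by rw [← j]; exact tr[[a, g]; g2]
  have c8 : g * z = z * g := by
    have : a * g * a * (a * f * a) = a * f * a * (a * g * a) := tr[[a, g, f]; a2 & c6]
    rw [e1, e2] at this
    calc _ = d * f * (g * d * (f * z)) := tr[[d, f, g, z]; c2 & c6 & c7 & d2 & f2]
      _ = _ := by rw [this]; exact tr[[d, f, g, z]; c2 & c6 & c7 & d2 & f2 & c4 & c5]
  have e3 : d * g * f * a * (d * g * f) * a = d * z := by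
    calc _ = d * g * f * (d * (a * g * a) * (a * f * a)) := tr[[d, f, g, a]; c1 & a2]
      _ = _ := by rw [e1, e2]; exact tr[[d, f, g, z]; c2 & c6 & c7 & d2 & f2 & c4 & c5 & c8 & g2]
  have n' : d * z ≠ 1 := fun e => n wd[e & z2]
  have v2 := h.sq _ hv
  rw [← e3] at n' ⊢
  have : d * z * (d * z) = 1 := tr[[d, z]; c4 & d2 & z2]
  rw [← e3] at this
  generalize d * g * f = v at *
  exact h.fo_of hv ha (fun c => n' tr[[v, a]; c & v2 & a2]) fun o => n' (by
    have := odd_four o.2 (by simpa only [mul_assoc] using this); rw [this, one_mul, this])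
theorem RC.F7 (h : RC D) (ha : a ∈ D) (hb : b ∈ D) (k : b * a ∈ D) (n : b ∉ Ec D a) :
    ∃ x ∈ D, Od a x ∧ a * x * a = x * a * x ∧ Fo D b x := by
  obtain ⟨z, hz, o, n⟩ : ∃ z ∈ D, Od a z ∧ ¬ Od b z := by
    by_contra! n'
    exact n ⟨hb, (h.E_iff ha hb).2 (h.A_eq ha hb n')⟩
  obtain ⟨f, hf, -, c, e⟩ := h.L5 ha hz o hb k (h.X_fo ha hz hb o k n)
  obtain ⟨x, hx, o, o3, i⟩ := h.L6 hf ha c
  exact ⟨x, hx, o, h.br3 ha hx o3, by rw [e] at i; unfold Fo; rwa [i]⟩

structure RS (D : Set G) : Prop extends RC D where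
  mulE : ∀ d ∈ D, ∀ s ∈ Ec D d, ∀ t ∈ Ec D d, s * t ≠ 1 → s * t ∈ Ec D d
namespace RS
variable (h : RS D)
include h
section
variable (ha : a ∈ D) (hb : b ∈ D) (hd : d ∈ D) (ad : a * d ∈ D) (bd : b * d ∈ D) (F : Fo D a b) (ec : a * b * a * b = c)
  (hy : y ∈ D) (o : Od c y) (br : c * y * c = y * c * y) (dy : Fo D d y) (dc : d * c ∈ D)
include ha hb hd ad bd F ec hy o br dy dc
theorem sub1 : Od a y := by
  have hc : c ∈ D := ec ▸ F
  have ac : a * c ∈ D := h.mul_symm hc ha (ec ▸ h.brl ha hb F)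
  refine h.od_of ha hy (h.X_nc hc hy ha o ac) fun ay => ?_
  have a2 := h.sq a ha; have b2 := h.sq b hb; have d2 := h.sq d hd; have y2 := h.sq y hy; have c2 := h.sq c hc
  have c1 := h.comm ha hd ad; have c3 := h.comm hb hd bd; have c4 := h.comm hd hc dc
  have adc : a * d * c ∈ D := by
    rw [show a * d * c = b * (a * d) * b by
      rw [← ec, h.br_symm ha hb F]; have := h.br_symm ha hb F; exact wd[this & c1 & c3 & a2]]
    exact h.cnj b hb _ ad
  have n1 := h.nm hc hy o br ha ac ay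
  have n2 := (h.nm hc hy o br hd dc dy).1
  have n3 := (h.nm hc hy o br ad adc (h.X_fo hc hy ad o adc (h.string ha hy hd ay dy c1))).1
  have s1 := h.br_symm ha hy ay
  have k : d * (a * y * a * y) = a * y * a * y * d := by
    rw [show c * y * c * (a * d) * (c * y * c) = c * y * c * a * (c * y * c) * (c * y * c * d * (c * y * c)) from
      tr[[c, y, a, d]; c2 & y2], n1.1, n2] at n3
    calc _ = d * (a * y * a * y * (d * y * d * y)) * (y * d * y * d) := tr[[y, a, d]; d2 & y2]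
      _ = _ := by rw [n3]; exact tr[[y, a, d]; d2 & y2 & c1]
  have := h.opp hc ay hb ha ((h.br_symm ay hc (by unfold Fo; rwa [n1.2])).symm.trans n1.2) ec
  exact h.X_nc hb ay hd this.1.symm (h.mul_symm hb hd bd) k
theorem sub2 (X : ∀ e ∈ Ec D d, ∀ u ∈ D, u * e ∈ D → c * e ∈ D → Fo D u c → u * c * u * c ∈ Ec D d) :
    d * y * d * y * a * (d * y * d * y) * a ∈ Ec D d := by
  have hc : c ∈ D := ec ▸ F
  have a2 := h.sq a ha; have b2 := h.sq b hb; have d2 := h.sq d hd; have y2 := h.sq y hy; have c2 := h.sq c hc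
  have s0 := h.br_symm ha hb F
  have c1 := h.comm ha hd ad; have c3 := h.comm hb hd bd; have c4 := h.comm hd hc dc
  have e0 : b * a * b = a * c := by rw [← ec]; exact wd[s0 & a2]
  have ac : a * c ∈ D := e0 ▸ h.cnj b hb a ha
  have c5 := h.comm ha hc ac
  have oa := h.sub1 ha hb hd ad bd F ec hy o br dy dc
  have acd : a * c * d ∈ D := by
    rw [← e0, show b * a * b * d = b * (a * d) * b from tr[[a, b, d]; c3]]; exact h.cnj b hb _ ad
  have oa' := h.sub1 ac hb hd acd bd (by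
    simpa only [e0, show b * b * b = b by rw [b2, one_mul]] using h.fo_cj hb F)
    (by rw [← e0, ← ec]; exact wd[s0 & b2]) hy o br dy dc
  obtain ⟨n1, n2⟩ := h.nm hc hy o br hd dc dy
  have ra := h.L4 ha hy hd oa c1.symm dy
  have rac := h.L4 ac hy hd oa' (h.comm ac hd acd).symm dy
  have rc := h.L4 hc hy hd o c4 dy
  have ry := h.br_mul hd hy
  have hr : d * y * d * y ∈ D := dy
  generalize d * y * d * y = r at *
  have σ2 : c * y * c * (c * y * c) = 1 := tr[[c, y]; c2 & y2]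
  have hσ := h.cnj c hc y hy
  have σy : c * y * c * y * (c * y * c) = c := by rw [br, ← br]; exact wd[br & c2 & y2]
  have σc : c * y * c * c * (c * y * c) = y := wd[br & c2 & y2]
  have nm := fun f hf => h.nm (b := f) hy hc o.symm br.symm hf
  have nm' := fun f hf => h.nm (b := f) hc hy o br hf
  rw [← br] at nm
  generalize c * y * c = σ at *
  have σr : σ * r * σ = d := by rw [← n1]; exact tr[[σ, d]; σ2]
  have Er : ∀ f ∈ Ec D r, σ * f * σ ∈ Ec D d := fun f hf => σr ▸ h.Ecj' hσ hf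
  have Ed : ∀ f ∈ Ec D d, σ * f * σ ∈ Ec D r := fun f hf => n1 ▸ h.Ecj' hσ hf
  let S : Set G := {f | f ∈ Ec D r ∧ f * y ∈ D}
  have l4 : ∀ f ∈ S, Fo D (f * a * f * a) y := fun f hf =>
    h.L4 hy ha hf.1.1 oa.symm (h.comm hf.1.1 hy hf.2) (h.Ec_fo hr hf.1 ha ra)
  have mS : Set.MapsTo (fun f => f * a * f * a * y * (f * a * f * a) * y) S S := fun f hf => by
    have fa : f * a * f * a ∈ D := h.Ec_fo hr hf.1 ha ra
    have i := h.brl hf.1.1 ha fa
    have j := l4 f hf
    have fc := h.Ec_fo hr hf.1 hc rc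
    refine ⟨?_, h.br_mul fa hy⟩
    beta_reduce
    have e1 := (nm f hf.1.1 hf.2 fc).1
    generalize f * a * f * a = k at *
    have := Ed _ (X _ (Er f hf.1) _ (h.cnj σ hσ k fa) (h.X_cj hσ i) (h.mul_symm (Er f hf.1).1 hc (e1 ▸ h.br_mul hf.1.1 hc))
      (σy ▸ h.fo_cj hσ j))
    rwa [← σy, show σ * (σ * k * σ * (σ * y * σ) * (σ * k * σ) * (σ * y * σ)) * σ = k * y * k * y from tr[[σ, k, y]; σ2]] at this
  have bS := ((Set.toFinite S).injOn_iff_bijOn_of_mapsTo mS).1 fun f hf f' hf' e =>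
    h.L5inj hy ha oa.symm hf.1.1 hf.2 (h.Ec_fo hr hf.1 ha ra) hf'.1.1 hf'.2 (h.L5inj ha hy oa (h.Ec_fo hr hf.1 ha ra)
      (h.br_mul hf.1.1 ha) (l4 f hf) (h.Ec_fo hr hf'.1 ha ra) (h.br_mul hf'.1.1 ha) e)
  let A : Set G := {p | p ∈ Ec D d ∧ p * a ∈ D ∧ p * c ∈ D}
  have ex : ∀ p ∈ A, ∃ f ∈ S, f * a * f * a = p := fun p hp => by
    have py := h.Ec_fo hd hp.1 hy dy
    obtain ⟨f, hf, e⟩ := bS.surjOn (show p * y * p * y ∈ S from
      ⟨(nm' p hp.1.1 hp.2.2 py).1 ▸ Ed p hp.1, h.br_mul hp.1.1 hy⟩)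
    exact ⟨f, hf, h.L5inj ha hy oa (h.Ec_fo hr hf.1 ha ra) (h.br_mul hf.1.1 ha) (l4 f hf) hp.1.1 hp.2.1 e⟩
  choose! φ φS φe using ex
  have mA : Set.MapsTo (fun p => σ * φ p * σ) A A := fun p hp => by
    have hf := φS p hp; have e := φe p hp
    beta_reduce
    generalize φ p = f at *
    have fc := h.Ec_fo hr hf.1 hc rc
    have e1 := (nm f hf.1.1 hf.2 fc).1
    have hq := Er f hf.1
    refine ⟨hq, ?_, e1 ▸ h.br_mul hf.1.1 hc⟩
    have f2 := h.sq f hf.1.1; have p2 := h.sq p hp.1.1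
    have py := h.Ec_fo hd hp.1 hy dy
    obtain ⟨m1, m2⟩ := nm' p hp.1.1 hp.2.2 py
    have hp' := Ed p hp.1
    have fac := h.Ec_fo hr hf.1 ac rac
    have pc := h.comm hp.1.1 hc hp.2.2
    have pq := Ec_comm hp.1 hq
    have pf : p * f = f * p := h.comm hp.1.1 hf.1.1 (e ▸ h.brl hf.1.1 ha (h.Ec_fo hr hf.1 ha ra))
    have e2 : f * (a * c) * f * (a * c) = p * (σ * f * σ) := by
      calc _ = f * (c * (f * (f * a * f * a)) * c) := tr[[f, a, c]; c5 & f2]
        _ = _ := by rw [e, e1]; exact tr[[f, p, c]; pc & pf]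
    have hE := h.mulE d hd p hp.1 _ hq (e2 ▸ h.ne _ fac)
    have e3 := h.hom hr hc rc hp' hf.1
    rw [← e1, m1, m2] at e3
    have n : p * y * p * y * f ≠ 1 := fun e => h.ne _ hE.1 (by rw [← e3, e, one_mul, mul_one, c2])
    have hE' := h.mulE r hr _ hp' f hf.1 (m1 ▸ n)
    have hA : p * (σ * f * σ) ∈ A := ⟨hE, by
      have i := h.X_cj hb (e2 ▸ h.br_mul hf.1.1 ac)
      have j := ((hE.2 b hb).1 c3)
      generalize p * (σ * f * σ) = p' at *
      rwa [← e0, show b * p' * b * (b * (b * a * b) * b) = p' * a from tr[[b, p', a]; j & b2]] at i,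
      e3 ▸ h.br_mul (m1 ▸ hE'.1) hc⟩
    have e4 := h.hom hr ha ra hf.1 (φS _ hA).1
    rw [e, φe _ hA, tt' p2] at e4
    exact e4 ▸ h.br_mul (h.mulE r hr f hf.1 _ (φS _ hA).1 fun e => h.ne _ hq.1 (by rw [← e4, e, one_mul, mul_one, a2])).1 ha
  obtain ⟨p, hp, e⟩ := (((Set.toFinite A).injOn_iff_bijOn_of_mapsTo mA).1 fun p hp p' hp' e => by
    rw [← φe p hp, ← φe p' hp', show φ p = φ p' by simpa using e]).surjOn
    (show d ∈ A from ⟨Ec_self hd, h.mul_symm ha hd ad, dc⟩)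
  rw [show r = φ p by rw [← n1, ← e]; exact tr[[σ, φ p]; σ2], φe p hp]
  exact hp.1
end
theorem core (ha : a ∈ D) (hb : b ∈ D) (hd : d ∈ D) (ad : a * d ∈ D) (bd : b * d ∈ D) (F : Fo D a b) (ec : a * b * a * b = c)
    (X : ∀ e ∈ Ec D d, ∀ u ∈ D, u * e ∈ D → c * e ∈ D → Fo D u c → u * c * u * c ∈ Ec D d) : c ∈ Ec D d := by
  by_contra n
  have hc : c ∈ D := ec ▸ F
  have dc : d * c ∈ D := ec ▸ h.U1 hb ha hd F (h.mul_symm hb hd bd) (h.mul_symm ha hd ad) fun e => n (ec ▸ e ▸ Ec_self hd)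
  obtain ⟨y, hy, o, br, dy⟩ := h.F7 hc hd dc fun i => n (Ec_symm hc i)
  have s := h.br_symm ha hb F
  have i := h.sub2 ha hb hd ad bd F ec hy o br dy dc X
  have j := h.sub2 hb ha hd bd ad (h.fo_symm ha hb F) (s ▸ ec) hy o br dy dc X
  have n2 := (h.nm hc hy o br hd dc dy).2
  have r2 := h.sq _ dy
  generalize d * y * d * y = r at *
  have a2 := h.sq a ha; have b2 := h.sq b hb; have c2 := h.sq c hc
  have c1 := h.comm ha hd ad; have c3 := h.comm hb hd bd
  have k1 := (i.2 a ha).1 c1; have k2 := (i.2 b hb).1 c3; have k3 := (j.2 a ha).1 c1; have k4 := (j.2 b hb).1 c3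
  have k5 := Ec_comm i j; have k6 := h.sq _ i.1; have k7 := h.sq _ j.1
  have : r * c * r = c := by
    calc _ = r * a * r * a * a * (r * b * r * b * b) * (r * a * r * a * a) * (r * b * r * b * b) := by
          rw [← ec]; exact tr[[r, a, b]; r2 & a2 & b2]
      _ = _ := by
          generalize r * a * r * a = u at *
          generalize r * b * r * b = v at *
          rw [← ec]; exact tr[[u, v, a, b]; k1 & k2 & k3 & k4 & k5 & k6 & k7]
  exact h.ne d hd (by rw [← n2, this, c2])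
/-- uniqueness of the common neighbour -/
theorem U (ha : a ∈ D) (hb : b ∈ D) (hd : d ∈ D) (ad : a * d ∈ D) (bd : b * d ∈ D) (F : Fo D a b) :
    a * b * a * b ∈ Ec D d := by
  let T : Set G := {u | u ∈ D ∧ ∃ e ∈ Ec D d, u * e ∈ D}
  have pT := h.two_closure (T := T) (fun _ k => k.1) (fun u ⟨hu, e, he, i⟩ v ⟨hv, e', he', j⟩ => ⟨h.cnj u hu v hv, e', he', by
      have c := (he'.2 u hu).1 ((he.2 u hu).2 (h.comm hu he.1 i)); have u2 := h.sq u hu
      rw [show u * v * u * e' = u * (v * e') * u from tr[[u, v, e']; c]]; exact h.cnj u hu _ j⟩)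
    fun u ⟨hu, e, he, i⟩ v ⟨hv, e', he', j⟩ o => h.X_nc hu hv he.1 o (h.mul_symm hu he.1 i)
      ((he.2 v hv).1 ((he'.2 v hv).2 (h.comm hv he'.1 j))).symm
  haveI : Fact (Nat.Prime 2) := ⟨Nat.prime_two⟩
  obtain ⟨n, hn⟩ := pT.isPGroup.isNilpotent.nilpotent'
  have key : ∀ n, ∀ e ∈ Ec D d, ∀ a ∈ D, ∀ b ∈ D, a * e ∈ D → b * e ∈ D → Fo D a b → ∀ c : closure T,
      c ∈ Subgroup.upperCentralSeries _ n → a * b * a * b = c → a * b * a * b ∈ Ec D d := fun n => by
    induction n with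
    | zero => intro e _ a _ b _ _ _ F c hc ec; rw [Subgroup.upperCentralSeries_zero, mem_bot] at hc; exact absurd (ec.trans (by rw [hc]; rfl)) (h.ne _ F)
    | succ n ih =>
      intro e he a ha b hb ae be F c hc ec
      rw [← Ec_eq' hd he, ec]
      refine h.core ha hb he.1 ae be F ec fun e' he' u hu ue ce uc => ?_
      have cD : (c : G) ∈ D := ec ▸ F
      rw [Ec_eq' hd he] at he' ⊢
      refine ih e' he' u hu c cD ue ce uc _ (Subgroup.mem_upperCentralSeries_succ_iff.1 hc ⟨u, subset_closure ⟨hu, e', he', ue⟩⟩) ?_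
      simp [commutatorElement_def, h.inv hu, h.inv cD, h.br_symm hu cD uc]
  have aT : a ∈ closure T := subset_closure ⟨ha, d, Ec_self hd, ad⟩
  have bT : b ∈ closure T := subset_closure ⟨hb, d, Ec_self hd, bd⟩
  exact key n d (Ec_self hd) a ha b hb ad bd F ⟨_, mul_mem (mul_mem (mul_mem aT bT) aT) bT⟩ (hn ▸ mem_top _) rfl
end RS
end H13
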