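import Cfsg.Agent.H13.RS1
/-! The root structure theorem: `RS.L` (`X_d` depends only on `E_d`), `RS.cz`, `RS.MD`, `RS.wa`, `RS.comm_le`. -/
set_option autoImplicit false
set_option linter.unusedSectionVars false
open Cfsg H18 Subgroup H9 Relation
open scoped commutatorElement

namespace H13
variable {G : Type*} [Group G] {D S : Set G} {a a' b c d e f g r s t u v w x y z : G} {U : Subgroup G}

theorem comm_cl (cz : ∀ u ∈ U, ∀ x ∈ closure S, x * u = u * x) (k : ∀ a ∈ S, ∀ b ∈ S, ⁅a, b⁆ ∈ U) :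
    ⁅closure S, closure S⁆ ≤ U := by
  have one : ∀ z, (∀ a ∈ S, ⁅a, z⁆ ∈ U) → ∀ x ∈ closure S, ⁅x, z⁆ ∈ U := fun z k x hx => by
    induction hx using closure_induction with
    | mem x hx => exact k x hx
    | one => simp
    | mul x y hx hy i j =>
      rw [show ⁅x * y, z⁆ = x * ⁅y, z⁆ * x⁻¹ * ⁅x, z⁆ by simp [commutatorElement_def, mul_assoc], cz _ j x hx,
        mul_inv_cancel_right]
      exact mul_mem j i
    | inv x hx i =>
      rw [show ⁅x⁻¹, z⁆ = (x⁻¹ * ⁅x, z⁆ * x)⁻¹ by simp [commutatorElement_def, mul_assoc], cz _ i _ (inv_mem hx),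
        inv_mul_cancel_right]
      exact inv_mem i
  exact commutator_le.2 fun x hx y hy => one y (fun a ha => by
    rw [← commutatorElement_inv]; exact inv_mem (one a (fun b hb => k b hb a ha) y hy)) x hx
/-- `X_d ∪ {d}` -/
def Xd (D : Set G) (d : G) : Set G := {u | u ∈ D ∧ (u = d ∨ u * d ∈ D)}
theorem RI.Xd_eq (h : RI D) (hd : d ∈ D) : productPartners D d ∪ {d} = Xd D d := by
  ext u
  refine ⟨?_, ?_⟩
  · rintro (i | rfl); exacts [⟨i.1.1, .inr i.2⟩, ⟨hd, .inl rfl⟩]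
  · rintro ⟨i, j | j⟩; exacts [.inr j, .inl ⟨⟨i, h.comm i hd j, h.ne_of_mul i j⟩, j⟩]
theorem RI.Xd_c (h : RI D) (hd : d ∈ D) (hu : u ∈ Xd D d) : u * d = d * u := by
  rcases hu with ⟨i, rfl | j⟩; exacts [rfl, h.comm i hd j]
theorem RI.Xd_cj (h : RI D) (hy : y ∈ D) (c : y * d = d * y) (hu : u ∈ Xd D d) : y * u * y ∈ Xd D d := by
  have y2 := h.sq y hy
  have e : y * d * y = d := tr[[y, d]; c & y2]
  exact ⟨h.cnj y hy u hu.1, hu.2.imp (fun i => by rw [i, e]) fun i => e ▸ h.X_cj hy i⟩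
theorem RI.Xd_nod (h : RI D) (hd : d ∈ D) (hu : u ∈ Xd D d) (hy : y ∈ D) (c : y * d = d * y) : ¬ Od u y := fun o => by
  rcases hu with ⟨i, rfl | j⟩
  exacts [h.od_nc i hy o c.symm, h.X_nc i hy hd o (h.mul_symm i hd j) c.symm]
variable [Finite G]
theorem RI.M_two (h : RI D) (hd : d ∈ D) : PiGrp {2} (closure (Xd D d)) :=
  h.two_closure (fun _ k => k.1) (fun _ i _ j => h.Xd_cj i.1 (h.Xd_c hd i) j) fun _ i _ j => h.Xd_nod hd i j.1 (h.Xd_c hd j)
theorem RI.M_nod (h : RI D) (hd : d ∈ D) (hu : u ∈ D) (uM : u ∈ closure (Xd D d)) (hy : y ∈ D) (c : y * d = d * y) :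
    ¬ Od u y := fun o => by
  have y2 := h.sq y hy
  have := conj_mem_cj (g := y) uM
  rw [cj_closure, h.inv hy] at this
  refine RI.nod_of_two (h.M_two hd) (h.sq u hu) uM (Subgroup.closure_mono ?_ this)
    ⟨fun e => h.od_nc hu hy o wd[e & y2], by simpa only [mul_assoc] using odd_sq o.2⟩
  rintro _ ⟨t, ht, rfl⟩; simpa only [h.inv hy] using h.Xd_cj hy c ht
theorem RC.cz (h : RC D) (hd : d ∈ D) (he : e ∈ D) (W : ∀ y ∈ D, y * d = d * y → ¬ Od e y) (k : ∀ r ∈ Xd D d, r * e = e * r) :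
    e ∈ Ec D d :=
  Ec_symm he ⟨hd, (h.E_iff he hd).2 (h.A_eq he hd fun z hz o => h.od_of hd hz (fun c => W z hz c.symm o) fun f =>
    h.fo_nc f he (h.L4 he hz hd o (k d ⟨hd, .inl rfl⟩) f) (k _ ⟨f, .inr (h.brl hd hz f)⟩))⟩
namespace RS
variable (h : RS D)
include h
theorem L (ha : a ∈ D) (hy : y ∈ D) (k : a * y ∈ D) (n : a ∉ Ec D y) (ha' : a' ∈ Ec D a) : a' * y ∈ D := by
  obtain ⟨r, hr, o, -, F⟩ := h.F7 hy ha k n
  obtain ⟨g, hg, eg⟩ := h.cls a ha r hr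
  have m : ∀ t ∈ Ec D a, g * t * g⁻¹ ∈ Ec D r := fun t ht => eg ▸ Ec_conj hg ht
  have fa : ∀ f ∈ Ec D r, Fo D f a := fun f hf => h.Ec_fo hr hf ha (h.fo_symm ha hr F)
  have l : ∀ f ∈ Ec D r, Fo D (f * a * f * a) y := fun f hf => h.br_symm hf.1 ha (fa f hf) ▸
    h.L4 hy hf.1 ha (h.Ec_od' hr hf hy o.symm).symm (h.comm ha hy k) (h.fo_symm hf.1 ha (fa f hf))
  let ψ : G → G := fun f => f * a * f * a * y * (f * a * f * a) * y
  obtain ⟨t, ht, e⟩ := (((Set.toFinite (Ec D a)).injOn_iff_bijOn_of_mapsTo (f := fun t => ψ (g * t * g⁻¹)) fun t ht =>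
    h.U (fa _ (m t ht)) hy ha (h.br_mul (m t ht).1 ha) (h.mul_symm ha hy k) (l _ (m t ht))).1 fun t ht t' ht' e => by
      have hf := m t ht; have hf' := m t' ht'
      suffices g * t * g⁻¹ = g * t' * g⁻¹ by simpa using this
      simp only [ψ] at e
      generalize g * t * g⁻¹ = f at *
      generalize g * t' * g⁻¹ = f' at *
      by_contra n
      have f2 := h.sq _ hf'.1
      have i := h.mulE r hr f hf f' hf' fun e => n wd[e & f2]
      have j := l _ i; have j' : _ ∈ D := fa _ i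
      rw [h.hom hr ha (h.fo_symm ha hr F) hf hf'] at j j'
      have c := h.comm (fa f hf) (fa f' hf') j'
      have p2 := h.sq _ (fa f hf); have p2' := h.sq _ (fa f' hf'); have y2 := h.sq y hy
      refine h.fo_nc j' hy j ?_
      generalize f * a * f * a = p at *
      generalize f' * a * f' * a = p' at *
      exact wd[e & c & p2 & p2' & y2]).surjOn ha'
  exact e ▸ h.br_mul (fa _ (m t ht)) hy
theorem Ec_Xd (hd : d ∈ D) (he : e ∈ Ec D d) : e ∈ Xd D d := ⟨he.1, (em _).imp_right fun n =>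
  (h.mulE d hd e he d (Ec_self hd) fun i => n (by have := h.sq d hd; exact wd[i & this])).1⟩
theorem L' (hd : d ∈ D) (he : e ∈ Ec D d) (hu : u ∈ D) (k : e * u ∈ D) : u ∈ Xd D d := by
  by_cases n : u ∈ Ec D d
  · exact h.Ec_Xd hd n
  · exact ⟨hu, .inr (h.mul_symm hd hu (h.L he.1 hu k (fun i => n (Ec_trans he (Ec_symm hu i))) (Ec_symm hd he)))⟩
theorem comm_le (hd : d ∈ D) : ⁅closure (Xd D d), closure (Xd D d)⁆ ≤ closure (Ec D d) := by
  refine comm_cl (fun u hu x hx => ?_) fun a ha b hb => ?_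
  · exact mem_C1.1 ((closure_le (C1(u) : Subgroup G)).2 (fun s hs => mem_C1.2 (mem_C1.1 ((closure_le (C1(s) : Subgroup G)).2
      (fun t ht => mem_C1.2 ((ht.2 s hs.1).1 (h.Xd_c hd hs)).symm) hu)).symm) hx)
  rcases h.tri ha.1 hb.1 with c | c | c
  · rw [commutatorElement_eq_one_iff_mul_comm.2 c]; exact one_mem _
  · exact absurd c (h.Xd_nod hd ha hb.1 (h.Xd_c hd hb))
  have n := h.fo_nc ha.1 hb.1 c
  rw [commutatorElement_def, h.inv ha.1, h.inv hb.1]
  exact subset_closure (h.U ha.1 hb.1 hd (ha.2.resolve_left fun e => n (e ▸ (h.Xd_c hd hb).symm))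
    (hb.2.resolve_left fun e => n (e ▸ h.Xd_c hd ha)) c)
theorem mem_E (hd : d ∈ D) (hu : u ∈ closure (Ec D d)) : u = 1 ∨ u ∈ Ec D d := by
  have i : ∀ x ∈ Ec D d, x⁻¹ = x := fun x hx => h.inv hx.1
  induction hu using closure_induction'' with
  | mem x hx => exact .inr hx
  | inv_mem x hx => exact .inr ((i x hx).symm ▸ hx)
  | one => exact .inl rfl
  | mul x y _ _ hx hy =>
    rcases hx with rfl | hx
    · rwa [one_mul]
    rcases hy with rfl | hy
    · exact .inr (by rwa [mul_one])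
    exact (em _).imp_right (h.mulE d hd x hx y hy)
theorem MD (hd : d ∈ D) (hu : u ∈ D) (uM : u ∈ closure (Xd D d)) : u ∈ Xd D d := by
  by_cases n : u ∈ Ec D d
  · exact h.Ec_Xd hd n
  obtain ⟨r, hr, c⟩ : ∃ r ∈ Xd D d, r * u ≠ u * r := by
    by_contra! k; exact n (h.cz hd hu (fun y hy => h.M_nod hd hu uM hy) k)
  have F := h.fo_of hu hr.1 c.symm (h.M_nod hd hu uM hr.1 (h.Xd_c hd hr))
  have := h.comm_le hd (commutator_mem_commutator uM (subset_closure hr))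
  rw [commutatorElement_def, h.inv hu, h.inv hr.1] at this
  exact h.L' hd ((h.mem_E hd this).resolve_left (h.ne _ F)) hu (h.brl hu hr.1 F)
theorem wa (hd : d ∈ D) (hw : w ∈ D) (c : w * d = d * w) (W : ∀ y ∈ D, y * d = d * y → ¬ Od w y) : w ∈ Xd D d := by
  by_cases n : w ∈ Ec D d
  · exact h.Ec_Xd hd n
  obtain ⟨r, hr, c'⟩ : ∃ r ∈ Xd D d, r * w ≠ w * r := by
    by_contra! k; exact n (h.cz hd hw W k)
  have F := h.fo_of hr.1 hw c' fun o => W r hr.1 (h.Xd_c hd hr) o.symm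
  have rd := hr.2.resolve_left fun e => c' (e ▸ c.symm)
  by_cases n' : r * w * r * w ∈ Ec D d
  · exact h.L' hd n' hw (h.br_mul hr.1 hw)
  exfalso
  have pd := (h.MD hd F (by
    rw [mul_assoc, mul_assoc, ← mul_assoc w]
    exact mul_mem (subset_closure hr) (subset_closure (h.Xd_cj hw c hr)))).2.resolve_left fun e => n' (e.symm ▸ Ec_self hd)
  obtain ⟨x, hx, o, o3, i⟩ := h.L6 hr.1 hw F
  have br := h.br3 hw hx o3
  have pw := h.br_mul hr.1 hw
  have hp : r * w * r * w ∈ D := F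
  generalize r * w * r * w = p at *
  have xr : x * r ∈ D := h.mul_symm hr.1 hx (i ▸ h.br_mul hp hx)
  have dx := h.fo_of hd hx (fun c => W x hx c.symm o) (h.X_nod hd hx hr.1 (h.mul_symm hr.1 hd rd) xr)
  have hg := h.U hd hx hr.1 (h.mul_symm hr.1 hd rd) xr dx
  have e1 := (h.nm hw hx o br hp pw (by unfold Fo; rw [i]; exact hr.1)).1
  have gw := h.Ec_fo hr.1 hg hw F
  obtain ⟨e2, e3⟩ := h.nm hx hw o.symm br.symm hg.1 (h.br_mul hd hx) gw
  have w2 := h.sq w hw; have x2 := h.sq x hx; have d2 := h.sq d hd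
  have hq := h.Ecj' (h.cnj x hx w hw) hg
  rw [e2, ← i, ← e1, br, show ∀ y, x * w * x * (x * w * x * y * (x * w * x)) * (x * w * x) = y from
    fun y => tr[[x, w, y]; w2 & x2]] at hq
  have gq := h.brl hg.1 hw gw
  have qw := h.br_mul hg.1 hw
  obtain ⟨g, eg⟩ : ∃ g, d * x * d * x = g := ⟨_, rfl⟩
  rw [eg] at e2 e3 hq gq qw hg gw
  obtain ⟨q, eq⟩ : ∃ q, g * w * g * w = q := ⟨_, rfl⟩
  rw [eq] at e2 e3 hq gq qw
  have qd := h.L hp hd pd n' hq
  obtain ⟨z, hz, o', br', F'⟩ := h.F7 hd hq.1 qd fun i => n' (Ec_trans i (Ec_symm hp hq))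
  have e4 := (h.nm hd hz o' br' hq.1 qd F').2
  have sq := h.brl hq.1 hz F'
  have hs : q * z * q * z ∈ D := F'
  generalize q * z * q * z = s at *
  have s2 := h.sq s hs; have q2 := h.sq q hq.1
  have c1 := h.comm hs hq.1 sq; have c2 := h.comm hq.1 hd qd
  refine W (s * x * s) (h.cnj s hs x hx) ?_ (h.opp hq.1 (h.cnj s hs x hx) hw (h.cnj s hs g hg.1)
    (by rw [← e3]; exact tr[[s, q, x]; c1 & s2]) ?_).1.symm
  · have e5 : s * d * s = q * d := by rw [← e4]; exact tr[[s, d]; d2]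
    refine cj_comm s2 ?_
    rw [e5]; rw [← e3] at eg; exact wd[eg & c2 & x2 & d2 & q2]
  rcases h.tri hg.1 hs with k | k | k
  · rw [← eq]; exact tr[[s, g, w]; k & s2]
  · exact absurd k (h.X_nod hg.1 hs hq.1 (h.mul_symm hq.1 hg.1 gq) sq)
  have hv := h.U hg.1 hs hq.1 (h.mul_symm hq.1 hg.1 gq) sq k
  have g2 := h.sq g hg.1
  have k1 := (hv.2 w hw).1 (h.comm hq.1 hw qw).symm; have k2 := (hv.2 g hg.1).1 (h.comm hq.1 hg.1 gq).symm
  have k3 := h.sq _ hv.1
  rw [show s * g * s = g * (g * s * g * s) from tr[[s, g]; g2], ← eq]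
  generalize g * s * g * s = v at *
  exact tr[[v, g, w]; k1 & k2 & k3]
end RS
end H13
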