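import Cfsg.Agent.H13.ReeTori2
import Cfsg.Agent.H13.Stem

/-! The Schur multiplier of the Ree group `²G₂(q)`, `q ≥ 27`, is trivial (`schur_trivial`); coordinates `c1`, `c2`,
`c3` on `U` and the subgroups `U1 = U'`, `ZU = Z(U)`. -/

set_option autoImplicit false

namespace H13

namespace Ree

open Subgroup
open scoped commutatorElement

universe u

variable {K : Type u} [Field K] [Fintype K] {m : ℕ} [hK : IsRee K m]

variable (K m) in
/-- the centre of `U` -/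
def ZU : Subgroup (R K m) where
  carrier := {g | ∃ b, g = u m 0 0 b}
  mul_mem' := by
    rintro _ _ ⟨a, rfl⟩ ⟨b, rfl⟩
    exact ⟨a + b, by simp [u_mul_u]⟩
  one_mem' := ⟨0, u_zero.symm⟩
  inv_mem' := by
    rintro _ ⟨a, rfl⟩
    exact ⟨-a, by simp [u_inv]⟩

variable (K m) in
/-- the derived subgroup of `U` -/
def U1 : Subgroup (R K m) where
  carrier := {g | ∃ a b, g = u m 0 a b}
  mul_mem' := by
    rintro _ _ ⟨a, b, rfl⟩ ⟨c, d, rfl⟩
    exact ⟨a + c, b + d, by simp [u_mul_u]⟩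
  one_mem' := ⟨0, 0, u_zero.symm⟩
  inv_mem' := by
    rintro _ ⟨a, b, rfl⟩
    exact ⟨-a, -b, by simp [u_inv]⟩

theorem ZU_le_U1 : ZU K m ≤ U1 K m := by
  rintro _ ⟨a, rfl⟩
  exact ⟨_, _, rfl⟩

theorem U1_le_U : U1 K m ≤ U K m := by
  rintro _ ⟨a, b, rfl⟩
  exact u_mem_U _ _ _

/-- the coordinates -/
noncomputable def co (g : R K m) : K × K × K := Function.invFun (fun p : K × K × K => u m p.1 p.2.1 p.2.2) g

@[simp] theorem co_u (t a b : K) : co (u m t a b) = (t, a, b) :=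
  Function.leftInverse_invFun (f := fun p : K × K × K => u m p.1 p.2.1 p.2.2)
    (fun _ _ e => Prod.ext (u_inj.1 e).1 (Prod.ext (u_inj.1 e).2.1 (u_inj.1 e).2.2)) (t, a, b)

/-- the first coordinate -/
noncomputable def c1 (g : R K m) : K := (co g).1
/-- the second coordinate -/
noncomputable def c2 (g : R K m) : K := (co g).2.1
/-- the third coordinate -/
noncomputable def c3' (g : R K m) : K := (co g).2.2

@[simp] theorem c1_u (t a b : K) : c1 (u m t a b) = t := by rw [c1, co_u]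
@[simp] theorem c2_u (t a b : K) : c2 (u m t a b) = a := by rw [c2, co_u]
@[simp] theorem c3_u (t a b : K) : c3' (u m t a b) = b := by rw [c3', co_u]

theorem c1_mul : ∀ x ∈ U K m, ∀ x' ∈ U K m, c1 (x * x') = c1 x + c1 x' := fun x hx x' hx' => by
  obtain ⟨t, a, b, rfl⟩ := mem_U.1 hx
  obtain ⟨t', a', b', rfl⟩ := mem_U.1 hx'
  simp [u_mul_u]

theorem c2_mul : ∀ x ∈ U1 K m, ∀ x' ∈ U1 K m, c2 (x * x') = c2 x + c2 x' := by
  rintro _ ⟨a, b, rfl⟩ _ ⟨c, d, rfl⟩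
  simp [u_mul_u]

theorem c3_mul : ∀ x ∈ ZU K m, ∀ x' ∈ ZU K m, c3' (x * x') = c3' x + c3' x' := by
  rintro _ ⟨a, rfl⟩ _ ⟨c, rfl⟩
  simp [u_mul_u]

theorem c1_surj (a : K) : ∃ x ∈ U K m, c1 x = a := ⟨u m a 0 0, u_mem_U _ _ _, c1_u _ _ _⟩
theorem c2_surj (a : K) : ∃ x ∈ U1 K m, c2 x = a := ⟨u m 0 a 0, ⟨a, 0, rfl⟩, c2_u _ _ _⟩
theorem c3_surj (a : K) : ∃ x ∈ ZU K m, c3' x = a := ⟨u m 0 0 a, ⟨a, rfl⟩, c3_u _ _ _⟩

theorem c1_conj (s : Kˣ) : ∀ x ∈ U K m, h m s * x * (h m s)⁻¹ ∈ U K m ∧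
    c1 (h m s * x * (h m s)⁻¹) = s * c1 x := fun x hx => by
  obtain ⟨t, a, b, rfl⟩ := mem_U.1 hx
  simp [h_conj_u, u_mem_U]

theorem c2_conj (s : Kˣ) : ∀ x ∈ U1 K m, h m s * x * (h m s)⁻¹ ∈ U1 K m ∧
    c2 (h m s * x * (h m s)⁻¹) = ph m (s : K) * s * c2 x := by
  rintro _ ⟨a, b, rfl⟩
  rw [h_conj_u, mul_zero]
  exact ⟨⟨_, _, rfl⟩, by simp⟩

theorem c3_conj (s : Kˣ) : ∀ x ∈ ZU K m, h m s * x * (h m s)⁻¹ ∈ ZU K m ∧
    c3' (h m s * x * (h m s)⁻¹) = ph m (s : K) * s ^ 2 * c3' x := by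
  rintro _ ⟨a, rfl⟩
  rw [h_conj_u, mul_zero, mul_zero]
  exact ⟨⟨_, rfl⟩, by simp⟩

theorem mem_U1_of_c1 {x : R K m} (hx : x ∈ U K m) (h0 : c1 x = 0) : x ∈ U1 K m := by
  obtain ⟨t, a, b, rfl⟩ := mem_U.1 hx
  rw [c1_u] at h0
  exact ⟨a, b, by rw [h0]⟩

theorem mem_ZU_of_c2 {x : R K m} (hx : x ∈ U1 K m) (h0 : c2 x = 0) : x ∈ ZU K m := by
  obtain ⟨a, b, rfl⟩ := hx
  rw [c2_u] at h0
  exact ⟨b, by rw [h0]⟩

theorem eq_one_of_c3 {x : R K m} (hx : x ∈ ZU K m) (h0 : c3' x = 0) : x = 1 := by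
  obtain ⟨b, rfl⟩ := hx
  rw [c3_u] at h0
  rw [h0, u_zero]

theorem comm_U_U1 {x y : R K m} (hx : x ∈ U K m) (hy : y ∈ U1 K m) : ⁅x, y⁆ = u m 0 0 (c1 x * c2 y) := by
  obtain ⟨t, a, b, rfl⟩ := mem_U.1 hx
  obtain ⟨c, d, rfl⟩ := hy
  rw [commutatorElement_def, u_inv, u_inv, u_mul_u, u_mul_u, u_mul_u, u_inj]
  simp only [map_neg, map_zero, c1_u, c2_u]
  grind

theorem comm_U_ZU {x y : R K m} (hx : x ∈ U K m) (hy : y ∈ ZU K m) : ⁅x, y⁆ = 1 := by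
  rw [comm_U_U1 hx (ZU_le_U1 hy)]
  obtain ⟨b, rfl⟩ := hy
  simp

theorem comm_U1_U1 {x y : R K m} (hx : x ∈ U1 K m) (hy : y ∈ U1 K m) : ⁅x, y⁆ = 1 := by
  rw [comm_U_U1 (U1_le_U hx) hy]
  obtain ⟨a, b, rfl⟩ := hx
  simp

theorem comm_U_U {x y : R K m} (hx : x ∈ U K m) (hy : y ∈ U K m) : ⁅x, y⁆ ∈ U1 K m := by
  obtain ⟨t, a, b, rfl⟩ := mem_U.1 hx
  obtain ⟨t', a', b', rfl⟩ := mem_U.1 hy
  obtain ⟨c, e⟩ := commutator_u (m := m) t a b t' a' b'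
  exact ⟨_, _, e⟩

theorem comm_U_inf_ker (hm : 1 ≤ m) {Γ : Type u} [Group Γ] [Finite Γ] {σ : Γ →* R K m}
    (hσ : Function.Surjective σ) (hc : σ.ker ≤ center Γ) :
    ⁅(U K m).comap σ, (U K m).comap σ⁆ ⊓ σ.ker = ⊥ := by
  have h8 := le_card (K := K) hm
  have k0 : ∀ a, ∀ v ∈ σ.ker, ⁅a, v⁆ ∈ (⊥ : Subgroup Γ) := fun a v hv => comm_eq_one_of_mem_ker hc a hv
  have sw : ∀ {W : Subgroup Γ} {a b : Γ}, ⁅a, b⁆ ∈ W → ⁅b, a⁆ ∈ W := fun h => by
    rw [← commutatorElement_inv]; exact inv_mem h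
  have kZ : ∀ a b, σ a ∈ U K m → σ b ∈ ZU K m → ⁅a, b⁆ ∈ σ.ker := fun a b ha hb => by
    rw [MonoidHom.mem_ker, map_commutatorElement, comm_U_ZU ha hb]
  have s1 : ∀ {a b}, σ a ∈ ZU K m → σ b ∈ ZU K m → ⁅a, b⁆ ∈ (⊥ : Subgroup Γ) :=
    comm_mem_of_rigid (rigid_pow (k := 1) one_ne_zero (by omega) fun a ha => by
        obtain ⟨s, hs⟩ := ph_mul_sq_surjective (m := m) a ha
        exact ⟨s, hs, by simpa using hs⟩)
      hσ (by simp) bot_le c3_mul c3_mul c3_surj c3_surj (fun a b ha hb => kZ a b (U1_le_U (ZU_le_U1 ha)) hb)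
      (fun a _ => k0 a) (fun a b ha hb h => h.elim (fun h => sw (k0 _ _ (eq_one_of_c3 ha h)))
        fun h => k0 _ _ (eq_one_of_c3 hb h)) (h m) c3_conj c3_conj fun _ g _ => k0 g
  have s2 : ∀ {a b}, σ a ∈ U1 K m → σ b ∈ ZU K m → ⁅a, b⁆ ∈ (⊥ : Subgroup Γ) :=
    comm_mem_of_rigid (rigid_neg ⟨-1, by simp, by simp⟩)
      hσ (by simp) bot_le c2_mul c3_mul c2_surj c3_surj (fun a b ha hb => kZ a b (U1_le_U ha) hb)
      (fun a _ => k0 a) (fun a b ha hb h => h.elim (fun h => s1 (mem_ZU_of_c2 ha h) hb)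
        fun h => k0 _ _ (eq_one_of_c3 hb h)) (h m) c2_conj c3_conj fun _ g _ => k0 g
  have s3 : ∀ {a b}, σ a ∈ U K m → σ b ∈ ZU K m → ⁅a, b⁆ ∈ (⊥ : Subgroup Γ) :=
    comm_mem_of_rigid (rigid_pow (k := 3 ^ (m + 1) + 2) (by positivity) (by
        obtain ⟨n, rfl⟩ := Nat.exists_eq_add_of_le hm
        have : 1 ≤ 3 ^ n := Nat.one_le_pow _ _ (by norm_num)
        rw [hK.card, show 3 ^ (2 * (1 + n) + 1) = 27 * (3 ^ n * 3 ^ n) by ring,
          show 3 ^ (1 + n + 1) = 9 * 3 ^ n by ring]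
        nlinarith) fun a ha => ⟨Units.mk0 a ha, rfl, by rw [pow_add a, ← ph_def (m := m)]; rfl⟩)
      hσ (by simp) bot_le c1_mul c3_mul c1_surj c3_surj kZ
      (fun a _ => k0 a) (fun a b ha hb h => h.elim (fun h => s2 (mem_U1_of_c1 ha h) hb)
        fun h => k0 _ _ (eq_one_of_c3 hb h)) (h m) c1_conj c3_conj fun _ g _ => k0 g
  have s4 : ∀ {a b}, σ a ∈ U1 K m → σ b ∈ U1 K m → ⁅a, b⁆ ∈ (⊥ : Subgroup Γ) :=
    comm_mem_of_rigid (rigid_sq (by omega) fun a ha => by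
        obtain ⟨k, hk⟩ := exists_sq (m := m) (Units.mk0 a ha)
        obtain ⟨s, hs⟩ := exists_ph_mul (m := m) k
        refine ⟨s, rfl, hk.imp (fun e => hs.trans ?_) fun e => hs.trans ?_⟩
        · simpa using (congrArg Units.val e).symm
        · simpa [eq_neg_iff_add_eq_zero, add_comm] using congrArg Units.val e)
      hσ (by simp) bot_le c2_mul c2_mul c2_surj c2_surj
      (fun a b ha hb => by rw [MonoidHom.mem_ker, map_commutatorElement, comm_U1_U1 ha hb])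
      (fun a _ => k0 a) (fun a b ha hb h => h.elim (fun h => sw (s2 hb (mem_ZU_of_c2 ha h)))
        fun h => s2 ha (mem_ZU_of_c2 hb h)) (h m) c2_conj c2_conj fun _ g _ => k0 g
  obtain ⟨s, hs⟩ := IsCyclic.exists_generator (α := Kˣ)
  obtain ⟨g, hg⟩ := hσ (h m s)
  have hV : ∀ a ∈ (U1 K m).comap σ, ∀ b ∈ (U1 K m).comap σ, a * b = b * a := fun a ha b hb =>
    commutatorElement_eq_one_iff_mul_comm.1 (s4 ha hb)
  obtain ⟨W, hW1, hW2, hW3⟩ := exists_compl hc hV (g := g) (fun v hv => by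
    rw [mem_comap, map_mul, map_mul, map_inv, hg]; exact (c2_conj s _ hv).1) fun v hv e => by
      obtain ⟨t, ht, ht'⟩ := exists_unit (K := K) hm
      have hs1 : s ≠ 1 := by
        rintro rfl
        exact ht (by simpa using hs t)
      have hs2 : s ≠ -1 := by
        rintro rfl
        obtain ⟨k, rfl⟩ := hs t
        rcases Int.even_or_odd k with hk | hk
        · exact ht hk.neg_one_zpow
        · exact ht' hk.neg_one_zpow
      have : σ v ∈ H K m := by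
        rw [← centralizer_h hs1 hs2, mem_centralizer_singleton_iff, ← hg, e]
      obtain ⟨t, ht⟩ := mem_H.1 this
      rw [← ht, h_mem_U.1 (show h m t ∈ U K m from ht ▸ U1_le_U hv), h_one]
  have hW4 : ∀ t g', σ g' = h m t → ∀ v ∈ (U1 K m).comap σ, ⁅g', v⁆ ∈ W := fun t g' e => hW3 g' (by
    obtain ⟨k, rfl⟩ := hs t
    exact ⟨k, by rw [e, hg]; exact (map_zpow (hHom K m) s k).symm⟩)
  have k1 : ∀ {W : Subgroup Γ} {x}, x ∈ (⊥ : Subgroup Γ) → x ∈ W := fun {W} _ hx => bot_le (a := W) hx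
  have s5 : ∀ {a b}, σ a ∈ U K m → σ b ∈ U1 K m → ⁅a, b⁆ ∈ W ⊓ (ZU K m).comap σ :=
    comm_mem_of_rigid (V := (ZU K m).comap σ) (rigid_neg ⟨-1, by simp, by simp⟩).swap
      hσ (fun v hv x hx => by rwa [hV v (ZU_le_U1 hv) x (hW1 hx.1), mul_inv_cancel_right]) inf_le_right
      c1_mul c2_mul c1_surj c2_surj
      (fun a b ha hb => by rw [mem_comap, map_commutatorElement, comm_U_U1 ha hb]; exact ⟨_, rfl⟩)
      (fun a ha v hv => k1 (s3 (ha.elim id fun h => U1_le_U h) hv))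
      (fun a b ha hb h => h.elim (fun h => k1 (s4 (mem_U1_of_c1 ha h) hb))
        fun h => k1 (s3 ha (mem_ZU_of_c2 hb h))) (h m) c1_conj c2_conj fun t g' e v hv =>
          mem_inf.2 ⟨hW4 t g' e v (ZU_le_U1 hv), by
            rw [mem_comap, map_commutatorElement, e, commutatorElement_def]
            exact mul_mem (c3_conj t _ hv).1 (inv_mem hv)⟩
  rw [eq_bot_iff, ← hW2]
  refine inf_le_inf_right _ (commutator_le.2 fun a ha b hb => ?_)
  exact comm_mem_of_rigid (rigid_pow (k := 1) one_ne_zero (by omega) fun a ha =>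
        ⟨Units.mk0 a ha, rfl, (pow_one _).symm⟩)
      hσ (fun v hv x hx => by rwa [hV v hv x (hW1 hx), mul_inv_cancel_right]) hW1 c1_mul c1_mul c1_surj c1_surj
      (fun a b ha hb => by rw [mem_comap, map_commutatorElement]; exact comm_U_U ha hb)
      (fun a ha v hv => (s5 (ha.elim id id) hv).1) (fun a b ha hb h => h.elim
        (fun h => sw (s5 hb (mem_U1_of_c1 ha h)).1) fun h => (s5 ha (mem_U1_of_c1 hb h)).1) (h m) c1_conj c1_conj
      hW4 ha hb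

theorem comm_sylow_two {Γ : Type*} [Group Γ] {σ : Γ →* R K m} (hσ : Function.Surjective σ)
    (hc : σ.ker ≤ center Γ) : ∃ S : Sylow 2 (R K m), ⁅(S : Subgroup (R K m)).comap σ, (S : Subgroup _).comap σ⁆ = ⊥ := by
  classical
  obtain ⟨S, hj, hw⟩ := exists_sylow_V (K := K)
  obtain ⟨x, hx⟩ := hσ (j K m)
  obtain ⟨y, hy⟩ := hσ (w K m)
  have k1 : ∀ a b, σ a * σ b = σ b * σ a → ∀ g, g * ⁅a, b⁆ * g⁻¹ = ⁅a, b⁆ := fun a b e g => by
    rw [mem_center_iff.1 (hc (show ⁅a, b⁆ ∈ σ.ker by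
      rw [MonoidHom.mem_ker, map_commutatorElement, commutatorElement_eq_one_iff_mul_comm, e])) g,
      mul_inv_cancel_right]
  have k2 : ∀ a b, σ a ∈ S → σ b ∈ S → σ a ≠ 1 → σ b ≠ 1 → σ a ≠ σ b → ⁅a, b⁆ = ⁅x, y⁆ := fun a b ha hb h1 h2 h3 => by
    obtain ⟨g, e1, e2⟩ := exists_conj_pair (sq_of_mem_sylow S ha) (sq_of_mem_sylow S hb)
      (comm_of_mem_sylow S _ ha _ hb) h1 h2 h3
    obtain ⟨g, rfl⟩ := hσ g
    have e3 := k1 x y (by rw [hx, hy, j_mul_w])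
    rw [← hx, ← map_inv, ← map_mul, ← map_mul] at e1
    rcases e2 with e2 | e2
    · rw [← hy, ← map_inv, ← map_mul, ← map_mul] at e2
      rw [comm_congr hc e1 e2, ← conjugate_commutatorElement, e3]
    · rw [← hx, ← hy, ← map_inv, ← map_mul, ← map_mul, ← map_mul] at e2
      rw [comm_congr hc e1 e2, ← conjugate_commutatorElement,
        show ⁅x, x * y⁆ = x * ⁅x, y⁆ * x⁻¹ by group, e3, e3]
  obtain ⟨t, ht, h1⟩ : ∃ t ∈ S, t ∉ ({1, j K m, w K m, w K m * j K m} : Finset (R K m)) := by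
    by_contra hn
    push Not at hn
    have := Set.ncard_le_ncard (s := (S : Set (R K m))) (t := ({1, j K m, w K m, w K m * j K m} : Finset (R K m))) hn
    rw [Set.ncard_coe_finset, ← Nat.card_coe_set_eq] at this
    have h2 := card_sylow_two S
    have h3 : ({1, j K m, w K m, w K m * j K m} : Finset (R K m)).card ≤ 4 := Finset.card_le_four
    exact absurd (h2.symm.trans_le (this.trans h3)) (by norm_num)
  simp only [Finset.mem_insert, Finset.mem_singleton, not_or] at h1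
  obtain ⟨z, rfl⟩ := hσ t
  have k3 : ⁅x, y⁆ = 1 := by
    have e1 := k2 x z (hx ▸ hj) ht (hx ▸ j_ne_one) h1.1 (hx ▸ Ne.symm h1.2.1)
    have e2 := k2 x (y * z) (hx ▸ hj) (by rw [map_mul, hy]; exact S.mul_mem hw ht) (hx ▸ j_ne_one)
      (by rw [map_mul, hy, Ne, mul_eq_one_iff_inv_eq, w_inv]; exact Ne.symm h1.2.2.1)
      (by rw [map_mul, hy, hx, Ne, ← inv_mul_eq_iff_eq_mul, w_inv]; exact Ne.symm h1.2.2.2)
    rw [show ⁅x, y * z⁆ = ⁅x, y⁆ * (y * ⁅x, z⁆ * y⁻¹) by group, e1, k1 x y (by rw [hx, hy, j_mul_w])] at e2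
    exact mul_eq_left.1 e2
  refine ⟨S, eq_bot_iff.2 (commutator_le.2 fun a ha b hb => mem_bot.2 ?_)⟩
  by_cases h2 : σ a = 1
  · rw [← commutatorElement_inv, comm_eq_one_of_mem_ker hc b h2, inv_one]
  by_cases h3 : σ b = 1
  · exact comm_eq_one_of_mem_ker hc a h3
  by_cases h4 : σ a = σ b
  · rw [comm_congr hc h4 rfl, commutatorElement_self]
  · rw [k2 a b ha hb h2 h3 h4, k3]

theorem schur_trivial (hm : 1 ≤ m) : Cfsg.HasCyclicSchurMultiplier (R K m) 1 := by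
  refine H21.schur_trivial_of_forall_stem fun Γ _ _ σ hσ => ker_eq_bot_of_forall_prime hσ fun p hp => ?_
  have := Fact.mk hp
  rcases eq_or_ne p 3 with rfl | h3
  · exact ⟨U K m, (sylowU K m).not_dvd_index, comm_U_inf_ker hm hσ.1 hσ.2.1⟩
  rcases eq_or_ne p 2 with rfl | h2
  · obtain ⟨S, hS⟩ := comm_sylow_two hσ.1 hσ.2.1
    exact ⟨S, S.not_dvd_index, by rw [hS, bot_inf_eq]⟩
  · obtain ⟨P⟩ := Sylow.nonempty (p := p) (G := R K m)
    have := isCyclic_of_isPGroup hm h2 h3 P.isPGroup'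
    exact ⟨P, P.not_dvd_index, by rw [comm_comap_of_isCyclic hσ.2.1, bot_inf_eq]⟩

end Ree

end H13
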